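import Mathlib
import Cfsg.Prelude.Def_Transfer
import Cfsg.Agent.Lib.PGroup.AFree
import Cfsg.Agent.Lib.PGroup.Critical
import Cfsg.Agent.Lib.Basic.PCore
import Cfsg.Agent.Lib.Solvable.PSeries

/-!
# The `2`-core of a solvable group with a non-cyclic abelian subgroup of order eight
-/

namespace Cfsg.Agent.Lib.PGroup.AFreeCore

open Subgroup Cfsg.Agent.Lib.PGroup.AFree

section Q8

set_option maxRecDepth 100000 in
theorem q8_a : ∀ x y : QuaternionGroup 2, x ^ 2 = 1 → y ^ 2 = 1 → x = 1 ∨ y = 1 ∨ x = y := by decide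

set_option maxRecDepth 100000 in
theorem q8_b : ∀ i j : QuaternionGroup 2, i ^ 2 ≠ 1 → j ≠ 1 → j ≠ i → j ≠ i ^ 2 → j ≠ i⁻¹ →
    j * i * j⁻¹ = i⁻¹ ∧ j ^ 2 = i ^ 2 := by decide

set_option maxRecDepth 100000 in
theorem q8_c : ∀ i x : QuaternionGroup 2, i ^ 2 ≠ 1 → x * i = i * x →
    x = 1 ∨ x = i ∨ x = i ^ 2 ∨ x = i⁻¹ := by decide

set_option maxRecDepth 100000 in
theorem q8_d : ∀ i j x : QuaternionGroup 2, i ^ 2 ≠ 1 → j ≠ 1 → j ≠ i → j ≠ i ^ 2 → j ≠ i⁻¹ →
    x * i = i * x → x * j = j * x → x = 1 ∨ x = i ^ 2 := by decide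

set_option maxRecDepth 100000 in
theorem q8_f : ∀ i j y : QuaternionGroup 2, i ^ 2 ≠ 1 → j ≠ 1 → j ≠ i → j ≠ i ^ 2 → j ≠ i⁻¹ →
    y = 1 ∨ y = i ∨ y = i ^ 2 ∨ y = i⁻¹ ∨ y = j ∨ y = j * i ∨ y = j * i ^ 2 ∨ y = j * i⁻¹ := by decide

set_option maxRecDepth 100000 in
theorem q8_e : ∀ x : QuaternionGroup 2, x ^ 4 = 1 := by decide

end Q8

variable {S : Type*} [Group S]

section Transport

variable {Q : Type*} [Group Q] (e : Q ≃* QuaternionGroup 2)
include e

theorem qq_a (x y : Q) (hx : x ^ 2 = 1) (hy : y ^ 2 = 1) : x = 1 ∨ y = 1 ∨ x = y := by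
  rcases q8_a (e x) (e y) (by rw [← map_pow, hx, map_one]) (by rw [← map_pow, hy, map_one])
    with h | h | h
  · left; exact e.injective (by simpa using h)
  · right; left; exact e.injective (by simpa using h)
  · right; right; exact e.injective h

theorem qq_hyp {i : Q} (hi : i ^ 2 ≠ 1) : (e i) ^ 2 ≠ 1 := by
  intro h
  apply hi
  apply e.injective
  simpa using h

theorem qq_ne {a b : Q} (h : a ≠ b) : e a ≠ e b := fun h' => h (e.injective h')

theorem qq_b (i j : Q) (hi : i ^ 2 ≠ 1) (h1 : j ≠ 1) (h2 : j ≠ i) (h3 : j ≠ i ^ 2) (h4 : j ≠ i⁻¹) :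
    j * i * j⁻¹ = i⁻¹ ∧ j ^ 2 = i ^ 2 := by
  obtain ⟨h5, h6⟩ := q8_b (e i) (e j) (qq_hyp e hi) (by simpa using qq_ne e h1) (qq_ne e h2)
    (by simpa using qq_ne e h3) (by simpa using qq_ne e h4)
  refine ⟨e.injective (by simpa using h5), e.injective (by simpa using h6)⟩

theorem qq_c (i x : Q) (hi : i ^ 2 ≠ 1) (hx : x * i = i * x) :
    x = 1 ∨ x = i ∨ x = i ^ 2 ∨ x = i⁻¹ := by
  have h0 : e x * e i = e i * e x := by rw [← map_mul, hx, map_mul]
  rcases q8_c (e i) (e x) (qq_hyp e hi) h0 with h | h | h | h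
  · left; exact e.injective (by simpa using h)
  · right; left; exact e.injective h
  · right; right; left; exact e.injective (by simpa using h)
  · right; right; right; exact e.injective (by simpa using h)

theorem qq_d (i j x : Q) (hi : i ^ 2 ≠ 1) (h1 : j ≠ 1) (h2 : j ≠ i) (h3 : j ≠ i ^ 2) (h4 : j ≠ i⁻¹)
    (hx : x * i = i * x) (hx' : x * j = j * x) : x = 1 ∨ x = i ^ 2 := by
  have h0 : e x * e i = e i * e x := by rw [← map_mul, hx, map_mul]
  have h0' : e x * e j = e j * e x := by rw [← map_mul, hx', map_mul]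
  rcases q8_d (e i) (e j) (e x) (qq_hyp e hi) (by simpa using qq_ne e h1) (qq_ne e h2)
    (by simpa using qq_ne e h3) (by simpa using qq_ne e h4) h0 h0' with h | h
  · left; exact e.injective (by simpa using h)
  · right; exact e.injective (by simpa using h)

theorem qq_f (i j y : Q) (hi : i ^ 2 ≠ 1) (h1 : j ≠ 1) (h2 : j ≠ i) (h3 : j ≠ i ^ 2) (h4 : j ≠ i⁻¹) :
    y = 1 ∨ y = i ∨ y = i ^ 2 ∨ y = i⁻¹ ∨ y = j ∨ y = j * i ∨ y = j * i ^ 2 ∨ y = j * i⁻¹ := by
  rcases q8_f (e i) (e j) (e y) (qq_hyp e hi) (by simpa using qq_ne e h1) (qq_ne e h2)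
    (by simpa using qq_ne e h3) (by simpa using qq_ne e h4) with h | h | h | h | h | h | h | h
  · left; exact e.injective (by simpa using h)
  · right; left; exact e.injective h
  · right; right; left; exact e.injective (by simpa using h)
  · right; right; right; left; exact e.injective (by simpa using h)
  · right; right; right; right; left; exact e.injective h
  · right; right; right; right; right; left; exact e.injective (by simpa using h)
  · right; right; right; right; right; right; left; exact e.injective (by simpa using h)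
  · right; right; right; right; right; right; right; exact e.injective (by simpa using h)

end Transport

/-- Conjugates of `w` under a subgroup `A` among `a, b`: the centralizer in `A` has index at most two. -/
theorem index_centralizer_subgroupOf_le_two [Finite S] (A : Subgroup S) {w a b : S}
    (h : ∀ g ∈ A, g * w * g⁻¹ = a ∨ g * w * g⁻¹ = b) :
    ((centralizer ({w} : Set S)).subgroupOf A).index ≤ 2 := by
  classical
  set C := (centralizer ({w} : Set S)).subgroupOf A with hC
  have hmem : ∀ g g' : A, g⁻¹ * g' ∈ C ↔ (g : S) * w * (g : S)⁻¹ = (g' : S) * w * (g' : S)⁻¹ := by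
    intro g g'
    rw [hC, Subgroup.mem_subgroupOf, Subgroup.mem_centralizer_singleton_iff]
    push_cast
    constructor
    · intro h1
      have h2 : (g' : S) = g * ((g : S)⁻¹ * g') := by group
      rw [h2]
      have h3 : ((g : S)⁻¹ * g') * w * ((g : S)⁻¹ * g')⁻¹ = w := by rw [h1]; group
      calc (g : S) * w * (g : S)⁻¹ = g * (((g : S)⁻¹ * g') * w * ((g : S)⁻¹ * g')⁻¹) * (g : S)⁻¹ := by
              rw [h3]
        _ = _ := by group
    · intro h1
      have h2 : (g : S)⁻¹ * ((g' : S) * w * (g' : S)⁻¹) * g = w := by rw [← h1]; group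
      calc (g : S)⁻¹ * g' * w = (g : S)⁻¹ * ((g' : S) * w * (g' : S)⁻¹) * g * ((g : S)⁻¹ * g') := by group
        _ = w * ((g : S)⁻¹ * g') := by rw [h2]
  let f : A ⧸ C → ({a, b} : Finset S) := fun q =>
    Quotient.liftOn' q (fun g => (⟨(g : S) * w * (g : S)⁻¹, by
      rcases h g g.2 with h1 | h1 <;> simp [h1]⟩ : ({a, b} : Finset S))) (by
      intro g g' hgg
      apply Subtype.ext
      exact (hmem g g').mp (QuotientGroup.leftRel_apply.mp hgg))
  have hf : Function.Injective f := by
    intro q q'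
    induction q using QuotientGroup.induction_on with
    | H g =>
      induction q' using QuotientGroup.induction_on with
      | H g' =>
        intro hh
        have h1 : (g : S) * w * (g : S)⁻¹ = (g' : S) * w * (g' : S)⁻¹ := congrArg Subtype.val hh
        exact QuotientGroup.eq.mpr ((hmem g g').mpr h1)
  have h1 := Nat.card_le_card_of_injective f hf
  rw [Nat.card_eq_fintype_card (α := ({a, b} : Finset S)), Fintype.card_coe] at h1
  exact h1.trans Finset.card_le_two

/-- The quaternion group of order `8` can't be a self-centralizing normal subgroup when a noncyclic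
abelian `2`-subgroup of order `8` exists. -/
theorem q8_final [Finite S] {Q : Subgroup S} [hQn : Q.Normal] (e : Q ≃* QuaternionGroup 2)
    (hC : centralizer (Q : Set S) ≤ Q) {A : Subgroup S}
    (hAc : IsMulCommutative A) (hAn : ¬ IsCyclic A) (hA8 : Nat.card A = 8) : False := by
  classical
  haveI : Fact (Nat.Prime 2) := ⟨Nat.prime_two⟩
  have hQ8 : Nat.card Q = 8 := by
    rw [Nat.card_congr e.toEquiv, Nat.card_eq_fintype_card, QuaternionGroup.card]
  have hQ2 : IsPGroup 2 Q := IsPGroup.of_card (n := 3) (by rw [hQ8]; norm_num)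
  have hA2 : IsPGroup 2 A := IsPGroup.of_card (n := 3) (by rw [hA8]; norm_num)
  set T := Q ⊔ A with hT
  have hT2 : IsPGroup 2 T := IsPGroup.to_sup_of_normal_left hQ2 hA2
  have hQT : Q ≤ T := le_sup_left
  have hAT : A ≤ T := le_sup_right
  haveI hNn : (Q.subgroupOf T).Normal := inferInstance
  have hNc : Nat.card (Q.subgroupOf T) = 8 := by
    rw [Nat.card_congr (Subgroup.subgroupOfEquivOfLe hQT).toEquiv, hQ8]
  obtain ⟨M, hMQ, hMn, hM4⟩ := Cfsg.Agent.Lib.PGroup.Critical.exists_normal_le_card (p := 2) hT2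
    (Q.subgroupOf T) (k := 2) (by rw [hNc]; norm_num)
  set W := M.map T.subtype with hW
  have hWQ : W ≤ Q := by
    rintro _ ⟨m, hm, rfl⟩
    exact hMQ hm
  have hW4 : Nat.card W = 4 := by
    rw [hW, Nat.card_congr (M.equivMapOfInjective _ T.subtype_injective).symm.toEquiv, hM4]
    norm_num
  have hWn : ∀ a ∈ A, ∀ w ∈ W, a * w * a⁻¹ ∈ W := by
    rintro a ha _ ⟨m, hm, rfl⟩
    refine ⟨⟨a, hAT ha⟩ * m * ⟨a, hAT ha⟩⁻¹, hMn.conj_mem m hm _, ?_⟩
    simp
  -- an element of order four in `W`
  have hQa : ∀ x y : S, x ∈ Q → y ∈ Q → x ^ 2 = 1 → y ^ 2 = 1 → x = 1 ∨ y = 1 ∨ x = y := by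
    intro x y hx hy h1 h2
    rcases qq_a e ⟨x, hx⟩ ⟨y, hy⟩ (Subtype.ext (by simpa using h1)) (Subtype.ext (by simpa using h2))
      with h | h | h
    · left; simpa using congrArg Subtype.val h
    · right; left; simpa using congrArg Subtype.val h
    · right; right; simpa using congrArg Subtype.val h
  obtain ⟨i, hiW, hi2⟩ : ∃ i ∈ W, i ^ 2 ≠ 1 := by
    by_contra hcon
    push Not at hcon
    have h2 : 2 < Nat.card W := by omega
    haveI := Fintype.ofFinite W
    rw [Nat.card_eq_fintype_card, Fintype.two_lt_card_iff] at h2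
    obtain ⟨a, b, c, hab, hac, hbc⟩ := h2
    have hab' : (a : S) ≠ b := fun h => hab (Subtype.ext h)
    have hac' : (a : S) ≠ c := fun h => hac (Subtype.ext h)
    have hbc' : (b : S) ≠ c := fun h => hbc (Subtype.ext h)
    have h1 := hQa a b (hWQ a.2) (hWQ b.2) (hcon a a.2) (hcon b b.2)
    have h3 := hQa a c (hWQ a.2) (hWQ c.2) (hcon a a.2) (hcon c c.2)
    have h4 := hQa b c (hWQ b.2) (hWQ c.2) (hcon b b.2) (hcon c c.2)
    rcases h1 with h1 | h1 | h1
    · rcases h4 with h4 | h4 | h4
      · exact hab' (h1.trans h4.symm)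
      · exact hac' (h1.trans h4.symm)
      · exact hbc' h4
    · rcases h3 with h3 | h3 | h3
      · exact hab' (h3.trans h1.symm)
      · exact hbc' (h1.trans h3.symm)
      · exact hac' h3
    · exact hab' h1
  have hiQ : i ∈ Q := hWQ hiW
  have hi4 : i ^ 4 = 1 := by
    have := pow_card_eq_one' (x := (⟨i, hiW⟩ : W))
    rw [hW4] at this
    simpa using congrArg Subtype.val this
  have hord : orderOf i = 4 := by
    have h : orderOf i = 2 ^ (1 + 1) := orderOf_eq_prime_pow (p := 2) (n := 1) (by simpa using hi2)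
      (by simpa using hi4)
    simpa using h
  have hWz : W = zpowers i := by
    symm
    apply Subgroup.eq_of_le_of_card_ge
    · rw [Subgroup.zpowers_le]; exact hiW
    · rw [hW4, Nat.card_zpowers, hord]
  have hWc : ∀ t ∈ W, t = 1 ∨ t = i ∨ t = i ^ 2 ∨ t = i⁻¹ := by
    intro t ht
    rw [hWz] at ht
    exact zpowers_four_cases hord ht
  -- an element outside `W`
  obtain ⟨j, hjQ, hjW⟩ : ∃ j ∈ Q, j ∉ W := by
    by_contra hcon
    push Not at hcon
    have h1 : Q ≤ W := fun x hx => hcon x hx
    have := Subgroup.card_le_of_le h1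
    omega
  have hj1 : j ≠ 1 := fun h => hjW (h ▸ W.one_mem)
  have hj2 : j ≠ i := fun h => hjW (h ▸ hiW)
  have hj3 : j ≠ i ^ 2 := fun h => hjW (h ▸ W.pow_mem hiW 2)
  have hj4 : j ≠ i⁻¹ := fun h => hjW (h ▸ W.inv_mem hiW)
  let iq : Q := ⟨i, hiQ⟩
  let jq : Q := ⟨j, hjQ⟩
  have hiq : iq ^ 2 ≠ 1 := fun h => hi2 (by simpa [iq] using congrArg Subtype.val h)
  have hjq1 : jq ≠ 1 := fun h => hj1 (by simpa [jq] using congrArg Subtype.val h)
  have hjq2 : jq ≠ iq := fun h => hj2 (by simpa [jq, iq] using congrArg Subtype.val h)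
  have hjq3 : jq ≠ iq ^ 2 := fun h => hj3 (by simpa [jq, iq] using congrArg Subtype.val h)
  have hjq4 : jq ≠ iq⁻¹ := fun h => hj4 (by simpa [jq, iq] using congrArg Subtype.val h)
  -- the relations
  obtain ⟨hjk1, hjk2⟩ : j * i * j⁻¹ = i⁻¹ ∧ j ^ 2 = i ^ 2 := by
    obtain ⟨h1, h2⟩ := qq_b e iq jq hiq hjq1 hjq2 hjq3 hjq4
    exact ⟨by simpa [iq, jq] using congrArg Subtype.val h1, by simpa [iq, jq] using congrArg Subtype.val h2⟩
  have hQf : ∀ y ∈ Q, y = 1 ∨ y = i ∨ y = i ^ 2 ∨ y = i⁻¹ ∨ y = j ∨ y = j * i ∨ y = j * i ^ 2 ∨ y = j * i⁻¹ := by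
    intro y hy
    rcases qq_f e iq jq ⟨y, hy⟩ hiq hjq1 hjq2 hjq3 hjq4 with h | h | h | h | h | h | h | h
    · left; simpa [iq, jq] using congrArg Subtype.val h
    · right; left; simpa [iq, jq] using congrArg Subtype.val h
    · right; right; left; simpa [iq, jq] using congrArg Subtype.val h
    · right; right; right; left; simpa [iq, jq] using congrArg Subtype.val h
    · right; right; right; right; left; simpa [iq, jq] using congrArg Subtype.val h
    · right; right; right; right; right; left; simpa [iq, jq] using congrArg Subtype.val h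
    · right; right; right; right; right; right; left; simpa [iq, jq] using congrArg Subtype.val h
    · right; right; right; right; right; right; right; simpa [iq, jq] using congrArg Subtype.val h
  have hQc : ∀ x ∈ Q, x * i = i * x → x = 1 ∨ x = i ∨ x = i ^ 2 ∨ x = i⁻¹ := by
    intro x hx hxi
    have h0 : (⟨x, hx⟩ : Q) * iq = iq * ⟨x, hx⟩ := Subtype.ext (by simpa [iq] using hxi)
    rcases qq_c e iq ⟨x, hx⟩ hiq h0 with h | h | h | h
    · left; simpa [iq] using congrArg Subtype.val h
    · right; left; simpa [iq] using congrArg Subtype.val h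
    · right; right; left; simpa [iq] using congrArg Subtype.val h
    · right; right; right; simpa [iq] using congrArg Subtype.val h
  have hQd : ∀ x ∈ Q, x * i = i * x → x * j = j * x → x = 1 ∨ x = i ^ 2 := by
    intro x hx hxi hxj
    have h0 : (⟨x, hx⟩ : Q) * iq = iq * ⟨x, hx⟩ := Subtype.ext (by simpa [iq] using hxi)
    have h0' : (⟨x, hx⟩ : Q) * jq = jq * ⟨x, hx⟩ := Subtype.ext (by simpa [jq] using hxj)
    rcases qq_d e iq jq ⟨x, hx⟩ hiq hjq1 hjq2 hjq3 hjq4 h0 h0' with h | h
    · left; simpa [iq] using congrArg Subtype.val h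
    · right; simpa [iq] using congrArg Subtype.val h
  -- an element commuting with `i` and `j` lies in `Q`
  have hcomm : ∀ x : S, x * i = i * x → x * j = j * x → x ∈ Q := by
    intro x h1 h2
    apply hC
    rw [Subgroup.mem_centralizer_iff]
    intro y hy
    have hci : Commute x i := h1
    have hcj : Commute x j := h2
    have hci' := hci.inv_right
    have hci2 := hci.pow_right 2
    have h3 : Commute x y := by
      rcases hQf y hy with h | h | h | h | h | h | h | h <;> rw [h]
      · exact Commute.one_right x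
      · exact hci
      · exact hci2
      · exact hci'
      · exact hcj
      · exact hcj.mul_right hci
      · exact hcj.mul_right hci2
      · exact hcj.mul_right hci'
    exact h3.eq.symm
  have hjii : j * i = i⁻¹ * j := by
    calc j * i = (j * i * j⁻¹) * j := by group
      _ = i⁻¹ * j := by rw [hjk1]
  have hi3 : i ^ 2 * i = i⁻¹ := by
    apply eq_inv_of_mul_eq_one_left
    rw [← pow_succ, ← pow_succ]
    exact hi4
  have hij : i * j = j * i⁻¹ := by
    have h1 : j * i⁻¹ * j⁻¹ = i := by
      have h2 := congrArg (fun t => t⁻¹) hjk1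
      simpa [mul_assoc] using h2
    calc i * j = (j * i⁻¹ * j⁻¹) * j := by rw [h1]
      _ = j * i⁻¹ := by group
  -- the case `d⁻¹ j d = j i²`
  have hsq : ∀ d : S, d * i = i * d → d⁻¹ * j * d = j * i ^ 2 → (d * i) * j = j * (d * i) := by
    intro d hdi hdj
    have h1 : j * d = d * (j * i ^ 2) := by
      rw [← hdj]; group
    calc (d * i) * j = d * (i * j) := by group
      _ = d * (j * i⁻¹) := by rw [hij]
      _ = d * (j * (i ^ 2 * i)) := by rw [hi3]
      _ = (d * (j * i ^ 2)) * i := by group
      _ = (j * d) * i := by rw [h1]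
      _ = j * (d * i) := by group
  have hmemW : ∀ x ∈ Q, x * i = i * x → x ∈ W := by
    intro x hx hxi
    rcases hQc x hx hxi with h | h | h | h <;> rw [h]
    · exact W.one_mem
    · exact hiW
    · exact W.pow_mem hiW 2
    · exact W.inv_mem hiW
  -- the key claim
  have hkey : ∀ d ∈ A, d * i = i * d → d ∈ W := by
    intro d hdA hdi
    have hcd : Commute d i := hdi
    have hd'Q : d⁻¹ * j * d ∈ Q := by
      have := hQn.conj_mem j hjQ d⁻¹
      simpa using this
    have hdi' : d⁻¹ * i * d = i := by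
      calc d⁻¹ * i * d = d⁻¹ * (i * d) := by group
        _ = d⁻¹ * (d * i) := by rw [hdi]
        _ = i := by group
    have hdii' : d⁻¹ * i⁻¹ * d = i⁻¹ := by
      have h2 := congrArg (fun t => t⁻¹) hdi'
      simpa [mul_assoc] using h2
    have hd'i : (d⁻¹ * j * d) * i * (d⁻¹ * j * d)⁻¹ = i⁻¹ := by
      calc (d⁻¹ * j * d) * i * (d⁻¹ * j * d)⁻¹ = d⁻¹ * (j * (d * i * d⁻¹) * j⁻¹) * d := by group
        _ = d⁻¹ * (j * i * j⁻¹) * d := by
            rw [show d * i * d⁻¹ = i by rw [hdi]; group]
        _ = d⁻¹ * i⁻¹ * d := by rw [hjk1]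
        _ = i⁻¹ := hdii'
    have hnoncomm : ∀ t : S, t * i = i * t → t * i * t⁻¹ = i⁻¹ → False := by
      intro t ht ht'
      apply hi2
      have h1 : t * i * t⁻¹ = i := by rw [ht]; group
      rw [h1] at ht'
      have h2 : i * i = 1 := by
        calc i * i = i⁻¹ * i := by rw [← ht']
          _ = 1 := by group
      rw [pow_two, h2]
    have hQd' := hQf _ hd'Q
    -- the square-like case
    have hcase2 : d⁻¹ * j * d = j * i ^ 2 → d ∈ W := by
      intro h
      have h1 := hsq d hdi h
      have h2 : (d * i) * i = i * (d * i) := by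
        calc (d * i) * i = (i * d) * i := by rw [hdi]
          _ = i * (d * i) := by group
      have h3 := hcomm _ h2 h1
      have h4 : d ∈ Q := by
        have := Q.mul_mem h3 (Q.inv_mem hiQ)
        simpa using this
      exact hmemW d h4 hdi
    have hcase1 : d⁻¹ * j * d = j → d ∈ W := by
      intro h
      have h1 : d * j = j * d := by
        calc d * j = d * (d⁻¹ * j * d) := by rw [h]
          _ = j * d := by group
      exact hmemW d (hcomm d hdi h1) hdi
    have hi2u : (i⁻¹) * (i⁻¹) = i ^ 2 := by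
      have hi22 : i ^ 2 * i ^ 2 = 1 := by rw [← pow_add]; exact hi4
      have h1 : i⁻¹ * i⁻¹ = (i ^ 2)⁻¹ := by rw [pow_two]; group
      rw [h1]
      exact (eq_inv_of_mul_eq_one_left hi22).symm
    -- the order eight case
    have hcase3 : ∀ u : S, Commute d u → u * u = i ^ 2 → (u = i ∨ u = i⁻¹) → d⁻¹ * j * d = j * u → d ∈ W := by
      intro u hu huu hui h
      exfalso
      have hud : d⁻¹ * u * d = u := by
        calc d⁻¹ * u * d = d⁻¹ * (u * d) := by group
          _ = d⁻¹ * (d * u) := by rw [hu.eq]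
          _ = u := by group
      have h1 : (d * d)⁻¹ * j * (d * d) = j * i ^ 2 := by
        calc (d * d)⁻¹ * j * (d * d) = d⁻¹ * (d⁻¹ * j * d) * d := by group
          _ = d⁻¹ * (j * u) * d := by rw [h]
          _ = (d⁻¹ * j * d) * (d⁻¹ * u * d) := by group
          _ = j * u * u := by rw [h, hud]
          _ = j * i ^ 2 := by rw [mul_assoc, huu]
      have hddi : (d * d) * i = i * (d * d) := by
        rw [mul_assoc, hdi, ← mul_assoc, hdi, mul_assoc]
      have h2 := hsq (d * d) hddi h1
      have h3 : ((d * d) * i) * i = i * ((d * d) * i) := by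
        calc ((d * d) * i) * i = (i * (d * d)) * i := by rw [hddi]
          _ = i * ((d * d) * i) := by group
      have h4 := hcomm _ h3 h2
      have h5 : d * d = i⁻¹ ∨ d * d = i := by
        rcases hQd _ h4 h3 h2 with h6 | h6
        · left
          exact eq_inv_of_mul_eq_one_left h6
        · right
          have h7 : d * d = i ^ 2 * i⁻¹ := by
            rw [← h6]; group
          rw [h7, pow_two]
          group
      have h6 : d ^ 4 = i ^ 2 := by
        have h7 : d ^ 4 = (d * d) * (d * d) := by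
          rw [show (4 : ℕ) = 2 + 2 from rfl, pow_add, pow_two]
        rw [h7]
        rcases h5 with h8 | h8 <;> rw [h8]
        · exact hi2u
        · rw [pow_two]
      have h7 : d ^ 8 = 1 := by
        have h8 : d ^ 8 = d ^ 4 * d ^ 4 := by rw [← pow_add]
        rw [h8, h6, ← pow_add]
        exact hi4
      have hord8 : orderOf d = 2 ^ (2 + 1) := orderOf_eq_prime_pow (p := 2) (n := 2)
        (by rw [show (2 : ℕ) ^ 2 = 4 by norm_num, h6]; exact hi2) (by simpa using h7)
      apply hAn
      apply isCyclic_of_orderOf_eq_card (⟨d, hdA⟩ : A)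
      rw [Subgroup.orderOf_mk, hord8, hA8]
      norm_num
    rcases hQd' with h | h | h | h | h | h | h | h
    · exfalso; rw [h] at hd'i; exact hnoncomm 1 (by simp) hd'i
    · exfalso; rw [h] at hd'i; exact hnoncomm i rfl hd'i
    · exfalso; rw [h] at hd'i; exact hnoncomm (i ^ 2) (by rw [pow_two]; group) hd'i
    · exfalso; rw [h] at hd'i; exact hnoncomm i⁻¹ (by group) hd'i
    · exact hcase1 h
    · exact hcase3 i hcd (by rw [pow_two]) (Or.inl rfl) h
    · exact hcase2 h
    · exact hcase3 i⁻¹ hcd.inv_right hi2u (Or.inr rfl) h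
  -- the conjugates of `i` under `A`
  have hconj : ∀ g ∈ A, g * i * g⁻¹ = i ∨ g * i * g⁻¹ = i⁻¹ := by
    intro g hg
    rcases hWc _ (hWn g hg i hiW) with h | h | h | h
    · exfalso
      apply hi2
      have : i = 1 := by
        have h1 : i = g⁻¹ * (g * i * g⁻¹) * g := by group
        rw [h1, h]; group
      rw [this, one_pow]
    · exact Or.inl h
    · exfalso
      apply hi2
      have h1 : (g * i * g⁻¹) ^ 2 = 1 := by
        rw [h, ← pow_mul]
        exact hi4
      have h2 : (g * i * g⁻¹) ^ 2 = g * i ^ 2 * g⁻¹ := by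
        rw [pow_two, pow_two]; group
      rw [h2] at h1
      have h3 : i ^ 2 = g⁻¹ * (g * i ^ 2 * g⁻¹) * g := by group
      rw [h3, h1]; group
    · exact Or.inr h
  have hidx := index_centralizer_subgroupOf_le_two A hconj
  set C' := (centralizer ({i} : Set S)).subgroupOf A with hC'
  have hcard := Subgroup.card_mul_index C'
  rw [hA8] at hcard
  have hC'map : C'.map A.subtype ≤ W := by
    rintro _ ⟨c, hc, rfl⟩
    have h1 : (c : S) ∈ centralizer ({i} : Set S) := hc
    rw [Subgroup.mem_centralizer_singleton_iff] at h1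
    exact hkey c c.2 h1
  have hC'card : Nat.card C' = Nat.card (C'.map A.subtype) :=
    Nat.card_congr (C'.equivMapOfInjective _ A.subtype_injective).toEquiv
  have hC'4 : Nat.card C' ≤ 4 := by
    rw [hC'card, ← hW4]
    exact Subgroup.card_le_of_le hC'map
  have hidx0 : C'.index ≠ 0 := Subgroup.FiniteIndex.index_ne_zero
  have hC'4' : Nat.card C' = 4 := by
    by_contra hne
    have h1 : Nat.card C' ≤ 3 := by omega
    have h2 : Nat.card C' * C'.index ≤ 3 * 2 := Nat.mul_le_mul h1 hidx
    omega
  have hmapW : C'.map A.subtype = W := by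
    apply Subgroup.eq_of_le_of_card_ge hC'map
    rw [hW4, ← hC'card, hC'4']
  have hiA : i ∈ A := by
    have h1 : i ∈ C'.map A.subtype := by rw [hmapW]; exact hiW
    obtain ⟨c, _, rfl⟩ := h1
    exact c.2
  have htop : C' = ⊤ := by
    rw [eq_top_iff]
    intro a _
    show (a : S) ∈ centralizer ({i} : Set S)
    rw [Subgroup.mem_centralizer_singleton_iff]
    exact congrArg Subtype.val (hAc.is_comm.comm a (⟨i, hiA⟩ : A))
  have hone : C'.index = 1 := by rw [htop, Subgroup.index_top]
  rw [hone, hC'4'] at hcard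
  omega

/-- A self-centralizing normal subgroup of order `4` rules out abelian subgroups of order `8`. -/
theorem four_final [Finite S] {W : Subgroup S} [hWn : W.Normal] (hW4 : Nat.card W = 4)
    (hC : centralizer (W : Set S) ≤ W) {A : Subgroup S}
    (hAc : IsMulCommutative A) (hA8 : Nat.card A = 8) : False := by
  classical
  haveI : Fact (Nat.Prime 2) := ⟨Nat.prime_two⟩
  have hW2 : IsPGroup 2 W := IsPGroup.of_card (n := 2) (by rw [hW4]; norm_num)
  have hA2 : IsPGroup 2 A := IsPGroup.of_card (n := 3) (by rw [hA8]; norm_num)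
  set T := W ⊔ A with hT
  have hT2 : IsPGroup 2 T := IsPGroup.to_sup_of_normal_left hW2 hA2
  have hWT : W ≤ T := le_sup_left
  have hAT : A ≤ T := le_sup_right
  haveI hNn : (W.subgroupOf T).Normal := inferInstance
  have hNc : Nat.card (W.subgroupOf T) = 4 := by
    rw [Nat.card_congr (Subgroup.subgroupOfEquivOfLe hWT).toEquiv, hW4]
  have hidx := index_centralizer_four_le_two hT2 hNc
  set C := centralizer ((W.subgroupOf T : Subgroup T) : Set T) with hCdef
  have hCle : C ≤ W.subgroupOf T := by
    intro x hx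
    rw [Subgroup.mem_subgroupOf]
    apply hC
    rw [Subgroup.mem_centralizer_iff]
    intro y hy
    have := (Subgroup.mem_centralizer_iff.mp hx) ⟨y, hWT hy⟩ (by simpa [Subgroup.mem_subgroupOf] using hy)
    exact congrArg Subtype.val this
  have hCcard : Nat.card C ≤ 4 := by
    rw [← hNc]
    exact Subgroup.card_le_of_le hCle
  have hcard := Subgroup.card_mul_index C
  have hT8 : Nat.card T ≤ 8 := by
    rw [← hcard]
    exact Nat.mul_le_mul hCcard hidx
  have hTA : A = T := Subgroup.eq_of_le_of_card_ge hAT (by rw [hA8]; exact hT8)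
  have hWA : W ≤ A := hTA ▸ hWT
  have hAW : A ≤ W := by
    refine le_trans ?_ hC
    intro a ha
    rw [Subgroup.mem_centralizer_iff]
    intro w hw
    exact congrArg Subtype.val (hAc.is_comm.comm (⟨w, hWA hw⟩ : A) ⟨a, ha⟩)
  have := Subgroup.card_le_of_le hAW
  omega

/-- `HasA` passes from a solvable group with trivial odd core to its `2`-core. -/
theorem hasA_core [Finite S] [Group.IsSolvable S] (hO : Cfsg.pPrimeCore 2 S = ⊥) (hA : HasA S) :
    HasA (Cfsg.pCore 2 S) := by
  classical
  haveI : Fact (Nat.Prime 2) := ⟨Nat.prime_two⟩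
  by_contra hf
  set Pc := Cfsg.pCore 2 S with hPc
  haveI hPn : Pc.Normal := Cfsg.Agent.Lib.Basic.PCore.pCore_normal 2 S
  have hP2 : IsPGroup 2 Pc := Cfsg.Agent.Lib.Basic.PCore.pCore_isPGroup 2
  have hcen : centralizer (Pc : Set S) ≤ Pc :=
    Cfsg.Agent.Lib.Solvable.PSeries.centralizer_pCore_le Cfsg.Agent.Lib.Solvable.PSeries.isPSolvable_of_solvable hO
  obtain ⟨A, hAc, hAn, hA8⟩ := hA
  have hodd : ∀ g : S, Odd (orderOf g) → Odd (orderOf (MulAut.conjNormal g : MulAut Pc)) :=
    fun g hg => Odd.of_dvd_nat hg (orderOf_map_dvd _ g)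
  -- it suffices that odd elements act trivially
  have hsuff : (∀ g : S, Odd (orderOf g) → ∀ x : Pc, (MulAut.conjNormal g : MulAut Pc) x = x) → False := by
    intro hact
    have htriv : ∀ g : S, Odd (orderOf g) → g = 1 := by
      intro g hg
      have h1 : g ∈ Pc := by
        apply hcen
        rw [Subgroup.mem_centralizer_iff]
        intro x hx
        have h2 := congrArg Subtype.val (hact g hg ⟨x, hx⟩)
        rw [MulAut.conjNormal_apply] at h2
        calc x * g = (g * x * g⁻¹) * g := by rw [h2]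
          _ = g * x := by group
      obtain ⟨n, hn⟩ := hP2 ⟨g, h1⟩
      have h2 : g ^ 2 ^ n = 1 := by simpa using congrArg Subtype.val hn
      have h3 : orderOf g ∣ 2 ^ n := orderOf_dvd_of_pow_eq_one h2
      have h4 : (orderOf g).Coprime (2 ^ n) := Nat.Coprime.pow_right n (Nat.coprime_two_right.mpr hg)
      exact orderOf_eq_one_iff.mp (Nat.eq_one_of_dvd_coprimes h4 dvd_rfl h3)
    have hS2 : IsPGroup 2 S := by
      intro g
      obtain ⟨k, m, hm, hk⟩ := Nat.exists_eq_two_pow_mul_odd (orderOf_pos g).ne'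
      have h1 : orderOf (g ^ (orderOf g / m)) = m :=
        orderOf_pow_orderOf_div (orderOf_pos g).ne' ⟨2 ^ k, by rw [hk]; ring⟩
      have h2 : orderOf g / m = 2 ^ k := by
        rw [hk]
        exact Nat.mul_div_cancel _ hm.pos
      rw [h2] at h1
      refine ⟨k, htriv _ ?_⟩
      rw [h1]
      exact hm
    have htop : (⊤ : Subgroup S) ≤ Pc :=
      Cfsg.Agent.Lib.Basic.PCore.le_pCore inferInstance (hS2.to_subgroup ⊤)
    exact hf (hasA_of_le (le_trans le_top htop) hAc hAn hA8)
  by_cases hcomm : IsMulCommutative Pc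
  · rcases self_cyclic_or_four hP2 hf hcomm with hcyc | h4
    · apply hsuff
      intro g hg x
      have hC : IsCyclic (⊤ : Subgroup Pc) :=
        isCyclic_of_surjective Subgroup.topEquiv.symm Subgroup.topEquiv.symm.surjective
      exact fix_of_cyclic_odd hP2 _ (hodd g hg) hC (fun c _ => mem_top _) x (mem_top x)
    · exact four_final h4 hcen hAc hA8
  · obtain ⟨B, hBc, hBi, hBs⟩ := exists_cyclic_index_two hP2 hf hcomm
    by_cases hall : ∀ g : S, Odd (orderOf g) →
        B.map (MulAut.conjNormal g : MulAut Pc).toMonoidHom = B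
    · apply hsuff
      intro g hg
      set α : MulAut Pc := MulAut.conjNormal g with hα
      have hstab : ∀ c ∈ B, α c ∈ B := fun c hc => (hall g hg) ▸ ⟨c, hc, rfl⟩
      have hfixB := fix_of_cyclic_odd hP2 α (hodd g hg) hBc hstab
      intro x
      apply eq_of_trivial_mod hP2 α (hodd g hg) hfixB
      by_cases hxB : x ∈ B
      · exact B.mul_mem (B.inv_mem hxB) (hstab x hxB)
      · have hαx : α x ∉ B := by
          intro h
          rw [← hall g hg] at h
          obtain ⟨y, hy, hyx⟩ := h
          have h1 : y = x := α.injective hyx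
          exact hxB (h1 ▸ hy)
        rw [Subgroup.mul_mem_iff_of_index_two hBi]
        simp [hxB, hαx]
    · push Not at hall
      obtain ⟨g, hg, hne⟩ := hall
      set α : MulAut Pc := MulAut.conjNormal g with hα
      set B₁ := B.map α.toMonoidHom with hB₁
      have heB : B ≃* B₁ := B.equivMapOfInjective _ α.injective
      have hB₁c : IsCyclic B₁ := isCyclic_of_surjective heB heB.surjective
      have hBcard : Nat.card B₁ = Nat.card B := Nat.card_congr heB.symm.toEquiv
      have hB₁i : B₁.index = 2 := by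
        have h1 := Subgroup.card_mul_index B
        have h2 := Subgroup.card_mul_index B₁
        rw [hBi] at h1
        rw [hBcard, ← h1] at h2
        have h3 : 0 < Nat.card B := Nat.card_pos
        exact Nat.eq_of_mul_eq_mul_left h3 h2
      have hcc : ∀ C : Subgroup Pc, IsCyclic C → ∀ a ∈ C, ∀ b ∈ C, a * b = b * a := by
        intro C hC a ha b hb
        letI := IsCyclic.commGroup (α := C)
        exact congrArg Subtype.val (mul_comm (⟨a, ha⟩ : C) ⟨b, hb⟩)
      have hneB : B ≠ B₁ := fun h => hne h.symm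
      obtain ⟨y, hyB₁, hyB⟩ : ∃ y ∈ B₁, y ∉ B := by
        by_contra hcon
        push Not at hcon
        have hle : B₁ ≤ B := fun y hy => hcon y hy
        have h1 : B₁ = B := Subgroup.eq_of_le_of_card_ge hle (by rw [hBcard])
        exact hne h1
      have hcent : B ⊓ B₁ ≤ center Pc := by
        intro z hz
        rw [Subgroup.mem_center_iff]
        intro x
        by_cases hx : x ∈ B
        · exact hcc B hBc x hx z hz.1
        · have h1 : x * y ∈ B := by
            rw [Subgroup.mul_mem_iff_of_index_two hBi]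
            simp [hx, hyB]
          have h2 : x = (x * y) * y⁻¹ := by group
          have h3 : Commute (x * y) z := hcc B hBc _ h1 _ hz.1
          have h4 : Commute y⁻¹ z := hcc B₁ hB₁c _ (B₁.inv_mem hyB₁) _ hz.2
          rw [h2]
          exact ((h3.mul_left h4).eq).symm ▸ rfl
      have hZ2 := card_center_eq_two hP2 hf hcomm
      have hinf : Nat.card (B ⊓ B₁ : Subgroup Pc) ≤ 2 := hZ2 ▸ Subgroup.card_le_of_le hcent
      have hidx : (B ⊓ B₁).index ≤ 4 := by
        have h1 : (B ⊓ B₁).index ≤ B.index * B₁.index := Subgroup.index_inf_le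
        rw [hBi, hB₁i] at h1
        simpa using h1
      have hPle : Nat.card Pc ≤ 8 := by
        rw [← Subgroup.card_mul_index (B ⊓ B₁)]
        exact Nat.mul_le_mul hinf hidx
      have hBge : ¬ Nat.card B ≤ 2 := by
        intro h2
        haveI := Subgroup.normal_of_index_eq_two hBi
        exact hcomm (comm_of_index_two_le_center hBi (le_center_of_card_le_two hP2 h2))
      have hcardP := Subgroup.card_mul_index B
      rw [hBi] at hcardP
      obtain ⟨n, hn⟩ := IsPGroup.iff_card.mp hP2
      have h8 : Nat.card Pc = 8 := by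
        have h1 : 2 ^ n ≤ 2 ^ 3 := by rw [← hn]; simpa using hPle
        have h2 : n ≤ 3 := (Nat.pow_le_pow_iff_right (by norm_num)).mp h1
        interval_cases n <;> omega
      obtain ⟨e⟩ := quaternion_of_two_cyclic h8 hcomm hBc hB₁c hBi hB₁i hneB
      exact q8_final e hcen hAc hAn hA8

end Cfsg.Agent.Lib.PGroup.AFreeCore
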