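import Mathlib
import Cfsg.Prelude.Def_Transfer
import Cfsg.Agent.Lib.PGroup.Extraspecial

/-!
# Hyperbolic pairs in groups of class two with centre of order `p`

For `x, y` with `⁅x, y⁆ ≠ 1` in a group with `[G,G] ≤ Z(G)`, `|Z(G)| = p`, with `S = C(x) ∩ C(y)`, the map
`(s, a, b) ↦ s x^a y^b` is a bijection `S × ZMod p × ZMod p ≃ G`, with an explicit multiplication rule.
An isomorphism of the `S`'s compatible with `⁅y,x⁆`, `x^p`, `y^p` extends to an isomorphism of the groups.
-/

namespace Cfsg.Agent.Lib.PGroup.ExtraspecialPair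

open Subgroup
open scoped commutatorElement
open Cfsg.Agent.Lib.PGroup.Extraspecial

variable {G : Type*} [Group G]

/-- The joint centralizer of `x` and `y`. -/
def pairC (x y : G) : Subgroup G := centralizer ({x} : Set G) ⊓ centralizer ({y} : Set G)

theorem mem_pairC {x y s : G} : s ∈ pairC x y ↔ s * x = x * s ∧ s * y = y * s := by
  simp only [pairC, Subgroup.mem_inf, mem_centralizer_iff, Set.mem_singleton_iff, forall_eq]
  constructor
  · rintro ⟨h1, h2⟩; exact ⟨h1.symm, h2.symm⟩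
  · rintro ⟨h1, h2⟩; exact ⟨h1.symm, h2.symm⟩

theorem center_le_pairC (x y : G) : center G ≤ pairC x y := by
  intro z hz
  rw [mem_pairC]
  exact ⟨(mem_center_iff.mp hz x).symm, (mem_center_iff.mp hz y).symm⟩

section Basics

variable {p : ℕ} [hp : Fact p.Prime]

theorem pow_eq_one_of_mem_center [Finite G] (hZ : Nat.card (center G) = p) {z : G} (hz : z ∈ center G) :
    z ^ p = 1 := by
  have h := pow_card_eq_one' (x := (⟨z, hz⟩ : center G))
  rw [hZ] at h
  exact congrArg Subtype.val h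

theorem pow_mem_center_of_card [Finite G] (hc : ∀ a b : G, ⁅a, b⁆ ∈ center G)
    (hZ : Nat.card (center G) = p) (x : G) : x ^ p ∈ center G := by
  rw [mem_center_iff]
  intro g
  have h1 : ⁅x ^ p, g⁆ = 1 := by
    rw [comm_pow_left hc]
    exact pow_eq_one_of_mem_center hZ (hc x g)
  exact ((commutatorElement_eq_one_iff_mul_comm).mp h1).symm

/-- Generators: any central element is a `ZMod p`-power of a given nontrivial central element. -/
theorem exists_pow_val_eq [Finite G] (hZ : Nat.card (center G) = p) {z w : G} (hz : z ∈ center G)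
    (hz1 : z ≠ 1) (hw : w ∈ center G) : ∃ a : ZMod p, z ^ a.val = w := by
  have h1 : (⟨z, hz⟩ : center G) ≠ 1 := fun h => hz1 (congrArg Subtype.val h)
  obtain ⟨k, hk⟩ := (Submonoid.mem_powers_iff _ _).mp
    (mem_powers_of_prime_card hZ (g' := (⟨w, hw⟩ : center G)) h1)
  have h2 : z ^ k = w := congrArg Subtype.val hk
  refine ⟨(k : ZMod p), ?_⟩
  rw [ZMod.val_natCast, ← pow_eq_pow_mod k (pow_eq_one_of_mem_center hZ hz), h2]

theorem pow_val_injective [Finite G] (hZ : Nat.card (center G) = p) {z : G} (hz : z ∈ center G)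
    (hz1 : z ≠ 1) {a b : ZMod p} (h : z ^ a.val = z ^ b.val) : a = b := by
  have hord : orderOf z = p := orderOf_eq_prime (pow_eq_one_of_mem_center hZ hz) hz1
  rw [pow_inj_mod, hord, Nat.mod_eq_of_lt (ZMod.val_lt a), Nat.mod_eq_of_lt (ZMod.val_lt b)] at h
  exact ZMod.val_injective p h

/-- The carry in the addition of `ZMod p`. -/
def carry (a b : ZMod p) : ℕ := (a.val + b.val) / p

theorem pow_val_mul_pow_val (x : G) (a b : ZMod p) :
    x ^ a.val * x ^ b.val = x ^ (a + b).val * (x ^ p) ^ carry a b := by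
  rw [← pow_add, ← pow_mul, ← pow_add, ZMod.val_add, carry, Nat.mod_add_div]

end Basics

section Pair

variable {p : ℕ} [hp : Fact p.Prime]

/-- The normal form map. -/
def psi (x y : G) (t : pairC x y × ZMod p × ZMod p) : G :=
  (t.1 : G) * x ^ t.2.1.val * y ^ t.2.2.val

variable [Finite G] (hc : ∀ a b : G, ⁅a, b⁆ ∈ center G) (hZ : Nat.card (center G) = p)
  {x y : G}

include hc in
theorem comm_psi_right (t : pairC x y × ZMod p × ZMod p) :
    ⁅psi x y t, y⁆ = ⁅x, y⁆ ^ t.2.1.val := by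
  obtain ⟨s, a, b⟩ := t
  have hs : ⁅(s : G), y⁆ = 1 := (commutatorElement_eq_one_iff_mul_comm).mpr (mem_pairC.mp s.2).2
  have hb : ⁅y ^ b.val, y⁆ = 1 := (commutatorElement_eq_one_iff_mul_comm).mpr
    ((Commute.refl y).pow_left _).eq
  simp only [psi]
  rw [comm_mul_left hc, comm_mul_left hc, hs, hb, one_mul, mul_one, comm_pow_left hc]

include hc in
theorem comm_psi_left (t : pairC x y × ZMod p × ZMod p) :
    ⁅psi x y t, x⁆ = ⁅y, x⁆ ^ t.2.2.val := by
  obtain ⟨s, a, b⟩ := t
  have hs : ⁅(s : G), x⁆ = 1 := (commutatorElement_eq_one_iff_mul_comm).mpr (mem_pairC.mp s.2).1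
  have ha : ⁅x ^ a.val, x⁆ = 1 := (commutatorElement_eq_one_iff_mul_comm).mpr
    ((Commute.refl x).pow_left _).eq
  simp only [psi]
  rw [comm_mul_left hc, comm_mul_left hc, hs, ha, one_mul, one_mul, comm_pow_left hc]

include hc hZ in
theorem psi_injective (hxy : ⁅x, y⁆ ≠ 1) : Function.Injective (psi (p := p) x y) := by
  have hyx : ⁅y, x⁆ ≠ 1 := by
    intro h
    apply hxy
    rw [← commutatorElement_inv, h, inv_one]
  rintro ⟨s, a, b⟩ ⟨s', a', b'⟩ h
  have h1 := comm_psi_right hc (x := x) (y := y) (s, a, b)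
  have h2 := comm_psi_right hc (x := x) (y := y) (s', a', b')
  have h3 := comm_psi_left hc (x := x) (y := y) (s, a, b)
  have h4 := comm_psi_left hc (x := x) (y := y) (s', a', b')
  rw [h] at h1 h3
  have ha : a = a' := pow_val_injective hZ (hc x y) hxy (h1.symm.trans h2)
  have hb : b = b' := pow_val_injective hZ (hc y x) hyx (h3.symm.trans h4)
  subst ha hb
  have hs : (s : G) = s' := by
    simpa [psi] using h
  rw [Subtype.ext hs]

include hc hZ in
theorem psi_surjective (hxy : ⁅x, y⁆ ≠ 1) : Function.Surjective (psi (p := p) x y) := by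
  have hyx : ⁅y, x⁆ ≠ 1 := by
    intro h
    apply hxy
    rw [← commutatorElement_inv, h, inv_one]
  intro g
  obtain ⟨a, ha⟩ := exists_pow_val_eq hZ (hc x y) hxy (hc g y)
  obtain ⟨b, hb⟩ := exists_pow_val_eq hZ (hc y x) hyx (hc g x)
  set s := g * (y ^ b.val)⁻¹ * (x ^ a.val)⁻¹ with hs
  have hg : g = s * x ^ a.val * y ^ b.val := by rw [hs]; group
  -- `s` commutes with `x` and `y`
  have hsx : ⁅s, x⁆ = 1 := by
    have h2 : commHom hc x s = 1 := by
      rw [hs, map_mul, map_mul, map_inv, map_inv]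
      apply Subtype.ext
      have h3 : (commHom hc x (y ^ b.val) : G) = ⁅y, x⁆ ^ b.val := by
        rw [commHom_apply, comm_pow_left hc]
      have h4 : (commHom hc x (x ^ a.val) : G) = 1 := by
        rw [commHom_apply, (commutatorElement_eq_one_iff_mul_comm).mpr
          ((Commute.refl x).pow_left _).eq]
      change ((commHom hc x g : G) * ((commHom hc x (y ^ b.val) : G))⁻¹ *
        ((commHom hc x (x ^ a.val) : G))⁻¹) = 1
      rw [h3, h4, commHom_apply, hb, inv_one, mul_one, mul_inv_cancel]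
    exact congrArg Subtype.val h2
  have hsy : ⁅s, y⁆ = 1 := by
    have h2 : commHom hc y s = 1 := by
      rw [hs, map_mul, map_mul, map_inv, map_inv]
      apply Subtype.ext
      have h3 : (commHom hc y (x ^ a.val) : G) = ⁅x, y⁆ ^ a.val := by
        rw [commHom_apply, comm_pow_left hc]
      have h4 : (commHom hc y (y ^ b.val) : G) = 1 := by
        rw [commHom_apply, (commutatorElement_eq_one_iff_mul_comm).mpr
          ((Commute.refl y).pow_left _).eq]
      change ((commHom hc y g : G) * ((commHom hc y (y ^ b.val) : G))⁻¹ *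
        ((commHom hc y (x ^ a.val) : G))⁻¹) = 1
      rw [h3, h4, commHom_apply, ha, inv_one, mul_one, mul_inv_cancel]
    exact congrArg Subtype.val h2
  have hsC : s ∈ pairC x y := mem_pairC.mpr
    ⟨(commutatorElement_eq_one_iff_mul_comm).mp hsx, (commutatorElement_eq_one_iff_mul_comm).mp hsy⟩
  exact ⟨(⟨s, hsC⟩, a, b), hg.symm⟩

/-- The element `⁅y, x⁆` in the joint centralizer. -/
def elemT (hc : ∀ a b : G, ⁅a, b⁆ ∈ center G) (x y : G) : pairC x y :=
  ⟨⁅y, x⁆, center_le_pairC x y (hc y x)⟩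

/-- The element `x ^ p` in the joint centralizer. -/
def elemA (hc : ∀ a b : G, ⁅a, b⁆ ∈ center G) (hZ : Nat.card (center G) = p) (x y : G) : pairC x y :=
  ⟨x ^ p, center_le_pairC x y (pow_mem_center_of_card hc hZ x)⟩

/-- The element `y ^ p` in the joint centralizer. -/
def elemB (hc : ∀ a b : G, ⁅a, b⁆ ∈ center G) (hZ : Nat.card (center G) = p) (x y : G) : pairC x y :=
  ⟨y ^ p, center_le_pairC x y (pow_mem_center_of_card hc hZ y)⟩

/-- Multiplication rule in normal form. -/
theorem psi_mul (s s' : pairC x y) (a b a' b' : ZMod p) :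
    psi x y (s, a, b) * psi x y (s', a', b') =
      psi x y (s * s' * (elemT hc x y ^ (b.val * a'.val) * elemA hc hZ x y ^ carry a a' *
        elemB hc hZ x y ^ carry b b'), a + a', b + b') := by
  simp only [psi]
  set X := x ^ a.val
  set Y := y ^ b.val
  set X' := x ^ a'.val
  set Y' := y ^ b'.val
  have hs'x : Commute (s' : G) x := (mem_pairC.mp s'.2).1
  have hs'y : Commute (s' : G) y := (mem_pairC.mp s'.2).2
  have hs'X : (s' : G) * X = X * s' := (hs'x.pow_right _).eq
  have hs'Y : (s' : G) * Y = Y * s' := (hs'y.pow_right _).eq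
  have hw : ⁅Y, X'⁆ = ⁅y, x⁆ ^ (b.val * a'.val) := by
    rw [comm_pow_left hc, comm_pow_right hc, ← pow_mul, mul_comm]
  have hYX : Y * X' = ⁅y, x⁆ ^ (b.val * a'.val) * (X' * Y) := by
    rw [← hw, commutatorElement_def]; group
  have hwc : ⁅y, x⁆ ^ (b.val * a'.val) ∈ center G := pow_mem (hc y x) _
  have hXX : X * X' = x ^ (a + a').val * (x ^ p) ^ carry a a' := pow_val_mul_pow_val x a a'
  have hYY : Y * Y' = y ^ (b + b').val * (y ^ p) ^ carry b b' := pow_val_mul_pow_val y b b'
  have hαc : (x ^ p) ^ carry a a' ∈ center G := pow_mem (pow_mem_center_of_card hc hZ x) _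
  have hβc : (y ^ p) ^ carry b b' ∈ center G := pow_mem (pow_mem_center_of_card hc hZ y) _
  set W := ⁅y, x⁆ ^ (b.val * a'.val)
  set α := (x ^ p) ^ carry a a'
  set β := (y ^ p) ^ carry b b'
  set U := x ^ (a + a').val
  set V := y ^ (b + b').val
  have hcoe : ((s * s' * (elemT hc x y ^ (b.val * a'.val) * elemA hc hZ x y ^ carry a a' *
      elemB hc hZ x y ^ carry b b') : pairC x y) : G) = s * s' * (W * α * β) := by
    simp [elemT, elemA, elemB, W, α, β]
  rw [hcoe]
  have hWc := mem_center_iff.mp hwc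
  have hαc' := mem_center_iff.mp hαc
  have hβc' := mem_center_iff.mp hβc
  calc (s : G) * X * Y * ((s' : G) * X' * Y')
      = s * (X * (Y * s')) * X' * Y' := by simp only [mul_assoc]
    _ = s * (X * (s' * Y)) * X' * Y' := by rw [hs'Y]
    _ = s * ((X * s') * Y) * X' * Y' := by simp only [mul_assoc]
    _ = s * ((s' * X) * Y) * X' * Y' := by rw [hs'X]
    _ = s * s' * (X * (Y * X')) * Y' := by simp only [mul_assoc]
    _ = s * s' * (X * (W * (X' * Y))) * Y' := by rw [hYX]
    _ = s * s' * ((X * W) * (X' * Y)) * Y' := by simp only [mul_assoc]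
    _ = s * s' * ((W * X) * (X' * Y)) * Y' := by rw [hWc X]
    _ = s * s' * W * ((X * X') * (Y * Y')) := by simp only [mul_assoc]
    _ = s * s' * W * ((U * α) * (V * β)) := by rw [hXX, hYY]
    _ = s * s' * W * (U * (α * V) * β) := by simp only [mul_assoc]
    _ = s * s' * W * (U * (V * α) * β) := by rw [hαc' V]
    _ = s * s' * W * (U * V * (α * β)) := by simp only [mul_assoc]
    _ = s * s' * W * (α * β * (U * V)) := by
        have : (α * β) * (U * V) = (U * V) * (α * β) :=
          (mem_center_iff.mp (mul_mem hαc hβc) (U * V)).symm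
        rw [this]
    _ = s * s' * (W * α * β) * U * V := by simp only [mul_assoc]

/-- `psi` is trivial on `a = b = 0`. -/
theorem psi_zero (s : pairC x y) : psi x y (s, (0 : ZMod p), (0 : ZMod p)) = s := by
  simp [psi]

include hc hZ in
/-- The order of `G` in terms of the joint centralizer. -/
theorem card_eq_card_pairC_mul (hxy : ⁅x, y⁆ ≠ 1) : Nat.card G = Nat.card (pairC x y) * (p * p) := by
  have he := Equiv.ofBijective _ ⟨psi_injective (p := p) hc hZ hxy, psi_surjective (p := p) hc hZ hxy⟩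
  rw [← Nat.card_congr he, Nat.card_prod, Nat.card_prod, Nat.card_zmod]

include hc hZ in
/-- Elements central in the joint centralizer are central. -/
theorem mem_center_of_mem_center_pairC (hxy : ⁅x, y⁆ ≠ 1) {s : pairC x y} (hs : s ∈ center (pairC x y)) :
    (s : G) ∈ center G := by
  rw [mem_center_iff]
  intro g
  obtain ⟨⟨s', a, b⟩, rfl⟩ := psi_surjective (p := p) hc hZ hxy g
  have h1 : (s' : G) * s = s * s' := congrArg Subtype.val (mem_center_iff.mp hs s')
  have h2 : Commute (s : G) x := (mem_pairC.mp s.2).1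
  have h3 : Commute (s : G) y := (mem_pairC.mp s.2).2
  have h4 : x ^ a.val * (s : G) = s * x ^ a.val := ((h2.pow_right _).eq).symm
  have h5 : y ^ b.val * (s : G) = s * y ^ b.val := ((h3.pow_right _).eq).symm
  simp only [psi]
  calc (s' : G) * x ^ a.val * y ^ b.val * s
      = s' * x ^ a.val * (y ^ b.val * s) := by simp only [mul_assoc]
    _ = s' * x ^ a.val * (s * y ^ b.val) := by rw [h5]
    _ = s' * (x ^ a.val * s) * y ^ b.val := by simp only [mul_assoc]
    _ = s' * (s * x ^ a.val) * y ^ b.val := by rw [h4]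
    _ = (s' * s) * x ^ a.val * y ^ b.val := by simp only [mul_assoc]
    _ = (s * s') * x ^ a.val * y ^ b.val := by rw [h1]
    _ = s * ((s' : G) * x ^ a.val * y ^ b.val) := by simp only [mul_assoc]

include hc hZ in
/-- The joint centralizer has centre of order `p`. -/
theorem card_center_pairC (hxy : ⁅x, y⁆ ≠ 1) : Nat.card (center (pairC x y)) = p := by
  rw [← hZ]
  refine Nat.card_congr
    { toFun := fun z => ⟨(z : pairC x y), mem_center_of_mem_center_pairC (p := p) hc hZ hxy z.2⟩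
      invFun := fun z => ⟨⟨z, center_le_pairC x y z.2⟩, ?_⟩
      left_inv := fun z => rfl
      right_inv := fun z => rfl }
  rw [mem_center_iff]
  intro g
  apply Subtype.ext
  exact mem_center_iff.mp z.2 g

include hc in
omit [Finite G] in
/-- The joint centralizer has class at most two. -/
theorem comm_mem_center_pairC (a b : pairC x y) : ⁅a, b⁆ ∈ center (pairC x y) := by
  rw [mem_center_iff]
  intro g
  apply Subtype.ext
  have : ((⁅a, b⁆ : pairC x y) : G) = ⁅(a : G), (b : G)⁆ := rfl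
  simp only [Subgroup.coe_mul, this]
  exact mem_center_iff.mp (hc a b) g

end Pair


/-- A central element, viewed in the joint centralizer, is central there. -/
theorem mk_mem_center_pairC {x y z : G} (hz : z ∈ center G) :
    (⟨z, center_le_pairC x y hz⟩ : pairC x y) ∈ center (pairC x y) := by
  rw [mem_center_iff]
  intro g
  apply Subtype.ext
  exact mem_center_iff.mp hz g

/-- If `G` is bigger than `p`, any nontrivial central element is a commutator. -/
theorem exists_comm_eq {p : ℕ} [hp : Fact p.Prime] [Finite G] (hc : ∀ a b : G, ⁅a, b⁆ ∈ center G)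
    (hZ : Nat.card (center G) = p) (hcard : p < Nat.card G) {z : G} (hz : z ∈ center G)
    (hz1 : z ≠ 1) : ∃ x y : G, ⁅x, y⁆ = z := by
  have hex : ∃ a b : G, ⁅a, b⁆ ≠ 1 := by
    by_contra hcon
    push Not at hcon
    have h1 : center G = ⊤ := by
      rw [eq_top_iff]
      intro a _
      rw [mem_center_iff]
      intro b
      exact ((commutatorElement_eq_one_iff_mul_comm).mp (hcon a b)).symm
    rw [h1, Subgroup.card_top] at hZ
    omega
  obtain ⟨a, b, hab⟩ := hex
  obtain ⟨k, hk⟩ := exists_pow_val_eq hZ (hc a b) hab hz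
  exact ⟨a, b ^ k.val, by rw [comm_pow_right hc, hk]⟩

theorem exists_ne_one_of_card_center {G : Type*} [Group G] {p : ℕ} [hp : Fact p.Prime]
    (hZ : Nat.card (center G) = p) : ∃ z : G, z ∈ center G ∧ z ≠ 1 := by
  have h1 : 1 < Nat.card (center G) := by rw [hZ]; exact hp.out.one_lt
  have : Finite (center G) := Nat.finite_of_card_ne_zero (by omega)
  have : Nontrivial (center G) := Finite.one_lt_card_iff_nontrivial.mp h1
  obtain ⟨z, hz⟩ := exists_ne (1 : center G)
  exact ⟨z, z.2, fun h => hz (Subtype.ext h)⟩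

theorem ne_one_comm_swap {x y : G} (h : ⁅y, x⁆ ≠ 1) : ⁅x, y⁆ ≠ 1 := by
  intro h'
  apply h
  rw [← commutatorElement_inv, h', inv_one]

/-- Extension of isomorphisms: given hyperbolic pairs in `G₁`, `G₂` and an isomorphism of the joint
centralizers carrying `⁅y,x⁆, x^p, y^p` correctly, the groups are isomorphic. -/
theorem exists_mulEquiv_of_pair {G₁ G₂ : Type*} [Group G₁] [Group G₂] [Finite G₁] [Finite G₂]
    {p : ℕ} [hp : Fact p.Prime]
    (hc₁ : ∀ a b : G₁, ⁅a, b⁆ ∈ center G₁) (hc₂ : ∀ a b : G₂, ⁅a, b⁆ ∈ center G₂)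
    (hZ₁ : Nat.card (center G₁) = p) (hZ₂ : Nat.card (center G₂) = p)
    {x₁ y₁ : G₁} {x₂ y₂ : G₂} (h₁ : ⁅x₁, y₁⁆ ≠ 1) (h₂ : ⁅x₂, y₂⁆ ≠ 1)
    (φ : pairC x₁ y₁ ≃* pairC x₂ y₂)
    (hT : φ (elemT hc₁ x₁ y₁) = elemT hc₂ x₂ y₂)
    (hA : φ (elemA hc₁ hZ₁ x₁ y₁) = elemA hc₂ hZ₂ x₂ y₂)
    (hB : φ (elemB hc₁ hZ₁ x₁ y₁) = elemB hc₂ hZ₂ x₂ y₂) :
    ∃ Φ : G₁ ≃* G₂, ∀ s : pairC x₁ y₁, Φ (s : G₁) = (φ s : G₂) := by
  classical
  let e₁ : (pairC x₁ y₁ × ZMod p × ZMod p) ≃ G₁ := Equiv.ofBijective (psi (p := p) x₁ y₁)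
    ⟨psi_injective hc₁ hZ₁ h₁, psi_surjective hc₁ hZ₁ h₁⟩
  let e₂ : (pairC x₂ y₂ × ZMod p × ZMod p) ≃ G₂ := Equiv.ofBijective (psi (p := p) x₂ y₂)
    ⟨psi_injective hc₂ hZ₂ h₂, psi_surjective hc₂ hZ₂ h₂⟩
  let e : G₁ ≃ G₂ := e₁.symm.trans ((Equiv.prodCongr φ.toEquiv (Equiv.refl _)).trans e₂)
  have he : ∀ (s : pairC x₁ y₁) (a b : ZMod p), e (psi x₁ y₁ (s, a, b)) = psi x₂ y₂ (φ s, a, b) := by
    intro s a b
    have h : e₁.symm (psi x₁ y₁ (s, a, b)) = (s, a, b) := e₁.symm_apply_apply (s, a, b)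
    simp only [e, Equiv.trans_apply, h]
    rfl
  have hmul : ∀ g g' : G₁, e (g * g') = e g * e g' := by
    intro g g'
    obtain ⟨⟨s, a, b⟩, rfl⟩ := e₁.surjective g
    obtain ⟨⟨s', a', b'⟩, rfl⟩ := e₁.surjective g'
    change e (psi x₁ y₁ (s, a, b) * psi x₁ y₁ (s', a', b')) =
      e (psi x₁ y₁ (s, a, b)) * e (psi x₁ y₁ (s', a', b'))
    rw [psi_mul hc₁ hZ₁, he, he, he, psi_mul hc₂ hZ₂]
    simp only [map_mul, map_pow, hT, hA, hB]
  refine ⟨MulEquiv.mk' e hmul, fun s => ?_⟩
  have h1 := he s 0 0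
  rw [psi_zero, psi_zero] at h1
  exact h1

end Cfsg.Agent.Lib.PGroup.ExtraspecialPair
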