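import Cfsg.Agent.Lib.PGroup.FFOperK
import Mathlib

/-!
# The norm of the plane `[V, E]` under a group of operators
-/

set_option autoImplicit false
set_option linter.unusedSectionVars false
set_option linter.style.haveILetI false
set_option linter.unusedVariables false
open Cfsg
open scoped commutatorElement IsMulCommutative

namespace Cfsg.Agent.Lib.PGroup.FFNorm

open Cfsg.Agent.Lib.Nilpotent.Subnormal
open Cfsg.Agent.S0615 (cj_commutator cj_eq_of_mem_normalizer card_cj cj_inf cj_bot cj_cj_inv cj_inv_cj cj_inj)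
open Cfsg.Agent.Lib.PGroup.Timmesfeld Cfsg.Agent.Lib.PGroup.FFPair Cfsg.Agent.Lib.PGroup.FFTv
  Cfsg.Agent.Lib.PGroup.FFDuo Cfsg.Agent.Lib.PGroup.FFDich Cfsg.Agent.Lib.PGroup.FFStruct
  Cfsg.Agent.Lib.PGroup.FFOper
open Cfsg.Agent.Lib.Coprime.Three (mem_normalizer_of_conj_mem)
open Cfsg.Agent.Lib.Coprime.Averaging (conjHom conjHom_coe normHom normHom_apply normHom_fixed)

variable {G : Type*} [Group G] [Finite G] {p : ℕ} [hp : Fact p.Prime] {V H : Subgroup G}
  {Ξ : Type*} [Group Ξ] [Fintype Ξ] {q : ℕ} [hq : Fact q.Prime]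

/-- The action of the operators on `V`. -/
noncomputable def opHom (t : Ξ →* G) (htV : ∀ x, cj (t x) V = V) : Ξ →* MulAut ↥V :=
  (conjHom t.range V (by
    rintro _ ⟨x, rfl⟩
    exact mem_normalizer_of_cj_eq (htV x))).comp t.rangeRestrict

theorem opHom_coe (t : Ξ →* G) (htV : ∀ x, cj (t x) V = V) (x : Ξ) (v : ↥V) :
    ((opHom t htV x v : ↥V) : G) = t x * v * (t x)⁻¹ := rfl

variable [hVc : IsMulCommutative ↥V]

/-- The norm. -/
noncomputable abbrev NN (t : Ξ →* G) (htV : ∀ x, cj (t x) V = V) : ↥V →* ↥V := normHom (opHom t htV)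

theorem NN_fixed (t : Ξ →* G) (htV : ∀ x, cj (t x) V = V) (x : Ξ) (v : ↥V) :
    t x * (NN t htV v : G) * (t x)⁻¹ = NN t htV v := by
  have h := normHom_fixed (opHom t htV) x v
  have h2 := congrArg Subtype.val h
  rw [opHom_coe] at h2
  exact h2

theorem NN_conj (t : Ξ →* G) (htV : ∀ x, cj (t x) V = V) {h : G} (hV : cj h V = V)
    (hfix : ∀ x, t x * h * (t x)⁻¹ = h) (u u' : ↥V) (hu : (u' : G) = h * u * h⁻¹) :
    (NN t htV u' : G) = h * (NN t htV u : G) * h⁻¹ := by
  classical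
  let ψ : ↥V →* ↥V :=
    { toFun := fun v => ⟨h * v * h⁻¹, conj_mem_of_cj_eq hV v.2⟩
      map_one' := by
        apply Subtype.ext
        simp
      map_mul' := fun a b => by
        apply Subtype.ext
        simp only [Subgroup.coe_mul]
        group }
  have hψ : u' = ψ u := Subtype.ext hu
  have h1 : NN t htV u' = ψ (NN t htV u) := by
    rw [hψ, Cfsg.Agent.Lib.Coprime.Averaging.normHom_apply, Cfsg.Agent.Lib.Coprime.Averaging.normHom_apply, map_prod]
    refine Finset.prod_congr rfl (fun a _ => ?_)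
    apply Subtype.ext
    show t a * (h * u * h⁻¹) * (t a)⁻¹ = h * (t a * u * (t a)⁻¹) * h⁻¹
    have h2 := hfix a
    have h3 : t a * h = h * t a := by
      calc t a * h = (t a * h * (t a)⁻¹) * t a := by group
        _ = h * t a := by rw [h2]
    calc t a * (h * u * h⁻¹) * (t a)⁻¹ = (t a * h) * u * (t a * h)⁻¹ := by group
      _ = (h * t a) * u * (h * t a)⁻¹ := by rw [h3]
      _ = h * (t a * u * (t a)⁻¹) * h⁻¹ := by group
  rw [h1]
  rfl

/-- The decomposition of the norm on the plane. -/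
theorem NN_decomp (S : Setup p V H) (hΞ : IsPGroup q Ξ) (t : Ξ →* G) (htV : ∀ x, cj (t x) V = V)
    (htH : ∀ x, cj (t x) H = H) (hq2 : q ≠ 2) (hq3 : q ≠ 3) (E : Idx p V H) :
    ∃ k : ℕ, ∀ w : ↥V, (w : G) ∈ ⁅V, E.1⁆ → ∃ z : ↥V, (z : G) ∈ V ⊓ Subgroup.centralizer ((E.1 : Subgroup G) : Set G) ∧
      NN t htV w = w ^ (q ^ k) * z := by
  classical
  have htq : ∀ x, ∃ n : ℕ, t x ^ (q ^ n) = 1 := by
    intro x
    obtain ⟨n, hn⟩ := hΞ x
    exact ⟨n, by rw [← map_pow, hn, map_one]⟩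
  obtain ⟨k, hk⟩ := exists_stab_card hΞ t E.1
  obtain ⟨hp23, hW, -⟩ := idx_data S E
  refine ⟨k, fun w hw => ?_⟩
  set Y := Finset.univ.filter (fun y : Ξ => cj (t y) E.1 = E.1) with hY
  have hk' : Y.card = q ^ k := by
    convert hk
  let Z : Subgroup ↥V := (V ⊓ Subgroup.centralizer ((E.1 : Subgroup G) : Set G)).subgroupOf V
  refine ⟨∏ a ∈ Finset.univ.filter (fun y : Ξ => ¬ cj (t y) E.1 = E.1), opHom t htV a w, ?_, ?_⟩
  · have hmem : ∏ a ∈ Finset.univ.filter (fun y : Ξ => ¬ cj (t y) E.1 = E.1), opHom t htV a w ∈ Z := by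
      apply Subgroup.prod_mem
      intro a ha
      have h1 : cj (t a) E.1 ≠ E.1 := (Finset.mem_filter.mp ha).2
      have hne : idxConj (htV a) (htH a) E ≠ E := fun h => h1 (congrArg Subtype.val h)
      have h2 := idx_W_le_Z S hne
      rw [Subgroup.mem_subgroupOf, opHom_coe]
      apply h2
      show t a * (w : G) * (t a)⁻¹ ∈ ⁅V, (idxConj (htV a) (htH a) E).1⁆
      have h3 : ⁅V, (idxConj (htV a) (htH a) E).1⁆ = cj (t a) ⁅V, E.1⁆ := by
        rw [cj_commutator, htV a]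
        rfl
      rw [h3]
      exact conj_mem_cj hw
    exact Subgroup.mem_subgroupOf.mp hmem
  · rw [Cfsg.Agent.Lib.Coprime.Averaging.normHom_apply, ← Finset.prod_filter_mul_prod_filter_not Finset.univ (fun y : Ξ => cj (t y) E.1 = E.1)]
    congr 1
    rw [← hk', Finset.prod_congr rfl (g := fun _ => w), Finset.prod_const]
    intro a ha
    apply Subtype.ext
    rw [opHom_coe]
    have h1 : cj (t a) E.1 = E.1 := (Finset.mem_filter.mp ha).2
    obtain ⟨n, hn⟩ := htq a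
    have hτW : cj (t a) ⁅V, E.1⁆ = ⁅V, E.1⁆ := by rw [cj_commutator, htV a, h1]
    exact centralizes_plane hp23 hW hτW hn hq2 hq3 hw

/-- The norm is injective on the plane. -/
theorem NN_inj (S : Setup p V H) (hΞ : IsPGroup q Ξ) (t : Ξ →* G) (htV : ∀ x, cj (t x) V = V)
    (htH : ∀ x, cj (t x) H = H) (hq2 : q ≠ 2) (hq3 : q ≠ 3) (E : Idx p V H) {u : ↥V} (hu : (u : G) ∈ ⁅V, E.1⁆)
    (hN : NN t htV u = 1) : u = 1 := by
  obtain ⟨k, hk⟩ := NN_decomp S hΞ t htV htH hq2 hq3 E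
  obtain ⟨z, hz, hNz⟩ := hk u hu
  obtain ⟨hp23, -, -⟩ := idx_data S E
  rw [hN] at hNz
  have h1 : u ^ (q ^ k) = z⁻¹ := eq_inv_of_mul_eq_one_left hNz.symm
  have h2 : ((u ^ (q ^ k) : ↥V) : G) ∈ ⁅V, E.1⁆ ⊓ (V ⊓ Subgroup.centralizer ((E.1 : Subgroup G) : Set G)) := by
    refine Subgroup.mem_inf.mpr ⟨?_, ?_⟩
    · rw [Subgroup.coe_pow]
      exact Subgroup.pow_mem _ hu _
    · rw [h1, InvMemClass.coe_inv]
      exact Subgroup.inv_mem _ hz
  rw [idx_inf S E, Subgroup.mem_bot] at h2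
  have h3 : u ^ (q ^ k) = 1 := Subtype.ext h2
  have h4 : u ^ p = 1 := by
    apply Subtype.ext
    rw [Subgroup.coe_pow]
    exact S.hV.2 _ u.2
  have hcop : Nat.Coprime (q ^ k) p := by
    apply Nat.Coprime.pow_left
    rw [Nat.Prime.coprime_iff_not_dvd hq.out]
    intro hd
    have hqp := (Nat.prime_dvd_prime_iff_eq hq.out hp.out).mp hd
    rcases hp23 with h | h
    · exact hq2 (hqp.trans h)
    · exact hq3 (hqp.trans h)
  have h5 : orderOf u ∣ 1 := by
    rw [← hcop.gcd_eq_one]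
    exact Nat.dvd_gcd (orderOf_dvd_of_pow_eq_one h3) (orderOf_dvd_of_pow_eq_one h4)
  exact orderOf_eq_one_iff.mp (Nat.dvd_one.mp h5)

theorem idx_E_sup_F (S : Setup p V H) (hH : H ≤ sSup {A | IsMinBO p V H A}) (E : Idx p V H) :
    E.1 ⊔ (H ⊓ Subgroup.centralizer ((⁅V, E.1⁆ : Subgroup G) : Set G)) = H := by
  obtain ⟨a, x, hx, D, hE⟩ := idx_rep S E
  rw [hE, comm_W S D]
  exact E_sup_F S D hH

theorem idx_E_comm_F (S : Setup p V H) (hH : H ≤ sSup {A | IsMinBO p V H A}) (E : Idx p V H) {g k : G}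
    (hg : g ∈ E.1) (hk : k ∈ H ⊓ Subgroup.centralizer ((⁅V, E.1⁆ : Subgroup G) : Set G)) : g * k = k * g := by
  obtain ⟨a, x, hx, D, hE⟩ := idx_rep S E
  rw [hE] at hg
  rw [hE, comm_W S D] at hk
  exact E_comm_F S D hH hg hk

/-- The plane of fixed points, and the action of the fixed points of `H` on it. -/
theorem plane_data (S : Setup p V H) (hH : H ≤ sSup {A | IsMinBO p V H A}) (hΞ : IsPGroup q Ξ)
    (t : Ξ →* G) (htV : ∀ x, cj (t x) V = V) (htH : ∀ x, cj (t x) H = H) (hq2 : q ≠ 2) (hq3 : q ≠ 3)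
    (E : Idx p V H) (hqE : ¬ q ∣ Nat.card E.1) :
    ∃ W F : Subgroup G, W ≤ V ∧ Nat.card W = p ^ 2 ∧ (∀ w ∈ W, ∀ x, t x * w * (t x)⁻¹ = w) ∧ F ≤ H ∧
      (∀ d ∈ H, (∀ x, t x * d * (t x)⁻¹ = d) →
        d ∈ Subgroup.normalizer (W : Set G) ∧ (d ∈ Subgroup.centralizer (W : Set G) ↔ d ∈ F)) ∧
      ∃ _ : (F.subgroupOf H).Normal, Nonempty (↥H ⧸ F.subgroupOf H ≃* Matrix.SpecialLinearGroup (Fin 2) (ZMod p)) ∧
      ∀ h ∈ H, ∃ d ∈ H, (∀ x, t x * d * (t x)⁻¹ = d) ∧ d⁻¹ * h ∈ F := by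
  classical
  have hEH := idx_E_le S E
  have hWV := idx_W_le S E
  obtain ⟨hp23, hWc, ⟨eE⟩⟩ := idx_data S E
  let W₁ : Subgroup G := ⁅V, E.1⁆
  let ψ : ↥W₁ →* G := V.subtype.comp ((NN t htV).comp (Subgroup.inclusion hWV))
  have hψinj : Function.Injective ψ := by
    rw [injective_iff_map_eq_one]
    intro u hu
    have h1 : NN t htV (Subgroup.inclusion hWV u) = 1 := Subtype.ext hu
    have h2 := NN_inj S hΞ t htV htH hq2 hq3 E (u := Subgroup.inclusion hWV u) u.2 h1
    have h3 : ((Subgroup.inclusion hWV u : ↥V) : G) = 1 := congrArg Subtype.val h2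
    exact Subtype.ext h3
  have hEn : H ≤ Subgroup.normalizer ((E.1 : Subgroup G) : Set G) := by
    obtain ⟨a, x, hx, D, hE⟩ := idx_rep S E
    rw [hE]
    exact H_le_normalizer S D hH
  have hdW₁ : ∀ d ∈ H, cj d W₁ = W₁ := by
    intro d hd
    show cj d ⁅V, E.1⁆ = ⁅V, E.1⁆
    rw [cj_commutator, cj_eq_of_mem_normalizer (S.hHV hd), cj_eq_of_mem_normalizer (hEn hd)]
  let F : Subgroup G := H ⊓ Subgroup.centralizer ((W₁ : Subgroup G) : Set G)
  have hconjψ : ∀ d ∈ H, (∀ x, t x * d * (t x)⁻¹ = d) → ∀ u : ↥W₁,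
      ∃ u' : ↥W₁, (u' : G) = d * u * d⁻¹ ∧ ψ u' = d * ψ u * d⁻¹ := by
    intro d hd hfix u
    refine ⟨⟨d * u * d⁻¹, conj_mem_of_cj_eq (hdW₁ d hd) u.2⟩, rfl, ?_⟩
    exact NN_conj t htV (cj_eq_of_mem_normalizer (S.hHV hd)) hfix _ _ rfl
  refine ⟨ψ.range, F, ?_, ?_, ?_, inf_le_left, ?_, ?_⟩
  · rintro _ ⟨u, rfl⟩
    exact (NN t htV (Subgroup.inclusion hWV u)).2
  · rw [Nat.card_congr (MonoidHom.ofInjective hψinj).toEquiv.symm]
    exact hWc
  · rintro _ ⟨u, rfl⟩ x
    exact NN_fixed t htV x _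
  · intro d hd hfix
    constructor
    · apply mem_normalizer_of_conj_mem
      rintro _ ⟨u, rfl⟩
      obtain ⟨u', -, hu'⟩ := hconjψ d hd hfix u
      exact ⟨u', hu'⟩
    · constructor
      · intro hc
        refine Subgroup.mem_inf.mpr ⟨hd, ?_⟩
        rw [Subgroup.mem_centralizer_iff]
        intro w hw
        obtain ⟨u', hu', hψ'⟩ := hconjψ d hd hfix ⟨w, hw⟩
        have h1 : ψ u' = ψ ⟨w, hw⟩ := by
          rw [hψ']
          have h2 := (Subgroup.mem_centralizer_iff.mp hc) (ψ ⟨w, hw⟩) ⟨_, rfl⟩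
          rw [← h2]
          group
        have h3 := hψinj h1
        rw [h3] at hu'
        have h4 : w = d * w * d⁻¹ := hu'
        calc w * d = d * w * d⁻¹ * d := by rw [← h4]
          _ = d * w := by group
      · intro hf
        have hfc := (Subgroup.mem_inf.mp hf).2
        rw [Subgroup.mem_centralizer_iff]
        rintro _ ⟨u, rfl⟩
        obtain ⟨u', hu', hψ'⟩ := hconjψ d hd hfix u
        have h1 : u' = u := by
          apply Subtype.ext
          rw [hu']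
          have h2 := (Subgroup.mem_centralizer_iff.mp hfc) u u.2
          rw [← h2]
          group
        rw [h1] at hψ'
        calc ψ u * d = d * ψ u * d⁻¹ * d := by rw [← hψ']
          _ = d * ψ u := by group
  · -- normality, the isomorphism and the surjectivity
    have hnF : (F.subgroupOf H).Normal := by
      refine ⟨fun f hf h => ?_⟩
      rw [Subgroup.mem_subgroupOf] at hf ⊢
      obtain ⟨hf1, hf2⟩ := Subgroup.mem_inf.mp hf
      refine Subgroup.mem_inf.mpr ⟨(h * f * h⁻¹).2, ?_⟩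
      rw [Subgroup.mem_centralizer_iff]
      intro w hw
      have h1 : (h : G)⁻¹ * w * h ∈ W₁ := by
        have := conj_mem_of_cj_eq (hdW₁ _ (H.inv_mem h.2)) hw
        simpa using this
      have h2 := (Subgroup.mem_centralizer_iff.mp hf2) _ h1
      simp only [Subgroup.coe_mul, InvMemClass.coe_inv]
      calc w * ((h : G) * f * (h : G)⁻¹) = h * (((h : G)⁻¹ * w * h) * f) * (h : G)⁻¹ := by group
        _ = h * (f * ((h : G)⁻¹ * w * h)) * (h : G)⁻¹ := by rw [h2]
        _ = (h : G) * f * (h : G)⁻¹ * w := by group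
    have hsup := idx_E_sup_F S hH E
    have hcomm : ∀ g ∈ E.1, ∀ f ∈ F, g * f = f * g := fun g hg f hf => idx_E_comm_F S hH E hg hf
    have hinf : E.1 ⊓ F = ⊥ := by
      rw [eq_bot_iff]
      intro y hy
      obtain ⟨hy1, hy2⟩ := Subgroup.mem_inf.mp hy
      have h1 : y ∈ E.1 ⊓ Subgroup.centralizer ((⁅V, E.1⁆ : Subgroup G) : Set G) :=
        Subgroup.mem_inf.mpr ⟨hy1, (Subgroup.mem_inf.mp hy2).2⟩
      rwa [idx_faithful S E] at h1
    refine ⟨hnF, ?_, ?_⟩
    · let g : ↥E.1 →* ↥H ⧸ F.subgroupOf H := (QuotientGroup.mk' _).comp (Subgroup.inclusion hEH)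
      have hg : Function.Bijective g := by
        constructor
        · rw [injective_iff_map_eq_one]
          intro e he
          have h1 : Subgroup.inclusion hEH e ∈ F.subgroupOf H := (QuotientGroup.eq_one_iff _).mp he
          rw [Subgroup.mem_subgroupOf] at h1
          have h2 : (e : G) ∈ E.1 ⊓ F := Subgroup.mem_inf.mpr ⟨e.2, h1⟩
          rw [hinf, Subgroup.mem_bot] at h2
          exact Subtype.ext h2
        · intro y
          obtain ⟨h, rfl⟩ := QuotientGroup.mk'_surjective _ y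
          have hh : (h : G) ∈ E.1 ⊔ F := by
            rw [hsup]
            exact h.2
          obtain ⟨e, he, f, hf, hef⟩ := Cfsg.Agent.Lib.Components.LayerProduct.mem_sup_of_commute hcomm hh
          refine ⟨⟨e, he⟩, ?_⟩
          show QuotientGroup.mk' _ (Subgroup.inclusion hEH ⟨e, he⟩) = QuotientGroup.mk' _ h
          rw [QuotientGroup.mk'_apply, QuotientGroup.mk'_apply, QuotientGroup.eq, Subgroup.mem_subgroupOf]
          have h1 : (((Subgroup.inclusion hEH ⟨e, he⟩)⁻¹ * h : ↥H) : G) = f := by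
            simp only [Subgroup.coe_mul, InvMemClass.coe_inv, Subgroup.coe_inclusion]
            rw [hef]
            group
          rw [h1]
          exact hf
      exact ⟨(MulEquiv.ofBijective g hg).symm.trans eE⟩
    · intro h hh
      have hh' : h ∈ E.1 ⊔ F := by
        rw [hsup]
        exact hh
      obtain ⟨e₀, he₀, f₀, hf₀, rfl⟩ := Cfsg.Agent.Lib.Components.LayerProduct.mem_sup_of_commute hcomm hh'
      obtain ⟨k, hk⟩ := exists_norm_E S hΞ t htV htH hq2 hq3 E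
      have hqE' : Nat.Coprime (Nat.card E.1) (q ^ k) := by
        apply Nat.Coprime.pow_right
        rw [Nat.coprime_comm, Nat.Prime.coprime_iff_not_dvd hq.out]
        exact hqE
      let e : ↥E.1 := (powCoprime hqE').symm ⟨e₀, he₀⟩
      have he : (e : G) ^ (q ^ k) = e₀ := by
        have := (powCoprime hqE').apply_symm_apply ⟨e₀, he₀⟩
        rw [powCoprime_apply] at this
        exact congrArg Subtype.val this
      obtain ⟨f, hf, -, hfW, hfix⟩ := hk e e.2
      rw [he] at hfix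
      refine ⟨e₀ * f, H.mul_mem (hEH he₀) hf, hfix, ?_⟩
      have hfF : f ∈ F := by
        refine Subgroup.mem_inf.mpr ⟨hf, ?_⟩
        rw [Subgroup.mem_centralizer_iff]
        intro w hw
        exact (hfW w hw).symm
      have h1 : (e₀ * f)⁻¹ * (e₀ * f₀) = f⁻¹ * f₀ := by group
      rw [h1]
      exact F.mul_mem (F.inv_mem hfF) hf₀

end Cfsg.Agent.Lib.PGroup.FFNorm
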