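import Cfsg.Agent.Lib.PGroup.FFTrans
import Cfsg.Agent.Lib.Nilpotent.Subnormal
import Cfsg.Agent.Lib.Coprime.Averaging
import Cfsg.Agent.S0615
import Mathlib

/-!
# Operators on the failure of factorization structure

A group of operators, acting by conjugation with elements normalizing `V` and `H`, permutes the
components `E` of `H`.  A `q`-group of operators, `q ≠ 2, 3`, centralizes each component it normalizes; the norm of an element
of `E` is a fixed element of `H` acting on `E` like a power of the element.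
-/

set_option autoImplicit false
set_option linter.unusedSectionVars false
set_option linter.style.haveILetI false
open Cfsg
open scoped commutatorElement

namespace Cfsg.Agent.Lib.PGroup.FFOper

open Cfsg.Agent.Lib.Nilpotent.Subnormal
open Cfsg.Agent.S0615 (cj_commutator cj_eq_of_mem_normalizer card_cj cj_inf cj_bot cj_cj_inv cj_inv_cj cj_inj)
open Cfsg.Agent.Lib.PGroup.Timmesfeld Cfsg.Agent.Lib.PGroup.FFPair Cfsg.Agent.Lib.PGroup.FFTv
  Cfsg.Agent.Lib.PGroup.FFDuo Cfsg.Agent.Lib.PGroup.FFDich Cfsg.Agent.Lib.PGroup.FFStruct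
open Cfsg.Agent.Lib.Coprime.Three (mem_normalizer_of_conj_mem)

variable {G : Type*} [Group G] [Finite G] {p : ℕ} [hp : Fact p.Prime] {V H : Subgroup G}

theorem cj_centralizer (t : G) (A : Subgroup G) :
    cj t (Subgroup.centralizer (A : Set G)) = Subgroup.centralizer ((cj t A : Subgroup G) : Set G) := by
  ext x
  rw [mem_cj, Subgroup.mem_centralizer_iff, Subgroup.mem_centralizer_iff]
  constructor
  · intro h b hb
    have hb' : t⁻¹ * b * t ∈ A := mem_cj.mp hb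
    have h1 := h _ hb'
    calc b * x = t * ((t⁻¹ * b * t) * (t⁻¹ * x * t)) * t⁻¹ := by group
      _ = t * ((t⁻¹ * x * t) * (t⁻¹ * b * t)) * t⁻¹ := by rw [h1]
      _ = x * b := by group
  · intro h a ha
    have h1 := h _ (conj_mem_cj (g := t) ha)
    calc a * (t⁻¹ * x * t) = t⁻¹ * ((t * a * t⁻¹) * x) * t := by group
      _ = t⁻¹ * (x * (t * a * t⁻¹)) * t := by rw [h1]
      _ = (t⁻¹ * x * t) * a := by group

theorem conj_mem_of_cj_eq {t : G} {A : Subgroup G} (h : cj t A = A) {a : G} (ha : a ∈ A) :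
    t * a * t⁻¹ ∈ A := by
  have := conj_mem_cj (g := t) ha
  rwa [h] at this

theorem cj_inv_eq {t : G} {A : Subgroup G} (h : cj t A = A) : cj t⁻¹ A = A := by
  conv_lhs => rw [← h]
  exact cj_inv_cj t A

/-- Best offenders are transported by elements normalizing `V`. -/
theorem isBO_cj {t : G} (ht : cj t V = V) {A : Subgroup G} (hA : Cfsg.IsBestOffenderOn p V A) :
    Cfsg.IsBestOffenderOn p V (cj t A) := by
  obtain ⟨h1, h2, h3⟩ := hA
  have hC : ∀ B : Subgroup G, Nat.card ↥(V ⊓ Subgroup.centralizer ((cj t B : Subgroup G) : Set G)) =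
      Nat.card ↥(V ⊓ Subgroup.centralizer (B : Set G)) := by
    intro B
    rw [← cj_centralizer]
    conv_lhs => rw [← ht]
    rw [← cj_inf, card_cj]
  have hCV : cj t (Subgroup.centralizer (V : Set G)) = Subgroup.centralizer (V : Set G) := by
    rw [cj_centralizer, ht]
  refine ⟨?_, ?_, ?_⟩
  · intro B hB
    have hB' : cj t⁻¹ B ≤ A := by
      have := cj_mono t⁻¹ hB
      rwa [cj_inv_cj] at this
    have h4 := h1 _ hB'
    rw [card_cj] at h4
    rw [card_cj, hC A]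
    have h5 := hC (cj t⁻¹ B)
    rw [cj_cj_inv] at h5
    rw [h5]
    exact h4
  · rw [← cj_commutator, ← hCV]
    exact cj_mono t h2
  · intro a ha
    have ha' := mem_cj.mp ha
    have h4 := h3 _ ha'
    have h5 : a ^ p = t * ((t⁻¹ * a * t) ^ p) * t⁻¹ := by
      have : t⁻¹ * a * t = (MulAut.conj t⁻¹) a := by simp [MulAut.conj_apply]
      rw [this, ← map_pow]
      simp [MulAut.conj_apply]
      group
    rw [h5]
    have := conj_mem_cj (g := t) h4
    rwa [hCV] at this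

theorem isMinBO_cj {t : G} (htV : cj t V = V) (htH : cj t H = H) {A : Subgroup G}
    (hA : IsMinBO p V H A) : IsMinBO p V H (cj t A) := by
  obtain ⟨h1, h2, h3, h4⟩ := hA
  refine ⟨?_, isBO_cj htV h2, ?_, ?_⟩
  · have := cj_mono t h1
    rwa [htH] at this
  · have : ⁅V, cj t A⁆ = cj t ⁅V, A⁆ := by rw [cj_commutator, htV]
    rw [this]
    intro h
    apply h3
    have h5 := congrArg (cj t⁻¹) h
    rwa [cj_inv_cj, cj_bot] at h5
  · intro B hB hBo hBne
    have hB' : cj t⁻¹ B ≤ A := by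
      have := cj_mono t⁻¹ hB
      rwa [cj_inv_cj] at this
    have h5 := h4 _ hB' (isBO_cj (cj_inv_eq htV) hBo) (by
      have : ⁅V, cj t⁻¹ B⁆ = cj t⁻¹ ⁅V, B⁆ := by rw [cj_commutator, cj_inv_eq htV]
      rw [this]
      intro h
      apply hBne
      have h6 := congrArg (cj t) h
      rwa [cj_cj_inv, cj_bot] at h6)
    rw [← h5, cj_cj_inv]

/-- Conjugation by an element normalizing `H` preserves `O_{p'}(H)`. -/
theorem conj_core_mem {t : G} (htH : cj t H = H) {x : G} (hx : x ∈ core p H) :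
    t * x * t⁻¹ ∈ core p H := by
  have ht : ∀ y ∈ H, t * y * t⁻¹ ∈ H := fun y hy => conj_mem_of_cj_eq htH hy
  have ht' : ∀ y ∈ H, t⁻¹ * y * t ∈ H := fun y hy => by
    have := conj_mem_of_cj_eq (cj_inv_eq htH) hy
    simpa using this
  let φ : ↥H ≃* ↥H :=
    { toFun := fun y => ⟨t * y * t⁻¹, ht y y.2⟩
      invFun := fun y => ⟨t⁻¹ * y * t, ht' y y.2⟩
      left_inv := fun y => Subtype.ext (by simp only; group)
      right_inv := fun y => Subtype.ext (by simp only; group)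
      map_mul' := fun y z => Subtype.ext (by simp only [Subgroup.coe_mul]; group) }
  obtain ⟨y, hy, rfl⟩ := hx
  haveI := Cfsg.Agent.Lib.Solvable.PSeries.pPrimeCore_char (G := ↥H) p
  have h1 : φ y ∈ Cfsg.pPrimeCore p ↥H := by
    have h2 := (Subgroup.characteristic_iff_le_comap.mp this) φ
    exact (Subgroup.mem_comap.mp (h2 hy) : _)
  exact ⟨φ y, h1, rfl⟩

theorem cj_core {t : G} (htH : cj t H = H) : cj t (core p H) = core p H := by
  apply le_antisymm
  · intro x hx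
    have h1 := conj_core_mem (p := p) htH (mem_cj.mp hx)
    have h2 : t * (t⁻¹ * x * t) * t⁻¹ = x := by group
    rwa [h2] at h1
  · intro x hx
    rw [mem_cj]
    have := conj_core_mem (p := p) (cj_inv_eq htH) hx
    simpa using this

/-- The action of an operator on the components. -/
noncomputable def idxConj {t : G} (htV : cj t V = V) (htH : cj t H = H) (E : Idx p V H) : Idx p V H :=
  ⟨cj t E.1, by
    obtain ⟨A, h1, h2, h3, h4, h5⟩ := E.2
    obtain ⟨h1', h2', h3', h4'⟩ := isMinBO_cj (p := p) htV htH (⟨h1, h2, h3, h4⟩ : IsMinBO p V H A)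
    refine ⟨cj t A, h1', h2', h3', h4', ?_⟩
    rw [h5, cj_sup, cj_commutator]
    have := cj_core (p := p) htH
    rw [core] at this
    rw [this]⟩

@[simp] theorem idxConj_val {t : G} (htV : cj t V = V) (htH : cj t H = H) (E : Idx p V H) :
    (idxConj htV htH E).1 = cj t E.1 := rfl

/-- Different components commute. -/
theorem idx_comm (S : Setup p V H) {E E' : Idx p V H} (hne : E ≠ E') {g k : G} (hg : g ∈ E.1)
    (hk : k ∈ E'.1) : g * k = k * g := by
  obtain ⟨a, x, hx, D, hE⟩ := idx_rep S E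
  obtain ⟨a', x', hx', D', hE'⟩ := idx_rep S E'
  rw [hE] at hg
  rw [hE'] at hk
  rcases dichotomy S D D' with ⟨h, -⟩ | ⟨-, -, -, h4⟩
  · exact absurd (Subtype.ext (hE.trans (h.trans hE'.symm))) hne
  · exact h4 g hg k hk

/-- Data of a component. -/
theorem idx_data (S : Setup p V H) (E : Idx p V H) :
    (p = 2 ∨ p = 3) ∧ Nat.card ↥(⁅V, E.1⁆ : Subgroup G) = p ^ 2 ∧ Nonempty (↥E.1 ≃* Matrix.SpecialLinearGroup (Fin 2) (ZMod p)) := by
  obtain ⟨a, x, hx, D, hE⟩ := idx_rep S E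
  rw [hE, comm_W S D]
  obtain ⟨d₁, d₂, f, -⟩ := exists_equiv_E S D
  exact ⟨p_eq S D, card_W S D, ⟨f⟩⟩

/-- A `q`-element, `q ≠ 2, 3`, centralizes the plane `[V, E]` when it normalizes it. -/
theorem centralizes_plane {W : Subgroup G} (hp23 : p = 2 ∨ p = 3) (hW : Nat.card W = p ^ 2) {τ : G}
    (hτ : cj τ W = W) {q n : ℕ} [hq : Fact q.Prime] (hτq : τ ^ (q ^ n) = 1) (hq2 : q ≠ 2) (hq3 : q ≠ 3)
    {w : G} (hw : w ∈ W) : τ * w * τ⁻¹ = w := by
  classical
  have hle : Subgroup.zpowers τ ≤ Subgroup.normalizer (W : Set G) :=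
    (Subgroup.zpowers_le).mpr (mem_normalizer_of_cj_eq hτ)
  have hP : IsPGroup q (Subgroup.zpowers τ) := by
    obtain ⟨j, _, hj⟩ := (Nat.dvd_prime_pow hq.out).mp (orderOf_dvd_of_pow_eq_one hτq)
    apply IsPGroup.of_card (n := j)
    rw [Nat.card_zpowers, hj]
  let φ := Cfsg.Agent.Lib.Coprime.Averaging.conjHom (Subgroup.zpowers τ) W hle
  letI act : MulAction (Subgroup.zpowers τ) W := MulAction.compHom W φ
  have hsmul : ∀ (a : Subgroup.zpowers τ) (y : W), ((a • y : W) : G) = a * y * (a : G)⁻¹ :=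
    fun _ _ => rfl
  -- the fixed points form a subgroup
  let C₀ : Subgroup ↥W :=
    { carrier := {v | ∀ a, φ a v = v}
      mul_mem' := by
        intro v v' hv hv' a
        rw [map_mul, hv a, hv' a]
      one_mem' := by
        intro a
        rw [map_one]
      inv_mem' := by
        intro v hv a
        rw [map_inv, hv a] }
  have hfix : Nat.card (MulAction.fixedPoints (Subgroup.zpowers τ) W) = Nat.card C₀ := rfl
  have hmod := hP.card_modEq_card_fixedPoints W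
  rw [hfix, hW] at hmod
  have hdvd : Nat.card C₀ ∣ p ^ 2 := by
    rw [← hW]
    exact Subgroup.card_subgroup_dvd_card C₀
  obtain ⟨i, hi, hci⟩ := (Nat.dvd_prime_pow hp.out).mp hdvd
  have hq_dvd : ∀ a : ℕ, q ∣ a → a = 2 ∨ a = 3 ∨ a = 6 ∨ a = 8 → False := by
    intro a ha h
    have h2 : Nat.Prime 2 := Nat.prime_two
    have h3 : Nat.Prime 3 := Nat.prime_three
    rcases h with rfl | rfl | rfl | rfl
    · exact hq2 ((Nat.prime_dvd_prime_iff_eq hq.out h2).mp ha)
    · exact hq3 ((Nat.prime_dvd_prime_iff_eq hq.out h3).mp ha)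
    · have : q ∣ 2 * 3 := ha
      rcases (Nat.Prime.dvd_mul hq.out).mp this with h | h
      · exact hq2 ((Nat.prime_dvd_prime_iff_eq hq.out h2).mp h)
      · exact hq3 ((Nat.prime_dvd_prime_iff_eq hq.out h3).mp h)
    · have : q ∣ 2 ^ 3 := ha
      exact hq2 ((Nat.prime_dvd_prime_iff_eq hq.out h2).mp (hq.out.dvd_of_dvd_pow this))
  have hi2 : i = 2 := by
    by_contra hne
    have hcases : i = 0 ∨ i = 1 := by omega
    rw [hci] at hmod
    have hdiv : q ∣ p ^ 2 - p ^ i := (Nat.modEq_iff_dvd' (Nat.pow_le_pow_right hp.out.pos hi)).mp hmod.symm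
    rcases hp23 with rfl | rfl <;> rcases hcases with rfl | rfl
    · exact hq_dvd _ hdiv (by norm_num)
    · exact hq_dvd _ hdiv (by norm_num)
    · exact hq_dvd _ hdiv (by norm_num)
    · exact hq_dvd _ hdiv (by norm_num)
  have hC : C₀ = ⊤ := by
    apply Subgroup.eq_top_of_card_eq
    rw [hci, hi2, hW]
  have hmem : (⟨w, hw⟩ : ↥W) ∈ C₀ := by rw [hC]; trivial
  have h1 : φ ⟨τ, Subgroup.mem_zpowers τ⟩ ⟨w, hw⟩ = ⟨w, hw⟩ := hmem ⟨τ, Subgroup.mem_zpowers τ⟩
  have h2 := congrArg Subtype.val h1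
  exact h2

/-- A `q`-element, `q ≠ 2, 3`, normalizing a component centralizes it. -/
theorem stab_central (S : Setup p V H) (E : Idx p V H) {τ : G} (hτV : cj τ V = V) (hτE : cj τ E.1 = E.1)
    {q n : ℕ} [hq : Fact q.Prime] (hτq : τ ^ (q ^ n) = 1) (hq2 : q ≠ 2) (hq3 : q ≠ 3) {e : G}
    (he : e ∈ E.1) : τ * e * τ⁻¹ = e := by
  obtain ⟨hp23, hW, -⟩ := idx_data S E
  have hτW : cj τ ⁅V, E.1⁆ = ⁅V, E.1⁆ := by rw [cj_commutator, hτV, hτE]
  have hfix : ∀ w ∈ ⁅V, E.1⁆, τ * w * τ⁻¹ = w := fun w hw =>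
    centralizes_plane hp23 hW hτW hτq hq2 hq3 hw
  have hE : ∀ g ∈ E.1, ∀ w ∈ ⁅V, E.1⁆, g * w * g⁻¹ ∈ ⁅V, E.1⁆ := by
    intro g hg w hw
    have hgn : cj g ⁅V, E.1⁆ = ⁅V, E.1⁆ := by
      rw [cj_commutator, cj_eq_self_of_mem hg, cj_eq_of_mem_normalizer (S.hHV (idx_E_le S E hg))]
    exact conj_mem_of_cj_eq hgn hw
  have hc : τ * e * τ⁻¹ * e⁻¹ ∈ E.1 ⊓ Subgroup.centralizer ((⁅V, E.1⁆ : Subgroup G) : Set G) := by
    refine Subgroup.mem_inf.mpr ⟨E.1.mul_mem (conj_mem_of_cj_eq hτE he) (E.1.inv_mem he), ?_⟩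
    rw [Subgroup.mem_centralizer_iff]
    intro w hw
    have hw1 : e⁻¹ * w * e ∈ ⁅V, E.1⁆ := by
      have := hE _ (E.1.inv_mem he) w hw
      simpa using this
    have h1 := hfix _ hw1
    have h2 := hfix w hw
    have h3 : τ⁻¹ * (e⁻¹ * w * e) * τ = e⁻¹ * w * e := by
      calc τ⁻¹ * (e⁻¹ * w * e) * τ = τ⁻¹ * (τ * (e⁻¹ * w * e) * τ⁻¹) * τ := by rw [h1]
        _ = e⁻¹ * w * e := by group
    calc w * (τ * e * τ⁻¹ * e⁻¹) = (τ * w * τ⁻¹) * (τ * e * τ⁻¹ * e⁻¹) := by rw [h2]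
      _ = τ * e * (e⁻¹ * w * e) * τ⁻¹ * e⁻¹ := by group
      _ = τ * e * (τ⁻¹ * (e⁻¹ * w * e) * τ) * τ⁻¹ * e⁻¹ := by rw [h3]
      _ = τ * e * τ⁻¹ * e⁻¹ * w := by group
  rw [idx_faithful S E, Subgroup.mem_bot] at hc
  exact mul_inv_eq_one.mp hc

/-- The general norm construction. -/
theorem exists_norm {Ξ : Type*} [Group Ξ] [Fintype Ξ] [DecidableEq Ξ] (t : Ξ →* G) (b : G) (Y : Finset Ξ)
    (Z : Subgroup G)
    (hcomm : ∀ x y, Commute (t x * b * (t x)⁻¹) (t y * b * (t y)⁻¹))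
    (hY : ∀ y ∈ Y, t y * b * (t y)⁻¹ = b) (hZ : ∀ y, y ∉ Y → t y * b * (t y)⁻¹ ∈ Z) :
    ∃ f ∈ Z, ∀ x, t x * (b ^ Y.card * f) * (t x)⁻¹ = b ^ Y.card * f := by
  classical
  let F : Ξ → G := fun y => t y * b * (t y)⁻¹
  have hc : ∀ s : Finset Ξ, (s : Set Ξ).Pairwise (Function.onFun Commute F) :=
    fun s x _ y _ _ => hcomm x y
  have hdisj : Disjoint Y Yᶜ := disjoint_compl_right
  have hunion : Y ∪ Yᶜ = Finset.univ := Finset.union_compl Y
  have hP : (Finset.univ : Finset Ξ).noncommProd F (hc _) =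
      Y.noncommProd F (hc _) * (Yᶜ).noncommProd F (hc _) := by
    have := Finset.noncommProd_union_of_disjoint hdisj F (by rw [hunion]; exact hc _)
    rw [← this]
    exact Finset.noncommProd_congr hunion.symm (fun _ _ => rfl) _
  have hY1 : Y.noncommProd F (hc _) = b ^ Y.card :=
    Finset.noncommProd_eq_pow_card _ _ _ _ hY
  refine ⟨(Yᶜ).noncommProd F (hc _), ?_, ?_⟩
  · apply Subgroup.noncommProd_mem
    intro y hy
    exact hZ y (Finset.mem_compl.mp hy)
  · intro x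
    rw [← hY1, ← hP]
    have h1 := Finset.map_noncommProd (Finset.univ : Finset Ξ) F (hc _) (MulAut.conj (t x))
    have h2 : (MulAut.conj (t x)) ((Finset.univ : Finset Ξ).noncommProd F (hc _)) =
        t x * ((Finset.univ : Finset Ξ).noncommProd F (hc _)) * (t x)⁻¹ := rfl
    rw [← h2, h1]
    simp only [Finset.noncommProd]
    have hm : (Finset.univ.val.map fun i => (MulAut.conj (t x)) (F i)) = Finset.univ.val.map F := by
      have h3 : (fun i => (MulAut.conj (t x)) (F i)) = F ∘ (Equiv.mulLeft x) := by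
        funext i
        simp only [F, MulAut.conj_apply, Function.comp, Equiv.coe_mulLeft, map_mul, mul_inv_rev]
        group
      rw [h3, ← Multiset.map_map, Multiset.map_univ_val_equiv]
    have haux : ∀ (m₁ m₂ : Multiset G) (h : m₁ = m₂) (h₁ : {x | x ∈ m₁}.Pairwise Commute)
        (h₂ : {x | x ∈ m₂}.Pairwise Commute), m₁.noncommProd h₁ = m₂.noncommProd h₂ := by
      intro m₁ m₂ h h₁ h₂
      subst h
      rfl
    exact haux _ _ hm _ _

section Norm

variable {Ξ : Type*} [Group Ξ] [Fintype Ξ] [DecidableEq Ξ] {q : ℕ} [hq : Fact q.Prime]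

/-- The conjugates of an element of a component by the operators commute. -/
theorem conj_commute (S : Setup p V H) (t : Ξ →* G) (htV : ∀ x, cj (t x) V = V) (htH : ∀ x, cj (t x) H = H)
    (htq : ∀ x, ∃ n : ℕ, t x ^ (q ^ n) = 1) (hq2 : q ≠ 2) (hq3 : q ≠ 3) (E : Idx p V H) {e : G}
    (he : e ∈ E.1) (x y : Ξ) : Commute (t x * e * (t x)⁻¹) (t y * e * (t y)⁻¹) := by
  by_cases hEE : idxConj (htV x) (htH x) E = idxConj (htV y) (htH y) E
  · have h1 : cj (t x) E.1 = cj (t y) E.1 := congrArg Subtype.val hEE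
    have h2 : cj (t (y⁻¹ * x)) E.1 = E.1 := by
      rw [map_mul, map_inv, cj_mul, h1, cj_inv_cj]
    obtain ⟨n, hn⟩ := htq (y⁻¹ * x)
    have h3 := stab_central S E (htV (y⁻¹ * x)) h2 hn hq2 hq3 he
    have h4 : t x * e * (t x)⁻¹ = t y * e * (t y)⁻¹ := by
      have h5 : t x = t y * t (y⁻¹ * x) := by rw [← map_mul]; group
      rw [h5]
      calc t y * t (y⁻¹ * x) * e * (t y * t (y⁻¹ * x))⁻¹
          = t y * (t (y⁻¹ * x) * e * (t (y⁻¹ * x))⁻¹) * (t y)⁻¹ := by group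
        _ = t y * e * (t y)⁻¹ := by rw [h3]
    rw [h4]
  · exact idx_comm S hEE (conj_mem_cj he) (conj_mem_cj he)

open Classical in
/-- The stabilizer of a component has `q`-power order. -/
theorem exists_stab_card (hΞ : IsPGroup q Ξ) (t : Ξ →* G) (E : Subgroup G) :
    ∃ k : ℕ, (Finset.univ.filter (fun y : Ξ => cj (t y) E = E)).card = q ^ k := by
  classical
  let Y : Subgroup Ξ :=
    { carrier := {y | cj (t y) E = E}
      mul_mem' := by
        intro a b ha hb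
        show cj (t (a * b)) E = E
        have ha' : cj (t a) E = E := ha
        have hb' : cj (t b) E = E := hb
        rw [map_mul, cj_mul, hb', ha']
      one_mem' := by
        show cj (t 1) E = E
        rw [map_one, cj_one]
      inv_mem' := by
        intro a ha
        show cj (t a⁻¹) E = E
        rw [map_inv]
        exact cj_inv_eq ha }
  obtain ⟨k, hk⟩ := IsPGroup.iff_card.mp (hΞ.to_subgroup Y)
  refine ⟨k, ?_⟩
  rw [← hk, Nat.card_eq_fintype_card, Fintype.card_subtype]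
  congr 1

/-- The norm of an element of a component. -/
theorem exists_norm_E (S : Setup p V H) (hΞ : IsPGroup q Ξ) (t : Ξ →* G) (htV : ∀ x, cj (t x) V = V)
    (htH : ∀ x, cj (t x) H = H) (hq2 : q ≠ 2) (hq3 : q ≠ 3) (E : Idx p V H) :
    ∃ k : ℕ, ∀ e ∈ E.1, ∃ f ∈ H, (∀ g ∈ E.1, f * g = g * f) ∧ (∀ w ∈ ⁅V, E.1⁆, f * w = w * f) ∧
      ∀ x, t x * (e ^ (q ^ k) * f) * (t x)⁻¹ = e ^ (q ^ k) * f := by
  classical
  have htq : ∀ x, ∃ n : ℕ, t x ^ (q ^ n) = 1 := by
    intro x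
    obtain ⟨n, hn⟩ := hΞ x
    exact ⟨n, by rw [← map_pow, hn, map_one]⟩
  obtain ⟨k, hk⟩ := exists_stab_card hΞ t E.1
  refine ⟨k, fun e he => ?_⟩
  let Z : Subgroup G := H ⊓ (Subgroup.centralizer ((E.1 : Subgroup G) : Set G) ⊓
    Subgroup.centralizer ((⁅V, E.1⁆ : Subgroup G) : Set G))
  obtain ⟨f, hf, hfix⟩ := exists_norm t e (Finset.univ.filter (fun y : Ξ => cj (t y) E.1 = E.1)) Z
    (conj_commute S t htV htH htq hq2 hq3 E he)
    (by
      intro y hy
      have h1 : cj (t y) E.1 = E.1 := (Finset.mem_filter.mp hy).2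
      obtain ⟨n, hn⟩ := htq y
      exact stab_central S E (htV y) h1 hn hq2 hq3 he)
    (by
      intro y hy
      have h1 : cj (t y) E.1 ≠ E.1 := fun h => hy (Finset.mem_filter.mpr ⟨Finset.mem_univ _, h⟩)
      have hne : idxConj (htV y) (htH y) E ≠ E := fun h => h1 (congrArg Subtype.val h)
      have hmem : t y * e * (t y)⁻¹ ∈ (idxConj (htV y) (htH y) E).1 := conj_mem_cj he
      refine Subgroup.mem_inf.mpr ⟨idx_E_le S _ hmem, Subgroup.mem_inf.mpr ⟨?_, ?_⟩⟩
      · rw [Subgroup.mem_centralizer_iff]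
        intro g hg
        exact idx_comm S hne.symm hg hmem
      · rw [Subgroup.mem_centralizer_iff]
        intro w hw
        exact (idx_fix S hne.symm hmem hw).symm)
  rw [hk] at hfix
  have hf' := Subgroup.mem_inf.mp hf
  have hf'' := Subgroup.mem_inf.mp hf'.2
  refine ⟨f, hf'.1, ?_, ?_, hfix⟩
  · intro g hg
    exact (Subgroup.mem_centralizer_iff.mp hf''.1 g hg).symm
  · intro w hw
    exact (Subgroup.mem_centralizer_iff.mp hf''.2 w hw).symm

end Norm

section Ops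

open Cfsg.Agent.Lib.PGroup.FFTrans

universe u

variable {Γ : Type u} [Group Γ] {W : Subgroup Γ} {Ξ : Type*} [Group Ξ]

/-- Restriction of operators to an invariant subgroup. -/
def resHom (φ : Ξ →* MulAut Γ) (hφ : ∀ x, ∀ v ∈ W, φ x v ∈ W) : Ξ →* MulAut ↥W where
  toFun x :=
    { toFun := fun v => ⟨φ x v, hφ x v v.2⟩
      invFun := fun v => ⟨φ x⁻¹ v, hφ x⁻¹ v v.2⟩
      left_inv := fun v => Subtype.ext (by
        simp only [map_inv]
        exact (φ x).symm_apply_apply v)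
      right_inv := fun v => Subtype.ext (by
        simp only [map_inv]
        exact (φ x).apply_symm_apply v)
      map_mul' := fun v w => Subtype.ext (by simp) }
  map_one' := by
    ext v
    simp
  map_mul' x y := by
    ext v
    simp

theorem resHom_coe (φ : Ξ →* MulAut Γ) (hφ : ∀ x, ∀ v ∈ W, φ x v ∈ W) (x : Ξ) (v : ↥W) :
    ((resHom φ hφ x v : ↥W) : Γ) = φ x v := rfl

/-- The operators inside the ambient group. -/
def tt (φ : Ξ →* MulAut Γ) (hφ : ∀ x, ∀ v ∈ W, φ x v ∈ W) : Ξ →* TT W :=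
  (SemidirectProduct.inr : MulAut ↥W →* TT W).comp (resHom φ hφ)

theorem tt_inl (φ : Ξ →* MulAut Γ) (hφ : ∀ x, ∀ v ∈ W, φ x v ∈ W) (x : Ξ) (v : ↥W) :
    tt φ hφ x * SemidirectProduct.inl v * (tt φ hφ x)⁻¹ =
      SemidirectProduct.inl (⟨φ x v, hφ x v v.2⟩ : ↥W) := by
  have h := SemidirectProduct.inl_aut (N := ↥W) (G := MulAut ↥W) (φ := MonoidHom.id _)
    (resHom φ hφ x) v
  simp only [tt, MonoidHom.comp_apply]
  rw [← map_inv, ← h]
  rfl

theorem tt_pi [W.Normal] (φ : Ξ →* MulAut Γ) (hφ : ∀ x, ∀ v ∈ W, φ x v ∈ W) (x : Ξ) (g : Γ) :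
    tt φ hφ x * pi W g * (tt φ hφ x)⁻¹ = pi W (φ x g) := by
  simp only [tt, pi, MonoidHom.comp_apply]
  rw [← map_inv, ← map_mul, ← map_mul]
  congr 1
  ext v
  simp only [MulAut.mul_apply, MulAut.conjNormal_apply, resHom_coe]
  have h1 : (((resHom φ hφ x)⁻¹ v : ↥W) : Γ) = φ x⁻¹ v := by
    rw [← map_inv]
    rfl
  have h2 : φ x (φ x⁻¹ v) = v := by
    rw [map_inv]
    exact (φ x).apply_symm_apply v
  rw [h1, map_mul, map_mul, h2, map_inv (φ x) g]

theorem cj_tt_V0 [Finite Γ] (φ : Ξ →* MulAut Γ) (hφ : ∀ x, ∀ v ∈ W, φ x v ∈ W) (x : Ξ) :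
    cj (tt φ hφ x) (V0 W) = V0 W := by
  apply le_antisymm
  · intro y hy
    rw [mem_cj] at hy
    obtain ⟨v, hv⟩ := hy
    have h1 := tt_inl φ hφ x v
    rw [hv] at h1
    have h2 : y = tt φ hφ x * (tt φ hφ x)⁻¹ * y * (tt φ hφ x * (tt φ hφ x)⁻¹)⁻¹ := by group
    rw [h2]
    have h3 : tt φ hφ x * (tt φ hφ x)⁻¹ * y * (tt φ hφ x * (tt φ hφ x)⁻¹)⁻¹ =
        tt φ hφ x * ((tt φ hφ x)⁻¹ * y * tt φ hφ x) * (tt φ hφ x)⁻¹ := by group
    rw [h3, h1]
    exact inl_mem_V0 _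
  · rintro _ ⟨v, rfl⟩
    rw [mem_cj]
    have h1 := tt_inl φ hφ x⁻¹ v
    rw [map_inv, inv_inv] at h1
    rw [h1]
    exact inl_mem_V0 _

theorem cj_tt_map [W.Normal] (φ : Ξ →* MulAut Γ) (hφ : ∀ x, ∀ v ∈ W, φ x v ∈ W) (L : Subgroup Γ)
    (hL : ∀ x, ∀ l ∈ L, φ x l ∈ L) (x : Ξ) :
    cj (tt φ hφ x) (L.map (pi W)) = L.map (pi W) := by
  apply le_antisymm
  · intro y hy
    rw [mem_cj] at hy
    obtain ⟨l, hl, hly⟩ := hy
    have h1 := tt_pi φ hφ x l
    rw [hly] at h1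
    have h3 : y = tt φ hφ x * ((tt φ hφ x)⁻¹ * y * tt φ hφ x) * (tt φ hφ x)⁻¹ := by group
    rw [h3, h1]
    exact ⟨_, hL x l hl, rfl⟩
  · rintro _ ⟨l, hl, rfl⟩
    rw [mem_cj]
    have h1 := tt_pi φ hφ x⁻¹ l
    rw [map_inv, inv_inv] at h1
    rw [h1]
    exact ⟨_, hL x⁻¹ l hl, rfl⟩

end Ops

end Cfsg.Agent.Lib.PGroup.FFOper
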