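import Cfsg.Agent.Lib.PGroup.FFOper
import Cfsg.Agent.Lib.Basic.SylowUtil
import Cfsg.Agent.Lib.Coprime.Coset
import Cfsg.Agent.Lib.PSL2.Basic
import Cfsg.Agent.S0601
import Cfsg.Agent.S0608
import Cfsg.Agent.S0616
import Mathlib

/-!
# A coprime operator group on a `p`-separable group with trivial `O_{p'}`
-/

set_option autoImplicit false
set_option linter.unusedSectionVars false
set_option linter.style.haveILetI false
set_option linter.unusedVariables false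
open Cfsg
open scoped commutatorElement

universe u

namespace Cfsg.Agent.Lib.PGroup.FFOperK

open Cfsg.Agent.Lib.Nilpotent.Subnormal
open Cfsg.Agent.S0615 (cj_commutator cj_eq_of_mem_normalizer card_cj cj_inf cj_bot cj_cj_inv cj_inv_cj cj_inj)
open Cfsg.Agent.Lib.PGroup.Timmesfeld Cfsg.Agent.Lib.PGroup.FFPair Cfsg.Agent.Lib.PGroup.FFTv
  Cfsg.Agent.Lib.PGroup.FFDuo Cfsg.Agent.Lib.PGroup.FFDich Cfsg.Agent.Lib.PGroup.FFStruct
  Cfsg.Agent.Lib.PGroup.FFTrans Cfsg.Agent.Lib.PGroup.FFOper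
open Cfsg.Agent.Lib.Coprime.Three (mem_normalizer_of_conj_mem)

/-- The subgroup generated by the `Ω₁(Z(S))`. -/
def VV (p : ℕ) (Γ : Type u) [Group Γ] : Subgroup Γ :=
  ⨆ S : Sylow p Γ, Cfsg.omegaOne p ((S : Subgroup Γ) ⊓ Subgroup.centralizer ((S : Subgroup Γ) : Set Γ))

section VV

variable {p : ℕ} {Γ : Type u} [Group Γ]

theorem VV_char (α : MulAut Γ) {v : Γ} (hv : v ∈ VV p Γ) : α v ∈ VV p Γ := by
  have hle : VV p Γ ≤ (VV p Γ).comap α.toMonoidHom := by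
    apply iSup_le
    intro S
    rw [Cfsg.omegaOne, Subgroup.closure_le]
    rintro w ⟨hwS, hwp⟩
    obtain ⟨hw1, hw2⟩ := Subgroup.mem_inf.mp hwS
    rw [SetLike.mem_coe, Subgroup.mem_comap]
    apply Subgroup.mem_iSup_of_mem (α • S)
    apply Subgroup.subset_closure
    refine ⟨Subgroup.mem_inf.mpr ⟨?_, ?_⟩, ?_⟩
    · rw [Sylow.pointwise_smul_def]
      exact Subgroup.smul_mem_pointwise_smul w α _ hw1
    · rw [Subgroup.mem_centralizer_iff]
      intro y hy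
      rw [SetLike.mem_coe, Sylow.pointwise_smul_def, Subgroup.mem_smul_pointwise_iff_exists] at hy
      obtain ⟨s, hs, rfl⟩ := hy
      have := (Subgroup.mem_centralizer_iff.mp hw2) s hs
      show α s * α w = α w * α s
      rw [← map_mul, ← map_mul, this]
    · show (α w) ^ p = 1
      rw [← map_pow, hwp, map_one]
  exact hle hv

instance VV_normal : (VV p Γ).Normal := by
  refine ⟨fun v hv g => ?_⟩
  exact VV_char (MulAut.conj g) hv

end VV

/-- The element of `C_G(V)` picture: conjugating into a Sylow subgroup, inside a subnormal subgroup. -/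
theorem sylow_inf_two {p : ℕ} [hp : Fact p.Prime] {Γ : Type u} [Group Γ] [Finite Γ] (S : Sylow p Γ)
    (K₁ E₁ : Subgroup Γ) [hK₁ : K₁.Normal] (hE₁ : E₁ ≤ K₁) (hn : K₁ ≤ Subgroup.normalizer (E₁ : Set Γ)) {a : Γ}
    (ha : a ∈ E₁) (hpa : IsPGroup p (Subgroup.zpowers a)) : ∃ u ∈ E₁, u * a * u⁻¹ ∈ (S : Subgroup Γ) := by
  obtain ⟨Q₁, hQ₁⟩ := Cfsg.Agent.Lib.Basic.SylowUtil.exists_sylow_inf_normal S K₁
  have hE₂n : (E₁.subgroupOf K₁).Normal := by
    refine ⟨fun x hx g => ?_⟩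
    rw [Subgroup.mem_subgroupOf] at hx ⊢
    have := (Subgroup.mem_normalizer_iff.mp (hn g.2) x).mp hx
    exact this
  obtain ⟨Q₂, hQ₂⟩ := Cfsg.Agent.Lib.Basic.SylowUtil.exists_sylow_inf_normal Q₁ (E₁.subgroupOf K₁)
  let a₂ : ↥(E₁.subgroupOf K₁) := ⟨⟨a, hE₁ ha⟩, Subgroup.mem_subgroupOf.mpr ha⟩
  have hpa₂ : IsPGroup p (Subgroup.zpowers a₂) := by
    have h1 : orderOf a₂ = orderOf a := by
      rw [← Subgroup.orderOf_coe a₂, ← Subgroup.orderOf_coe (a₂ : ↥K₁)]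
    rw [IsPGroup.iff_card] at hpa ⊢
    rw [Nat.card_zpowers] at hpa ⊢
    rwa [h1]
  obtain ⟨Q₃, hQ₃⟩ := hpa₂.exists_le_sylow
  obtain ⟨h, hh⟩ := MulAction.exists_smul_eq (↥(E₁.subgroupOf K₁)) Q₃ Q₂
  have h1 : a₂ ∈ (Q₃ : Subgroup ↥(E₁.subgroupOf K₁)) := hQ₃ (Subgroup.mem_zpowers a₂)
  have h2 : h * a₂ * h⁻¹ ∈ (Q₂ : Subgroup ↥(E₁.subgroupOf K₁)) := by
    rw [← hh, Sylow.coe_subgroup_smul]
    exact ⟨a₂, h1, rfl⟩
  have h3 : ((h * a₂ * h⁻¹ : ↥(E₁.subgroupOf K₁)) : ↥K₁) ∈ (Q₁ : Subgroup ↥K₁) ⊓ E₁.subgroupOf K₁ := by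
    rw [← hQ₂]
    exact ⟨_, h2, rfl⟩
  have h4 : (((h * a₂ * h⁻¹ : ↥(E₁.subgroupOf K₁)) : ↥K₁) : Γ) ∈ (S : Subgroup Γ) ⊓ K₁ := by
    rw [← hQ₁]
    exact ⟨_, (Subgroup.mem_inf.mp h3).1, rfl⟩
  exact ⟨((h : ↥K₁) : Γ), Subgroup.mem_subgroupOf.mp h.2, (Subgroup.mem_inf.mp h4).1⟩

/-- A `p`-element in a coset: if `π(x)^p = 1`, a power of `x` is a `p`-element with the same image. -/
theorem exists_p_part {p : ℕ} [hp : Fact p.Prime] {Γ T : Type*} [Group Γ] [Finite Γ] [Group T] (π : Γ →* T) (x : Γ)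
    (hx : π x ^ p = 1) : ∃ k : ℕ, π (x ^ k) = π x ∧ IsPGroup p (Subgroup.zpowers (x ^ k)) := by
  have hn : orderOf x ≠ 0 := (orderOf_pos x).ne'
  obtain ⟨e, r, hr, hor⟩ := Nat.exists_eq_pow_mul_and_not_dvd hn p hp.out.ne_one
  have hcop : Nat.Coprime r p := ((Nat.Prime.coprime_iff_not_dvd hp.out).mpr hr).symm
  obtain ⟨s, -, hs⟩ := Nat.exists_mul_mod_eq_one_of_coprime hcop hp.out.one_lt
  refine ⟨r * s, ?_, ?_⟩
  · rw [map_pow, pow_eq_pow_mod (r * s) hx, hs, pow_one]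
  · have h1 : (x ^ (r * s)) ^ (p ^ e) = 1 := by
      rw [← pow_mul, show r * s * p ^ e = (p ^ e * r) * s by ring, ← hor, pow_mul, pow_orderOf_eq_one, one_pow]
    obtain ⟨j, _, hj⟩ := (Nat.dvd_prime_pow hp.out).mp (orderOf_dvd_of_pow_eq_one h1)
    apply IsPGroup.of_card (n := j)
    rw [Nat.card_zpowers, hj]

/-- The Frattini argument for `J(S)`. -/
theorem exists_frattini {p : ℕ} [hp : Fact p.Prime] {Γ : Type u} [Group Γ] [Finite Γ] (D : Subgroup Γ) [hDn : D.Normal]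
    (hJ : Cfsg.thompsonSubgroup p Γ ≤ D) (S : Sylow p Γ) (g : Γ) :
    ∃ d ∈ D, ∃ n ∈ Subgroup.normalizer (Cfsg.thompsonSubgroupOf p (S : Subgroup Γ) : Set Γ), g = d * n := by
  open Cfsg.Agent.S0608 in
  have hJS : ∀ A ∈ Cfsg.maxElementaryAbelianSubgroups p (S : Subgroup Γ), A.map (S : Subgroup Γ).subtype ≤ D := by
    intro A hA
    exact (le_sSup (map_mem_maxEA S hA)).trans hJ
  obtain ⟨Q, hQ⟩ := Cfsg.Agent.Lib.Basic.SylowUtil.exists_sylow_inf_normal S D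
  have hfr := Sylow.normalizer_sup_eq_top Q
  rw [hQ, sup_comm] at hfr
  have hg : g ∈ ((D ⊔ Subgroup.normalizer (((((S : Subgroup Γ) ⊓ D : Subgroup Γ)) : Set Γ)) : Subgroup Γ) : Set Γ) := by
    rw [hfr]; trivial
  rw [Subgroup.normal_mul] at hg
  obtain ⟨d, hd, n, hn, rfl⟩ := Set.mem_mul.mp hg
  refine ⟨d, hd, n, ?_, rfl⟩
  apply mem_normalizer_of_conj_mem
  intro j hj
  open Cfsg.Agent.S0608 in
  have hle : Cfsg.thompsonSubgroupOf p (S : Subgroup Γ) ≤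
      (Cfsg.thompsonSubgroupOf p (S : Subgroup Γ)).comap (MulAut.conj n).toMonoidHom := by
    rw [Cfsg.thompsonSubgroupOf, Subgroup.map_le_iff_le_comap, Cfsg.thompsonSubgroup]
    apply sSup_le
    intro A hA
    rw [← Subgroup.map_le_iff_le_comap, ← Subgroup.map_le_iff_le_comap]
    have hA' := hJS A hA
    have hAS : A.map (S : Subgroup Γ).subtype ≤ (S : Subgroup Γ) ⊓ D :=
      le_inf (by rintro _ ⟨a, -, rfl⟩; exact a.2) hA'
    have hconj : (A.map (S : Subgroup Γ).subtype).map (MulAut.conj n).toMonoidHom ≤ (S : Subgroup Γ) ⊓ D := by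
      rintro _ ⟨x, hx, rfl⟩
      exact (Subgroup.mem_normalizer_iff.mp hn x).mp (hAS hx)
    have hconjS := hconj.trans inf_le_left
    have hmax : (A.map (S : Subgroup Γ).subtype).map (MulAut.conj n).toMonoidHom ∈
        Cfsg.maxElementaryAbelianSubgroups p Γ := by
      have h1 := map_mem_maxEA S hA
      refine ⟨ea_conj h1.1 n, ?_⟩
      intro B hB
      rw [card_conj]
      exact h1.2 B hB
    exact le_thompsonOf (S : Subgroup Γ) hmax hconjS
  exact hle hj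

section Ctx

variable {G : Type u} [Group G] [Finite G] {p q : ℕ} [hp : Fact p.Prime] [hq' : Fact q.Prime]
  (K X : Subgroup G) (hXK : X ≤ Subgroup.normalizer (K : Set G))

/-- The action of the operators on `K`. -/
noncomputable abbrev phi : ↥X →* MulAut ↥K := Cfsg.Agent.Lib.Coprime.Averaging.conjHom X K hXK

/-- The operators in the ambient group. -/
noncomputable abbrev tK (p : ℕ) : ↥X →* TT (VV p ↥K) :=
  tt (phi K X hXK) (fun x _ hv => VV_char _ hv)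

/-- The image of `J(K)` in the ambient group. -/
noncomputable abbrev HK (p : ℕ) : Subgroup (TT (VV p ↥K)) :=
  (Cfsg.thompsonSubgroup p ↥K).map (pi (VV p ↥K))

theorem phi_coe (x : ↥X) (k : ↥K) : ((phi K X hXK x k : ↥K) : G) = x * k * (x : G)⁻¹ :=
  Cfsg.Agent.Lib.Coprime.Averaging.conjHom_coe X K hXK x k

theorem htV (x : ↥X) : cj (tK K X hXK p x) (V0 (VV p ↥K)) = V0 (VV p ↥K) := cj_tt_V0 _ _ x

theorem J_char (α : MulAut ↥K) {j : ↥K} (hj : j ∈ Cfsg.thompsonSubgroup p ↥K) :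
    α j ∈ Cfsg.thompsonSubgroup p ↥K := by
  haveI hJc : (Cfsg.thompsonSubgroup p ↥K).Characteristic :=
    (Cfsg.Agent.S0602.result (p := p) (G := ↥K)).1
  have h := (Subgroup.characteristic_iff_le_comap.mp hJc) α
  exact h hj

theorem htH (x : ↥X) : cj (tK K X hXK p x) (HK K p) = HK K p :=
  cj_tt_map _ _ _ (fun y l hl => J_char K _ hl) x

theorem isPGroup_X (hX : Cfsg.IsElementaryAbelian q X) : IsPGroup q ↥X := by
  intro x
  refine ⟨1, Subtype.ext ?_⟩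
  simpa using hX.2 x x.2

variable (p) in
/-- The setup. -/
theorem ctx_setup (hsep : Cfsg.IsPSolvable p ↥K) (hO : Cfsg.pPrimeCore p ↥K = ⊥) :
    Setup p (V0 (VV p ↥K)) (HK K p) ∧
    HK K p = ⨆ B : {B : Subgroup (TT (VV p ↥K)) // B ≤ HK K p ∧ Cfsg.IsBestOffenderOn p (V0 (VV p ↥K)) B},
      (B : Subgroup (TT (VV p ↥K))) := by
  have hc := Cfsg.Agent.Lib.Solvable.PSeries.centralizer_pCore_le hsep hO
  obtain ⟨-, hV, hOC⟩ := Cfsg.Agent.S0601.result hc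
  haveI hJc : (Cfsg.thompsonSubgroup p ↥K).Characteristic :=
    (Cfsg.Agent.S0602.result (p := p) (G := ↥K)).1
  haveI hJn : (Cfsg.thompsonSubgroup p ↥K).Normal := Subgroup.normal_of_characteristic _
  obtain ⟨h1, h2, h3, h4, h5⟩ := setup_map (V := VV p ↥K) hV hsep hOC (Cfsg.thompsonSubgroup p ↥K)
    (Cfsg.maxElementaryAbelianSubgroups p ↥K) rfl (fun B hB => Cfsg.Agent.S0606.result (VV p ↥K) hV B hB)
  exact ⟨⟨h1, h2, h3, h4⟩, h5⟩

/-- Orders. -/
theorem card_E_dvd {E : Subgroup (TT (VV p ↥K))} (hE : E ≤ HK K p) : Nat.card E ∣ Nat.card K := by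
  have h1 := Subgroup.card_dvd_of_le hE
  have h2 := card_map_pi (V := VV p ↥K) (Cfsg.thompsonSubgroup p ↥K)
  have h3 : Nat.card (HK K p) ∣ Nat.card ↥(Cfsg.thompsonSubgroup p ↥K) := ⟨_, h2.symm⟩
  exact h1.trans (h3.trans (Subgroup.card_subgroup_dvd_card _))

theorem q_ne (S : Setup p (V0 (VV p ↥K)) (HK K p)) (hq : ¬ q ∣ Nat.card K) (E : Idx p (V0 (VV p ↥K)) (HK K p)) :
    q ≠ 2 ∧ q ≠ 3 := by
  obtain ⟨hp23, -, ⟨f⟩⟩ := idx_data S E
  have hE := card_E_dvd K (idx_E_le S E)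
  have hc : Nat.card E.1 = Nat.card (Matrix.SpecialLinearGroup (Fin 2) (ZMod p)) := Nat.card_congr f.toEquiv
  have hc2 : Nat.card (Matrix.SpecialLinearGroup (Fin 2) (ZMod p)) = p * (p ^ 2 - 1) := by
    rw [Cfsg.Agent.Lib.PSL2.Basic.card_SL2, ZMod.card]
  rw [hc, hc2] at hE
  have h6 : 6 ∣ Nat.card K := by
    rcases hp23 with rfl | rfl
    · exact hE
    · exact (by norm_num : (6 : ℕ) ∣ 3 * (3 ^ 2 - 1)).trans hE
  constructor
  · rintro rfl
    exact hq ((by norm_num : (2 : ℕ) ∣ 6).trans h6)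
  · rintro rfl
    exact hq ((by norm_num : (3 : ℕ) ∣ 6).trans h6)

/-- Fixed elements lift to fixed elements. -/
theorem exists_fixed_lift (hX : Cfsg.IsElementaryAbelian q X) (hq : ¬ q ∣ Nat.card K)
    {d : TT (VV p ↥K)} (hd : d ∈ HK K p) (hfix : ∀ x, tK K X hXK p x * d * (tK K X hXK p x)⁻¹ = d) :
    ∃ c : ↥K, (c : G) ∈ Subgroup.centralizer (X : Set G) ∧ pi (VV p ↥K) c = d := by
  obtain ⟨j, -, rfl⟩ := hd
  have hpg := isPGroup_X X hX
  have hcop : (Nat.card X).Coprime (Nat.card K) := by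
    obtain ⟨k, hk⟩ := IsPGroup.iff_card.mp hpg
    rw [hk]
    exact Nat.Coprime.pow_left _ ((Nat.Prime.coprime_iff_not_dvd hq'.out).mpr hq)
  have hsolv : Group.IsSolvable X ∨ Group.IsSolvable K := by
    left
    haveI := hpg.isNilpotent
    infer_instance
  let C' : Subgroup ↥K := Subgroup.centralizer ((VV p ↥K : Subgroup ↥K) : Set ↥K)
  have hpi : ∀ c : ↥K, c ∈ C' ↔ pi (VV p ↥K) c = 1 := fun c => (pi_eq_one_iff c).symm
  have hNK : C'.map K.subtype ≤ K := by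
    rintro _ ⟨c, -, rfl⟩
    exact c.2
  have hNA : X ≤ Subgroup.normalizer ((C'.map K.subtype : Subgroup G) : Set G) := by
    intro x hx
    apply mem_normalizer_of_conj_mem
    rintro _ ⟨c, hc, rfl⟩
    refine ⟨phi K X hXK ⟨x, hx⟩ c, ?_, (phi_coe K X hXK ⟨x, hx⟩ c)⟩
    rw [SetLike.mem_coe, hpi]
    have h1 := tt_pi (W := VV p ↥K) (phi K X hXK) (fun x _ hv => VV_char _ hv) ⟨x, hx⟩ c
    rw [← h1, (hpi c).mp hc, mul_one, mul_inv_cancel]
  obtain ⟨c, hc, hcn⟩ := Cfsg.Agent.Lib.Coprime.Coset.exists_centralizer_mem_coset hXK hcop hsolv hNK hNA (j : G) j.2 (by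
    intro a ha
    refine ⟨j⁻¹ * phi K X hXK ⟨a, ha⟩ j, ?_, ?_⟩
    · rw [SetLike.mem_coe, hpi, map_mul, map_inv]
      have h1 := tt_pi (W := VV p ↥K) (phi K X hXK) (fun x _ hv => VV_char _ hv) ⟨a, ha⟩ j
      rw [← h1]
      have h2 := hfix ⟨a, ha⟩
      rw [tK] at h2
      rw [h2]
      group
    · simp only [Subgroup.coe_subtype, Subgroup.coe_mul, InvMemClass.coe_inv]
      rw [phi_coe])
  obtain ⟨hcK, hcC⟩ := Subgroup.mem_inf.mp hc
  refine ⟨⟨c, hcK⟩, hcC, ?_⟩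
  obtain ⟨n, hn, hnc⟩ := hcn
  have h3 : (⟨c, hcK⟩ : ↥K) = j * n := by
    apply Subtype.ext
    simp only [Subgroup.coe_mul]
    simp only [Subgroup.coe_subtype] at hnc
    rw [hnc]
    group
  rw [h3, map_mul, (hpi n).mp hn, mul_one]

include hXK in
/-- The main step: each component lies in the image of any subgroup containing a Sylow subgroup and `C_K(X)`. -/
theorem E_le (hX : Cfsg.IsElementaryAbelian q X) (hq : ¬ q ∣ Nat.card K)
    (hsep : Cfsg.IsPSolvable p ↥K) (hO : Cfsg.pPrimeCore p ↥K = ⊥)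
    (S₀ : Sylow p ↥K) (L : Subgroup ↥K) (hLS : (S₀ : Subgroup ↥K) ≤ L)
    (hLX : (Subgroup.centralizer (X : Set G)).subgroupOf K ≤ L)
    (E : Idx p (V0 (VV p ↥K)) (HK K p)) : E.1 ≤ L.map (pi (VV p ↥K)) := by
  classical
  obtain ⟨S, hS3⟩ := ctx_setup p K hsep hO
  obtain ⟨hq2, hq3⟩ := q_ne K S hq E
  have hpg := isPGroup_X X hX
  haveI : Fintype ↥X := Fintype.ofFinite _
  have hEH := idx_E_le S E
  obtain ⟨k, hk⟩ := exists_norm_E S hpg (tK K X hXK p) (htV K X hXK) (htH K X hXK) hq2 hq3 E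
  have hqE : Nat.Coprime (Nat.card E.1) (q ^ k) := by
    apply Nat.Coprime.pow_right
    rw [Nat.coprime_comm, Nat.Prime.coprime_iff_not_dvd hq'.out]
    exact fun h => hq (h.trans (card_E_dvd K hEH))
  -- conjugates of elements of `E ⊓ Ŝ`
  have hconj : ∀ x ∈ E.1, ∀ a ∈ E.1, a ∈ (S₀ : Subgroup ↥K).map (pi (VV p ↥K)) →
      x * a * x⁻¹ ∈ L.map (pi (VV p ↥K)) := by
    intro x hx a haE haS
    let e : ↥E.1 := (powCoprime hqE).symm ⟨x, hx⟩
    have he : (e : TT (VV p ↥K)) ^ (q ^ k) = x := by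
      have := (powCoprime hqE).apply_symm_apply ⟨x, hx⟩
      rw [powCoprime_apply] at this
      exact congrArg Subtype.val this
    obtain ⟨f, hf, hfE, -, hfix⟩ := hk e e.2
    rw [he] at hfix
    have hd : x * f ∈ HK K p := Subgroup.mul_mem _ (hEH hx) hf
    obtain ⟨c, hcC, hcd⟩ := exists_fixed_lift K X hXK hX hq hd hfix
    have hcL : c ∈ L := hLX (Subgroup.mem_subgroupOf.mpr hcC)
    have hdL : x * f ∈ L.map (pi (VV p ↥K)) := ⟨c, hcL, hcd⟩
    have haL : a ∈ L.map (pi (VV p ↥K)) := Subgroup.map_mono hLS haS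
    have h1 := Subgroup.mul_mem _ (Subgroup.mul_mem _ hdL haL) (Subgroup.inv_mem _ hdL)
    have h2 : x * f * a * (x * f)⁻¹ = x * a * x⁻¹ := by
      calc x * f * a * (x * f)⁻¹ = x * (f * a) * f⁻¹ * x⁻¹ := by group
        _ = x * (a * f) * f⁻¹ * x⁻¹ := by rw [hfE a haE]
        _ = x * a * x⁻¹ := by group
    rwa [h2] at h1
  obtain ⟨A, hAH, hAb, hAV, hAmin, hEA⟩ := E.2
  -- the component is normal in `H`
  have hAE : A ≤ E.1 := by rw [hEA]; exact le_sup_right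
  have hHne : HK K p ≠ ⊥ := by
    intro h
    apply hAV
    have hA1 : A = ⊥ := by
      rw [eq_bot_iff, ← h]
      exact hAH
    rw [hA1]
    exact Subgroup.commutator_bot_right _
  have hres := Cfsg.Agent.S0616.result (V0 (VV p ↥K)) (HK K p) S.hV S.hHV S.hf S.hS1 hS3 hHne A hAH hAb hAV hAmin
  obtain ⟨-, -, -, -, -, hcomm, -, hsup, -⟩ := hres
  rw [← hEA] at hcomm hsup
  -- `E` is normalized by `H`
  have hEn : HK K p ≤ Subgroup.normalizer ((E.1 : Subgroup (TT (VV p ↥K))) : Set (TT (VV p ↥K))) := by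
    obtain ⟨a, x, hx, D, hE⟩ := idx_rep S E
    rw [hE]
    exact H_le_normalizer S D (H_le_sSup S hS3)
  -- elements of `A` are conjugate into `Ŝ` by elements of `E`
  have hA : ∀ g ∈ E.1, ∀ a ∈ A, g * a * g⁻¹ ∈ L.map (pi (VV p ↥K)) := by
    intro g hg a ha
    have hap : a ^ p = 1 := by
      have h1 := hAb.2.2 a ha
      have h2 : a ^ p ∈ HK K p ⊓ Subgroup.centralizer (V0 (VV p ↥K) : Set (TT (VV p ↥K))) :=
        Subgroup.mem_inf.mpr ⟨Subgroup.pow_mem _ (hAH ha) p, h1⟩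
      rw [S.hf, Subgroup.mem_bot] at h2
      exact h2
    obtain ⟨j, hj, rfl⟩ := hAH ha
    obtain ⟨l, hl1, hl2⟩ := exists_p_part (pi (VV p ↥K)) j hap
    have hK₁ : ((HK K p).comap (pi (VV p ↥K))).Normal := by
      refine ⟨fun y hy z => ?_⟩
      obtain ⟨j', hj', hjj'⟩ := hy
      rw [Subgroup.mem_comap]
      haveI hJc : (Cfsg.thompsonSubgroup p ↥K).Characteristic :=
        (Cfsg.Agent.S0602.result (p := p) (G := ↥K)).1
      haveI hJn : (Cfsg.thompsonSubgroup p ↥K).Normal := Subgroup.normal_of_characteristic _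
      refine ⟨z * j' * z⁻¹, hJn.conj_mem j' hj' z, ?_⟩
      simp only [map_mul, map_inv, hjj']
    have hmemE : j ^ l ∈ (E.1).comap (pi (VV p ↥K)) := by
      rw [Subgroup.mem_comap, hl1]
      exact hAE ha
    obtain ⟨u, hu, huS⟩ := sylow_inf_two S₀ ((HK K p).comap (pi (VV p ↥K))) ((E.1).comap (pi (VV p ↥K)))
      (Subgroup.comap_mono hEH)
      (by
        intro y hy
        rw [Subgroup.mem_normalizer_iff]
        intro z
        have h1 := Subgroup.mem_normalizer_iff.mp (hEn (Subgroup.mem_comap.mp hy)) (pi (VV p ↥K) z)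
        rw [Subgroup.mem_comap, Subgroup.mem_comap, map_mul, map_mul, map_inv]
        exact h1)
      hmemE hl2
    have hu' : pi (VV p ↥K) u ∈ E.1 := hu
    have h3 : pi (VV p ↥K) u * pi (VV p ↥K) j * (pi (VV p ↥K) u)⁻¹ ∈ (S₀ : Subgroup ↥K).map (pi (VV p ↥K)) := by
      refine ⟨_, huS, ?_⟩
      rw [map_mul, map_mul, map_inv, hl1]
    have h4 : pi (VV p ↥K) u * pi (VV p ↥K) j * (pi (VV p ↥K) u)⁻¹ ∈ E.1 :=
      E.1.mul_mem (E.1.mul_mem hu' (hAE ha)) (E.1.inv_mem hu')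
    have h5 := hconj (g * (pi (VV p ↥K) u)⁻¹) (E.1.mul_mem hg (E.1.inv_mem hu')) _ h4 h3
    have h6 : g * (pi (VV p ↥K) u)⁻¹ * (pi (VV p ↥K) u * pi (VV p ↥K) j * (pi (VV p ↥K) u)⁻¹) * (g * (pi (VV p ↥K) u)⁻¹)⁻¹ =
        g * pi (VV p ↥K) j * g⁻¹ := by group
    rwa [h6] at h5
  -- conclusion
  rw [hEA]
  apply sup_le
  · rw [Subgroup.commutator_le]
    intro c hc a ha
    have hcH : c ∈ HK K p := by
      obtain ⟨c', -, rfl⟩ := hc
      exact c'.2
    rw [← hsup] at hcH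
    have hcommEF : ∀ g ∈ E.1, ∀ f ∈ HK K p ⊓ Subgroup.centralizer ((⁅V0 (VV p ↥K), E.1⁆ : Subgroup (TT (VV p ↥K))) : Set (TT (VV p ↥K))), g * f = f * g := by
      intro g hg f hf
      have := Subgroup.commutator_mem_commutator hg hf
      rw [hcomm, Subgroup.mem_bot, commutatorElement_eq_one_iff_mul_comm] at this
      exact this
    obtain ⟨g, hg, f, hf, rfl⟩ := Cfsg.Agent.Lib.Components.LayerProduct.mem_sup_of_commute hcommEF hcH
    have h1 : ⁅g * f, a⁆ = (g * a * g⁻¹) * a⁻¹ := by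
      have hfa := hcommEF a (hAE ha) f hf
      rw [commutatorElement_def]
      calc g * f * a * (g * f)⁻¹ * a⁻¹ = g * (f * a) * f⁻¹ * g⁻¹ * a⁻¹ := by group
        _ = g * (a * f) * f⁻¹ * g⁻¹ * a⁻¹ := by rw [hfa]
        _ = (g * a * g⁻¹) * a⁻¹ := by group
    rw [h1]
    refine Subgroup.mul_mem _ (hA g hg a ha) (Subgroup.inv_mem _ ?_)
    have := hA 1 (E.1.one_mem) a ha
    simpa using this
  · intro a ha
    have := hA 1 (E.1.one_mem) a ha
    simpa using this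

end Ctx

end Cfsg.Agent.Lib.PGroup.FFOperK
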