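import Mathlib

/-!
# Semiregular isometries of a symplectic space

`T` an isometry of a nondegenerate alternating form on an `𝔽_p`-space of dimension `2n`, of order
`h`, with no nonzero fixed vectors for its nontrivial powers: then `h ∣ p ^ n + 1` or
`h ∣ p ^ n - 1`.  The operator is encoded as a module structure over `𝔽_p[X]`.
-/

set_option autoImplicit false
set_option linter.unusedSectionVars false
set_option linter.unusedVariables false
set_option linter.style.haveILetI false

namespace Cfsg.Agent.Lib.PGroup.FpfForm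

open Polynomial

section Field

variable {p : ℕ} [hp : Fact p.Prime] {L : Type*} [Field L] [Algebra (ZMod p) L] [Finite L]

theorem exists_pow_eq_of_minpoly (ω y : L) (hy : aeval y (minpoly (ZMod p) ω) = 0) :
    ∃ i : ℕ, y = ω ^ (p ^ i) := by
  classical
  haveI : Fintype (ZMod p) := ZMod.fintype p
  have hω : IsAlgebraic (ZMod p) ω := Algebra.IsAlgebraic.isAlgebraic ω
  obtain ⟨σ, hσ⟩ := minpoly.exists_algEquiv_of_root' hω hy
  obtain ⟨⟨i, _⟩, hi⟩ := (FiniteField.bijective_frobeniusAlgEquivOfAlgebraic_pow (ZMod p) L).2 σ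
  refine ⟨i, ?_⟩
  rw [← hσ, ← hi]
  have h1 := congrFun (FiniteField.coe_frobeniusAlgEquivOfAlgebraic_iterate (ZMod p) L i) ω
  simp only [ZMod.card] at h1
  rw [← h1, AlgEquiv.coe_pow]

theorem field_card {h : ℕ} (hh : 0 < h) (ω : L) (hgen : ∀ a : L, ∃ f : (ZMod p)[X], aeval ω f = a)
    (hord : orderOf ω = h) : Nat.card L = p ^ orderOf (p : ZMod h) := by
  classical
  haveI : Fintype (ZMod p) := ZMod.fintype p
  haveI : NeZero h := ⟨hh.ne'⟩
  haveI : Fintype L := Fintype.ofFinite L
  haveI : Module.Finite (ZMod p) L := Module.Finite.of_finite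
  set m := Module.finrank (ZMod p) L with hm
  have hcard : Nat.card L = p ^ m := by
    rw [Module.natCard_eq_pow_finrank (K := ZMod p) (V := L), Nat.card_zmod]
  set d := orderOf (p : ZMod h) with hd
  have hω0 : ω ≠ 0 := by
    rintro rfl
    rw [orderOf_zero] at hord
    omega
  -- `d ∣ m`
  have h1 : d ∣ m := by
    apply orderOf_dvd_of_pow_eq_one
    have h2 : ω ^ (Fintype.card L - 1) = 1 := FiniteField.pow_card_sub_one_eq_one ω hω0
    have h3 : h ∣ Fintype.card L - 1 := hord ▸ orderOf_dvd_of_pow_eq_one h2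
    rw [← Nat.card_eq_fintype_card, hcard] at h3
    have h4 : 1 ≤ p ^ m := Nat.one_le_pow _ _ hp.out.pos
    have h5 : ((p ^ m - 1 : ℕ) : ZMod h) = 0 := (ZMod.natCast_eq_zero_iff _ _).2 h3
    rw [Nat.cast_sub h4] at h5
    push_cast at h5
    exact sub_eq_zero.1 h5
  have hmpos : 0 < m := Module.finrank_pos
  have hdpos : 0 < d := Nat.pos_of_dvd_of_pos h1 hmpos
  -- `m ∣ d`
  have h2 : m ∣ d := by
    have hpd : (p : ZMod h) ^ d = 1 := pow_orderOf_eq_one _
    have h3 : ω ^ (p ^ d) = ω := by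
      have h4 : 1 ≡ p ^ d [MOD h] := by
        rw [← ZMod.natCast_eq_natCast_iff]
        push_cast
        exact hpd.symm
      obtain ⟨c, hc⟩ := (Nat.modEq_iff_dvd' (Nat.one_le_pow _ _ hp.out.pos)).1 h4
      have h5 : p ^ d = 1 + h * c := by
        have : 1 ≤ p ^ d := Nat.one_le_pow _ _ hp.out.pos
        omega
      rw [h5, pow_add, pow_one, pow_mul, ← hord, pow_orderOf_eq_one, one_pow, mul_one]
    set σ := FiniteField.frobeniusAlgEquivOfAlgebraic (ZMod p) L with hσ
    have h4 : σ ^ d = 1 := by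
      ext a
      obtain ⟨f, rfl⟩ := hgen a
      have h5 : (σ ^ d) ω = ω := by
        have h6 := congrFun (FiniteField.coe_frobeniusAlgEquivOfAlgebraic_iterate (ZMod p) L d) ω
        simp only [ZMod.card] at h6
        rw [AlgEquiv.coe_pow, h6, h3]
      have h7 : (σ ^ d) (aeval ω f) = aeval ((σ ^ d) ω) f := by
        have := Polynomial.aeval_algHom_apply ((σ ^ d : L ≃ₐ[ZMod p] L) : L →ₐ[ZMod p] L) ω f
        simpa using this.symm
      rw [h7, h5]
      rfl
    have h8 := orderOf_dvd_of_pow_eq_one h4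
    rwa [FiniteField.orderOf_frobeniusAlgEquivOfAlgebraic] at h8
  rw [hcard, Nat.dvd_antisymm h2 h1]

end Field

section Module

variable {p : ℕ} [hp : Fact p.Prime] {V : Type*} [AddCommGroup V] [Module (ZMod p)[X] V] {h : ℕ}

variable (p h V) in
/-- `X` acts with order `h`, semiregularly. -/
structure Semireg : Prop where
  hpos : 0 < h
  hX : ∀ v : V, (X ^ h : (ZMod p)[X]) • v = v
  hfp : ∀ k, 0 < k → k < h → ∀ v : V, (X ^ k : (ZMod p)[X]) • v = v → v = 0

theorem Semireg.mem_of_sub [Finite V] (hS : Semireg p V h) (A : Submodule (ZMod p)[X] V) {k : ℕ}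
    (hk : 0 < k) (hk' : k < h) {v : V} (hv : (X ^ k - 1 : (ZMod p)[X]) • v ∈ A) : v ∈ A := by
  classical
  let g : A → A := fun a => ⟨(X ^ k - 1 : (ZMod p)[X]) • (a : V), A.smul_mem _ a.2⟩
  have hg : Function.Injective g := by
    intro a b hab
    have h1 : (X ^ k - 1 : (ZMod p)[X]) • ((a : V) - (b : V)) = 0 := by
      have := congrArg Subtype.val hab
      simp only [g] at this
      rw [smul_sub, this, sub_self]
    have h2 : (X ^ k : (ZMod p)[X]) • ((a : V) - (b : V)) = (a : V) - (b : V) := by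
      rw [sub_smul, one_smul, sub_eq_zero] at h1
      exact h1
    exact Subtype.ext (sub_eq_zero.1 (hS.hfp k hk hk' _ h2))
  have hs : Function.Surjective g := Finite.injective_iff_surjective.1 hg
  obtain ⟨a, ha⟩ := hs ⟨_, hv⟩
  have h1 : (X ^ k - 1 : (ZMod p)[X]) • ((a : V) - v) = 0 := by
    have := congrArg Subtype.val ha
    simp only [g] at this
    rw [smul_sub, this, sub_self]
  have h2 : (X ^ k : (ZMod p)[X]) • ((a : V) - v) = (a : V) - v := by
    rw [sub_smul, one_smul, sub_eq_zero] at h1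
    exact h1
  have h3 := sub_eq_zero.1 (hS.hfp k hk hk' _ h2)
  rw [← h3]
  exact a.2

theorem exists_ideal (A : Submodule (ZMod p)[X] V) (m : Submodule (ZMod p)[X] (V ⧸ A))
    (hm : IsAtom m) : ∃ I : Ideal (ZMod p)[X], I.IsMaximal ∧
      (∀ f : (ZMod p)[X], f ∈ I ↔ ∀ x ∈ m, f • x = 0) ∧ Nonempty (m ≃ₗ[(ZMod p)[X]] ((ZMod p)[X] ⧸ I)) := by
  have hs : IsSimpleModule (ZMod p)[X] m := isSimpleModule_iff_isAtom.2 hm
  obtain ⟨I, hI, ⟨e⟩⟩ := isSimpleModule_iff_quot_maximal.1 hs
  refine ⟨I, hI, fun f => ⟨fun hf x hx => ?_, fun hf => ?_⟩, ⟨e⟩⟩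
  · have h1 : e (f • (⟨x, hx⟩ : m)) = 0 := by
      rw [map_smul]
      obtain ⟨y, hy⟩ := Ideal.Quotient.mk_surjective (e ⟨x, hx⟩)
      rw [← hy, ← Ideal.Quotient.mk_eq_mk, ← Submodule.Quotient.mk_smul, Ideal.Quotient.mk_eq_mk,
        smul_eq_mul]
      exact Ideal.Quotient.eq_zero_iff_mem.2 (I.mul_mem_right _ hf)
    have h2 : f • (⟨x, hx⟩ : m) = 0 := by
      simpa using h1
    simpa using congrArg Subtype.val h2
  · have h1 := hf _ (e.symm (Ideal.Quotient.mk I 1)).2
    have h2 : f • e.symm (Ideal.Quotient.mk I 1) = 0 := Subtype.ext (by simpa using h1)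
    have h3 : e (f • e.symm (Ideal.Quotient.mk I 1)) = 0 := by rw [h2, map_zero]
    rw [map_smul, LinearEquiv.apply_symm_apply, ← Ideal.Quotient.mk_eq_mk,
      ← Submodule.Quotient.mk_smul, Ideal.Quotient.mk_eq_mk, smul_eq_mul, mul_one] at h3
    exact Ideal.Quotient.eq_zero_iff_mem.1 h3

theorem orderOf_root [Finite V] (hS : Semireg p V h) (A : Submodule (ZMod p)[X] V)
    (m : Submodule (ZMod p)[X] (V ⧸ A)) (hm : IsAtom m) (I : Ideal (ZMod p)[X]) (hI0 : I ≠ ⊤)
    (hI : ∀ f : (ZMod p)[X], f ∈ I ↔ ∀ x ∈ m, f • x = 0) :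
    orderOf (Ideal.Quotient.mk I (X : (ZMod p)[X])) = h := by
  rw [orderOf_eq_iff hS.hpos]
  constructor
  · rw [← map_pow, ← map_one (Ideal.Quotient.mk I), Ideal.Quotient.eq, hI]
    intro x hx
    obtain ⟨v, rfl⟩ := Submodule.Quotient.mk_surjective _ x
    rw [← Submodule.Quotient.mk_smul, sub_smul, one_smul, hS.hX, sub_self]
    simp
  · intro k hk hk0 h1
    rw [← map_pow, ← map_one (Ideal.Quotient.mk I), Ideal.Quotient.eq, hI] at h1
    apply hm.1
    rw [eq_bot_iff]
    intro x hx
    obtain ⟨v, rfl⟩ := Submodule.Quotient.mk_surjective _ x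
    have h2 := h1 _ hx
    rw [← Submodule.Quotient.mk_smul, Submodule.Quotient.mk_eq_zero] at h2
    have h3 := hS.mem_of_sub A hk0 hk h2
    rw [Submodule.mem_bot, Submodule.Quotient.mk_eq_zero]
    exact h3

theorem aeval_mk (I : Ideal (ZMod p)[X]) (f : (ZMod p)[X]) :
    aeval (Ideal.Quotient.mk I (X : (ZMod p)[X])) f = Ideal.Quotient.mk I f := by
  have h1 := Polynomial.aeval_algHom_apply (Ideal.Quotient.mkₐ (ZMod p) I) (X : (ZMod p)[X]) f
  simpa using h1

theorem card_atom [Finite V] (hS : Semireg p V h) (A : Submodule (ZMod p)[X] V)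
    (m : Submodule (ZMod p)[X] (V ⧸ A)) (hm : IsAtom m) :
    Nat.card m = p ^ orderOf (p : ZMod h) := by
  classical
  obtain ⟨I, hI, hf, ⟨e⟩⟩ := exists_ideal A m hm
  letI : Field ((ZMod p)[X] ⧸ I) := Ideal.Quotient.field I
  haveI : Finite (V ⧸ A) := Quotient.finite _
  haveI : Finite ((ZMod p)[X] ⧸ I) := Finite.of_equiv _ e.toEquiv
  rw [Nat.card_congr e.toEquiv]
  refine field_card (p := p) hS.hpos (Ideal.Quotient.mk I X) (fun a => ?_)
    (orderOf_root hS A m hm I hI.ne_top hf)
  obtain ⟨f, rfl⟩ := Ideal.Quotient.mk_surjective a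
  exact ⟨f, aeval_mk I f⟩

/-- The adjoint polynomial. -/
noncomputable def star (h : ℕ) (f : (ZMod p)[X]) : (ZMod p)[X] := f.comp (X ^ (h - 1))

variable [Module (ZMod p) V] [IsScalarTower (ZMod p) (ZMod p)[X] V]

theorem form_pow (B : LinearMap.BilinForm (ZMod p) V)
    (hT : ∀ u v : V, B ((X : (ZMod p)[X]) • u) ((X : (ZMod p)[X]) • v) = B u v) (k : ℕ) (u v : V) :
    B ((X ^ k : (ZMod p)[X]) • u) ((X ^ k : (ZMod p)[X]) • v) = B u v := by
  induction k generalizing u v with
  | zero => simp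
  | succ k ih =>
    rw [pow_succ, mul_smul, mul_smul, ih, hT]

theorem Semireg.pow_smul (hS : Semireg p V h) (k : ℕ) (v : V) :
    (((X ^ h) ^ k : (ZMod p)[X])) • v = v := by
  induction k with
  | zero => simp
  | succ k ih => rw [pow_succ, mul_smul, hS.hX, ih]

theorem smul_star_monomial (hS : Semireg p V h) (k : ℕ) (v : V) :
    (X ^ k : (ZMod p)[X]) • (((X ^ (h - 1)) ^ k : (ZMod p)[X]) • v) = v := by
  rw [← mul_smul, ← pow_mul, ← pow_add]
  have h1 : k + (h - 1) * k = h * k := by
    have := hS.hpos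
    obtain ⟨h', rfl⟩ : ∃ h', h = h' + 1 := ⟨h - 1, by omega⟩
    simp only [Nat.add_sub_cancel]
    ring
  rw [h1, pow_mul]
  exact hS.pow_smul k v

theorem form_smul_left (hS : Semireg p V h) (B : LinearMap.BilinForm (ZMod p) V)
    (hT : ∀ u v : V, B ((X : (ZMod p)[X]) • u) ((X : (ZMod p)[X]) • v) = B u v) (f : (ZMod p)[X])
    (u v : V) : B (f • u) v = B u (star h f • v) := by
  induction f using Polynomial.induction_on' with
  | add f g hf hg =>
    simp only [star, add_comp, add_smul, map_add, LinearMap.add_apply] at hf hg ⊢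
    rw [hf, hg]
  | monomial k c =>
    have h1 : (monomial k c : (ZMod p)[X]) = c • (X ^ k : (ZMod p)[X]) := by
      rw [← C_mul_X_pow_eq_monomial, smul_eq_C_mul]
    have h2 : star h (monomial k c : (ZMod p)[X]) = c • ((X ^ (h - 1)) ^ k : (ZMod p)[X]) := by
      rw [star, monomial_comp, smul_eq_C_mul]
    rw [h2, h1, smul_assoc, smul_assoc]
    have e1 : B (c • ((X ^ k : (ZMod p)[X]) • u)) v = c • B ((X ^ k : (ZMod p)[X]) • u) v := by
      simp
    have e2 : B u (c • (((X ^ (h - 1)) ^ k : (ZMod p)[X]) • v)) =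
        c • B u (((X ^ (h - 1)) ^ k : (ZMod p)[X]) • v) := by
      simp
    rw [e1, e2]
    congr 1
    conv_lhs => rw [← smul_star_monomial hS k v]
    rw [form_pow B hT]

/-- The orthogonal of a submodule. -/
def perp (hS : Semireg p V h) (B : LinearMap.BilinForm (ZMod p) V) (hA : B.IsAlt)
    (hT : ∀ u v : V, B ((X : (ZMod p)[X]) • u) ((X : (ZMod p)[X]) • v) = B u v)
    (A : Submodule (ZMod p)[X] V) : Submodule (ZMod p)[X] V where
  carrier := {v | ∀ a ∈ A, B a v = 0}
  add_mem' := by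
    intro x y hx hy a ha
    rw [map_add, hx a ha, hy a ha, add_zero]
  zero_mem' := by
    intro a _
    simp
  smul_mem' := by
    intro f x hx a ha
    have h1 : B a (f • x) = - B (f • x) a := (hA.neg_eq _ _).symm
    rw [h1, form_smul_left hS B hT, hA.neg_eq, hx _ (A.smul_mem _ ha)]

theorem mem_perp {hS : Semireg p V h} {B : LinearMap.BilinForm (ZMod p) V} {hA : B.IsAlt}
    {hT : ∀ u v : V, B ((X : (ZMod p)[X]) • u) ((X : (ZMod p)[X]) • v) = B u v}
    {A : Submodule (ZMod p)[X] V} {v : V} : v ∈ perp hS B hA hT A ↔ ∀ a ∈ A, B a v = 0 := Iff.rfl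

theorem card_comap [Finite V] (A : Submodule (ZMod p)[X] V) (m : Submodule (ZMod p)[X] (V ⧸ A)) :
    Nat.card (m.comap A.mkQ) = Nat.card A * Nat.card m := by
  classical
  haveI : Finite (V ⧸ A) := Quotient.finite _
  let C := m.comap A.mkQ
  let φ : C →+ m :=
    { toFun := fun c => ⟨A.mkQ (c : V), c.2⟩
      map_zero' := by ext; simp
      map_add' := by intro a b; ext; simp }
  have hφ : Function.Surjective φ := by
    rintro ⟨x, hx⟩
    obtain ⟨v, rfl⟩ := Submodule.Quotient.mk_surjective _ x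
    exact ⟨⟨v, hx⟩, rfl⟩
  have h1 : Nat.card φ.ker * φ.ker.index = Nat.card C := φ.ker.card_mul_index
  have h2 : φ.ker.index = Nat.card m := by
    rw [AddSubgroup.index_ker, AddMonoidHom.range_eq_top.2 hφ]
    exact Nat.card_congr AddSubgroup.topEquiv.toEquiv
  have hAC : A ≤ C := by
    intro a ha
    show A.mkQ a ∈ m
    have : A.mkQ a = 0 := (Submodule.Quotient.mk_eq_zero A).2 ha
    rw [this]
    exact m.zero_mem
  have h3 : Nat.card φ.ker = Nat.card A := by
    refine (Nat.card_eq_of_bijective (f := fun a : A => (⟨⟨a, hAC a.2⟩, ?_⟩ : φ.ker)) ?_).symm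
    · rw [AddMonoidHom.mem_ker]
      apply Subtype.ext
      exact (Submodule.Quotient.mk_eq_zero A).2 a.2
    · constructor
      · intro a b hab
        apply Subtype.ext
        have := congrArg (fun x : φ.ker => ((x : C) : V)) hab
        exact this
      · rintro ⟨⟨c, hc⟩, hc2⟩
        rw [AddMonoidHom.mem_ker] at hc2
        have h4 : A.mkQ c = 0 := congrArg Subtype.val hc2
        exact ⟨⟨c, (Submodule.Quotient.mk_eq_zero A).1 h4⟩, rfl⟩
  show Nat.card C = _
  rw [← h1, h2, h3]

/-- The nondegenerate case produces `-1` as a power of `p`. -/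
theorem exists_pow_eq_neg_one [Finite V] (hS : Semireg p V h) (B : LinearMap.BilinForm (ZMod p) V)
    (hT : ∀ u v : V, B ((X : (ZMod p)[X]) • u) ((X : (ZMod p)[X]) • v) = B u v)
    (A : Submodule (ZMod p)[X] V) (m : Submodule (ZMod p)[X] (V ⧸ A)) (hm : IsAtom m)
    (h1 : ∀ c ∈ m.comap A.mkQ, ∀ a ∈ A, B a c = 0)
    (h2 : ∀ v ∈ m.comap A.mkQ, (∀ u ∈ m.comap A.mkQ, B u v = 0) → v ∈ A) :
    ∃ i : ℕ, ((p : ZMod h)) ^ i = -1 := by
  classical
  obtain ⟨I, hI, hf, ⟨e⟩⟩ := exists_ideal A m hm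
  letI : Field ((ZMod p)[X] ⧸ I) := Ideal.Quotient.field I
  haveI : Finite (V ⧸ A) := Quotient.finite _
  haveI : Finite ((ZMod p)[X] ⧸ I) := Finite.of_equiv _ e.toEquiv
  have hord := orderOf_root hS A m hm I hI.ne_top hf
  set ω := Ideal.Quotient.mk I (X : (ZMod p)[X]) with hω
  -- the ideal is stable under the adjoint
  have hstar : ∀ f ∈ I, star h f ∈ I := by
    intro f hfI
    rw [hf]
    intro x hx
    obtain ⟨v, rfl⟩ := Submodule.Quotient.mk_surjective _ x
    rw [← Submodule.Quotient.mk_smul, Submodule.Quotient.mk_eq_zero]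
    have hv : v ∈ m.comap A.mkQ := hx
    refine h2 _ ((m.comap A.mkQ).smul_mem _ hv) (fun u hu => ?_)
    rw [← form_smul_left hS B hT]
    refine (by
      have h3 : f • A.mkQ u = 0 := (hf f).1 hfI _ hu
      have h4 : f • u ∈ A := by
        rw [← map_smul] at h3
        exact (Submodule.Quotient.mk_eq_zero A).1 h3
      exact h1 v hv _ h4)
  set g := minpoly (ZMod p) ω with hg
  have hg0 : aeval ω g = 0 := minpoly.aeval _ _
  have hgI : g ∈ I := by
    rw [aeval_mk] at hg0
    exact Ideal.Quotient.eq_zero_iff_mem.1 hg0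
  have h3 : aeval (ω ^ (h - 1)) g = 0 := by
    have h4 := Ideal.Quotient.eq_zero_iff_mem.2 (hstar g hgI)
    rw [← aeval_mk, star, aeval_comp] at h4
    simpa using h4
  obtain ⟨i, hi⟩ := exists_pow_eq_of_minpoly (p := p) ω _ h3
  refine ⟨i, ?_⟩
  have h4 : ω ^ (p ^ i + 1) = 1 := by
    rw [pow_succ, ← hi, ← pow_succ]
    have : h - 1 + 1 = h := by have := hS.hpos; omega
    rw [this, ← hord, pow_orderOf_eq_one]
  have h5 : h ∣ p ^ i + 1 := hord ▸ orderOf_dvd_of_pow_eq_one h4
  have h6 := (ZMod.natCast_eq_zero_iff _ _).2 h5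
  push_cast at h6
  exact eq_neg_of_add_eq_zero_left h6

theorem arith {h : ℕ} (h3 : 3 ≤ h) {u : ZMod h} {i n : ℕ} (hd : orderOf u ∣ 2 * n) (hi : u ^ i = -1) :
    u ^ n = 1 ∨ u ^ n = -1 := by
  haveI : NeZero h := ⟨by omega⟩
  haveI : Fact (2 < h) := ⟨by omega⟩
  have hne : (-1 : ZMod h) ≠ 1 := ZMod.neg_one_ne_one
  set d := orderOf u with hdd
  by_cases hdn : d ∣ n
  · exact Or.inl (orderOf_dvd_iff_pow_eq_one.1 hdn)
  right
  have h2i : d ∣ 2 * i := by
    apply orderOf_dvd_of_pow_eq_one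
    rw [mul_comm, pow_mul, hi]
    norm_num
  have hdeven : Even d := by
    by_contra hodd
    rw [Nat.not_even_iff_odd] at hodd
    exact hdn ((Nat.Coprime.dvd_of_dvd_mul_left (Nat.coprime_two_right.2 hodd)) hd)
  obtain ⟨d', hd'⟩ := hdeven
  have hd2 : d = 2 * d' := by omega
  rw [hd2] at hd h2i
  have hn : d' ∣ n := Nat.dvd_of_mul_dvd_mul_left (by norm_num) hd
  have hi' : d' ∣ i := Nat.dvd_of_mul_dvd_mul_left (by norm_num) h2i
  obtain ⟨t, rfl⟩ := hn
  obtain ⟨s, rfl⟩ := hi'
  set y := u ^ d' with hy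
  have hy2 : y ^ 2 = 1 := by
    rw [hy, ← pow_mul, mul_comm, ← hd2, hdd, pow_orderOf_eq_one]
  rw [pow_mul] at hi ⊢
  have hy3 : ∀ r : ℕ, y ^ (2 * r) = 1 := fun r => by rw [pow_mul, hy2, one_pow]
  have ht : Odd t := by
    by_contra hte
    rw [Nat.not_odd_iff_even] at hte
    obtain ⟨t', rfl⟩ := hte
    apply hdn
    rw [hd2]
    exact ⟨t', by ring⟩
  have hs : Odd s := by
    by_contra hse
    rw [Nat.not_odd_iff_even] at hse
    obtain ⟨s', hs'⟩ := hse
    apply hne
    rw [← hi, hs', ← two_mul, hy3]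
  obtain ⟨t', ht'⟩ := ht
  obtain ⟨s', hs'⟩ := hs
  have h5 : y = -1 := by
    rw [hs', pow_succ, hy3, one_mul] at hi
    exact hi
  rw [ht', pow_succ, hy3, one_mul]
  exact h5

/-- **The main linear-algebra theorem**, in module form. -/
theorem main [Finite V] (hS : Semireg p V h) (B : LinearMap.BilinForm (ZMod p) V)
    (hN : B.Nondegenerate) (hA : B.IsAlt)
    (hT : ∀ u v : V, B ((X : (ZMod p)[X]) • u) ((X : (ZMod p)[X]) • v) = B u v)
    (hcop : h.Coprime p) {n : ℕ} (hn : Module.finrank (ZMod p) V = 2 * n) :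
    h ∣ p ^ n + 1 ∨ h ∣ p ^ n - 1 := by
  classical
  have hpos := hS.hpos
  by_cases hh : h ≤ 2
  · left
    interval_cases h
    · exact one_dvd _
    · have h2 : Odd p := by
        rcases hp.out.eq_two_or_odd' with h3 | h3
        · subst h3; norm_num at hcop
        · exact h3
      exact (h2.pow.add_odd odd_one).two_dvd
  have h3 : 3 ≤ h := by omega
  haveI : NeZero h := ⟨by omega⟩
  set d := orderOf (p : ZMod h) with hd
  have hcardV : Nat.card V = p ^ (2 * n) := by
    haveI : Module.Finite (ZMod p) V := Module.Finite.of_finite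
    rw [Module.natCard_eq_pow_finrank (K := ZMod p) (V := V), Nat.card_zmod, hn]
  have hppos : 1 < p := hp.out.one_lt
  -- step (a): `d ∣ 2 * n`
  have hd2n : d ∣ 2 * n := by
    obtain ⟨A, hA1, hA2⟩ := (Set.toFinite {A : Submodule (ZMod p)[X] V |
      ∃ t, Nat.card A = p ^ (d * t)}).exists_maximal ⟨⊥, 0, by simp⟩
    obtain ⟨t, ht⟩ := hA1
    by_cases htop : A = ⊤
    · subst htop
      have h4 : Nat.card (⊤ : Submodule (ZMod p)[X] V) = Nat.card V :=
        Nat.card_congr Submodule.topEquiv.toEquiv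
      rw [h4, hcardV] at ht
      exact ⟨t, (Nat.pow_right_injective hppos) ht⟩
    · exfalso
      haveI : Nontrivial (V ⧸ A) := Submodule.Quotient.nontrivial_iff.2 htop
      obtain ⟨m, hm⟩ := IsAtomic.exists_atom (Submodule (ZMod p)[X] (V ⧸ A))
      have hC : A ≤ m.comap A.mkQ := by
        intro a ha
        show A.mkQ a ∈ m
        have h0 : A.mkQ a = 0 := (Submodule.Quotient.mk_eq_zero A).2 ha
        rw [h0]
        exact m.zero_mem
      have hcard := card_comap A m
      rw [card_atom hS A m hm, ht] at hcard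
      have h5 := hA2 (y := m.comap A.mkQ) ⟨t + 1, by rw [hcard, ← pow_add]; congr 1⟩ hC
      have h6 : m.comap A.mkQ = A := le_antisymm h5 hC
      apply hm.1
      rw [eq_bot_iff]
      intro x hx
      obtain ⟨v, rfl⟩ := Submodule.Quotient.mk_surjective _ x
      have h7 : v ∈ m.comap A.mkQ := hx
      rw [h6] at h7
      rw [Submodule.mem_bot]
      exact (Submodule.Quotient.mk_eq_zero A).2 h7
  -- step (b)
  have hperpperp : ∀ A : Submodule (ZMod p)[X] V, Nat.card A * Nat.card (perp hS B hA hT A) = Nat.card V := by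
    intro A
    haveI : Module.Finite (ZMod p) V := Module.Finite.of_finite
    have h4 : (perp hS B hA hT A).restrictScalars (ZMod p) = B.orthogonal (A.restrictScalars (ZMod p)) := by
      ext v
      rfl
    have h5 := LinearMap.BilinForm.finrank_orthogonal hN (A.restrictScalars (ZMod p))
    rw [← h4] at h5
    have hc1 : Nat.card A = p ^ Module.finrank (ZMod p) (A.restrictScalars (ZMod p)) := by
      have := Module.natCard_eq_pow_finrank (K := ZMod p) (V := A.restrictScalars (ZMod p))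
      rw [Nat.card_zmod] at this
      exact this
    have hc2 : Nat.card (perp hS B hA hT A) =
        p ^ Module.finrank (ZMod p) ((perp hS B hA hT A).restrictScalars (ZMod p)) := by
      have := Module.natCard_eq_pow_finrank (K := ZMod p)
        (V := (perp hS B hA hT A).restrictScalars (ZMod p))
      rw [Nat.card_zmod] at this
      exact this
    have hle : Module.finrank (ZMod p) (A.restrictScalars (ZMod p)) ≤ Module.finrank (ZMod p) V :=
      Submodule.finrank_le _
    rw [hc1, hc2, h5, ← pow_add, Nat.add_sub_cancel' hle, Module.natCard_eq_pow_finrank (K := ZMod p) (V := V),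
      Nat.card_zmod]
  obtain ⟨A, hA1, hA2⟩ := (Set.toFinite {A : Submodule (ZMod p)[X] V |
      A ≤ perp hS B hA hT A ∧ ∃ t, Nat.card A = p ^ (d * t)}).exists_maximal
      ⟨⊥, fun a ha => by
        rw [Submodule.mem_bot] at ha
        subst ha
        exact (perp hS B hA hT ⊥).zero_mem, 0, by simp⟩
  obtain ⟨hAp, t, ht⟩ := hA1
  have hconv : (p : ZMod h) ^ n = 1 ∨ (p : ZMod h) ^ n = -1 := by
    by_cases hAA : perp hS B hA hT A ≤ A
    · left
      have h4 : perp hS B hA hT A = A := le_antisymm hAA hAp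
      have h5 := hperpperp A
      rw [h4, ht, hcardV, ← pow_add] at h5
      have h6 := Nat.pow_right_injective hppos h5
      have h7 : d * t = n := by omega
      rw [← h7, pow_mul, hd, pow_orderOf_eq_one, one_pow]
    · have hne : (perp hS B hA hT A).map A.mkQ ≠ ⊥ := by
        intro h4
        apply hAA
        intro v hv
        have h5 : A.mkQ v ∈ (perp hS B hA hT A).map A.mkQ := Submodule.mem_map_of_mem hv
        rw [h4, Submodule.mem_bot] at h5
        exact (Submodule.Quotient.mk_eq_zero A).1 h5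
      obtain ⟨m, hm, hmle⟩ := (eq_bot_or_exists_atom_le _).resolve_left hne
      set C := m.comap A.mkQ with hC
      have hAC : A ≤ C := by
        intro a ha
        show A.mkQ a ∈ m
        have h0 : A.mkQ a = 0 := (Submodule.Quotient.mk_eq_zero A).2 ha
        rw [h0]
        exact m.zero_mem
      have hCp : C ≤ perp hS B hA hT A := by
        intro v hv
        have h5 : A.mkQ v ∈ (perp hS B hA hT A).map A.mkQ := hmle hv
        obtain ⟨w, hw, hwv⟩ := Submodule.mem_map.1 h5
        have h6 : v - w ∈ A := by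
          have : A.mkQ (v - w) = 0 := by rw [map_sub, hwv, sub_self]
          exact (Submodule.Quotient.mk_eq_zero A).1 this
        have h7 := (perp hS B hA hT A).add_mem hw (hAp h6)
        simpa using h7
      have hApC : A ≤ perp hS B hA hT C := by
        intro a ha c hc
        have h5 : B c a = - B a c := (hA.neg_eq _ _).symm
        rw [h5, hCp hc a ha, neg_zero]
      have hcardC : Nat.card C = p ^ (d * (t + 1)) := by
        have := card_comap A m
        rw [card_atom hS A m hm, ht] at this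
        rw [hC, this, ← pow_add]
        congr 1
      rcases hm.le_iff.1 (show (C ⊓ perp hS B hA hT C).map A.mkQ ≤ m from
          Submodule.map_le_iff_le_comap.2 inf_le_left) with h5 | h5
      · -- nondegenerate section
        obtain ⟨i, hi⟩ := exists_pow_eq_neg_one hS B hT A m hm
          (fun c hc a ha => hCp hc a ha) (fun v hv hv2 => by
            have h6 : A.mkQ v ∈ (C ⊓ perp hS B hA hT C).map A.mkQ :=
              Submodule.mem_map_of_mem ⟨hv, hv2⟩
            rw [h5, Submodule.mem_bot] at h6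
            exact (Submodule.Quotient.mk_eq_zero A).1 h6)
        exact arith h3 hd2n hi
      · exfalso
        have hCC : C ≤ perp hS B hA hT C := by
          intro v hv
          have h6 : A.mkQ v ∈ m := hv
          rw [← h5] at h6
          obtain ⟨w, hw, hwv⟩ := Submodule.mem_map.1 h6
          have h7 : v - w ∈ A := by
            have : A.mkQ (v - w) = 0 := by rw [map_sub, hwv, sub_self]
            exact (Submodule.Quotient.mk_eq_zero A).1 this
          have h8 := (perp hS B hA hT C).add_mem hw.2 (hApC h7)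
          simpa using h8
        have h6 := hA2 (y := C) ⟨hCC, t + 1, hcardC⟩ hAC
        apply hm.1
        rw [eq_bot_iff]
        intro x hx
        obtain ⟨v, rfl⟩ := Submodule.Quotient.mk_surjective _ x
        rw [Submodule.mem_bot]
        exact (Submodule.Quotient.mk_eq_zero A).2 (h6 hx)
  have hpn : 1 ≤ p ^ n := Nat.one_le_pow _ _ hp.out.pos
  rcases hconv with h4 | h4
  · right
    rw [← ZMod.natCast_eq_zero_iff, Nat.cast_sub hpn]
    push_cast
    rw [h4, sub_self]
  · left
    rw [← ZMod.natCast_eq_zero_iff]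
    push_cast
    rw [h4, neg_add_cancel]

end Module

section Linear

variable {p : ℕ} [hp : Fact p.Prime] {V : Type*} [AddCommGroup V] [Module (ZMod p) V] [Finite V]
  {h : ℕ}

/-- **Main theorem**, linear form. -/
theorem main_linear (B : LinearMap.BilinForm (ZMod p) V)
    (hN : B.Nondegenerate) (hA : B.IsAlt) (T : V →ₗ[ZMod p] V)
    (hT : ∀ u v : V, B (T u) (T v) = B u v) (hh : 0 < h) (hTh : T ^ h = 1)
    (hfp : ∀ k, 0 < k → k < h → ∀ v : V, (T ^ k) v = v → v = 0)
    (hcop : h.Coprime p) {n : ℕ} (hn : Module.finrank (ZMod p) V = 2 * n) :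
    h ∣ p ^ n + 1 ∨ h ∣ p ^ n - 1 := by
  letI : Module (ZMod p)[X] V :=
    Module.compHom V ((aeval T : (ZMod p)[X] →ₐ[ZMod p] Module.End (ZMod p) V).toRingHom)
  have hsm : ∀ (f : (ZMod p)[X]) (v : V), f • v = (aeval T f) v := fun _ _ => rfl
  haveI : IsScalarTower (ZMod p) (ZMod p)[X] V := ⟨by
    intro c f v
    rw [hsm, hsm, map_smul]
    rfl⟩
  refine main (B := B) ⟨hh, fun v => ?_, fun k hk hk' v hv => ?_⟩ hN hA (fun u v => ?_) hcop hn
  · rw [hsm, map_pow, aeval_X, hTh]
    rfl
  · rw [hsm, map_pow, aeval_X] at hv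
    exact hfp k hk hk' v hv
  · rw [hsm, hsm, aeval_X]
    exact hT u v

end Linear

end Cfsg.Agent.Lib.PGroup.FpfForm
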