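import Mathlib
import Cfsg.Agent.Lib.PSL2.DOdd
import Cfsg.Agent.Lib.PSL2.Torus
import Cfsg.Agent.Lib.Coprime.Averaging

/-!
# Subgroups of `SL₂(E)` with abelian Sylow `2`-subgroups

If `R ≤ SL₂(E)` (char `E = p` odd) has abelian Sylow `2`-subgroups then `R` has a normal `2`-complement
(Burnside transfer, using that `SL₂(E)` has a unique involution), and its elements of order dividing
`p` commute.
-/

namespace Cfsg.Agent.Lib.PGroup.QuadSylow2

open Matrix Cfsg.Agent.Lib.PSL2.Basic Cfsg.Agent.Lib.PSL2.Torus Cfsg.Agent.Lib.PSL2.DOdd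
open scoped MatrixGroups

variable {p : ℕ} [hp : Fact p.Prime] {E : Type*} [Field E] [Finite E] [CharP E p]

/-- An element of odd order normalizing an abelian `2`-subgroup of `SL₂(E)` centralizes it. -/
theorem centralizes_of_odd (hp2 : p ≠ 2) (R : Subgroup SL(2, E)) (T : Subgroup R)
    [hT : IsMulCommutative T] (hT2 : IsPGroup 2 T) (g : R)
    (hg : g ∈ Subgroup.normalizer (T : Set R)) (hodd : Odd (orderOf g)) :
    g ∈ Subgroup.centralizer (T : Set R) := by
  classical
  have h2E : (2 : E) ≠ 0 := by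
    intro h
    have h3 : ((2 : ℕ) : E) = 0 := by exact_mod_cast h
    rw [CharP.cast_eq_zero_iff E p] at h3
    exact hp2 ((Nat.prime_dvd_prime_iff_eq hp.out Nat.prime_two).1 h3)
  let A : Subgroup R := Subgroup.zpowers g
  have hAN : A ≤ Subgroup.normalizer (T : Set R) := (Subgroup.zpowers_le).2 hg
  obtain ⟨k, hk⟩ := IsPGroup.iff_card.1 hT2
  have hcop : (Nat.card A).Coprime (Nat.card T) := by
    rw [Nat.card_zpowers, hk]
    exact Nat.Coprime.pow_right k (Nat.coprime_two_right.2 hodd)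
  obtain ⟨h1, -⟩ := Cfsg.Agent.Lib.Coprime.Averaging.centralizer_inf_commutator_and_sup A T hAN hcop
  have hbot : ⁅T, A⁆ = ⊥ := by
    by_contra hne
    have hle : ⁅T, A⁆ ≤ T := by
      rw [Subgroup.commutator_le]
      intro t ht z hz
      have h2 := (Subgroup.mem_normalizer_iff.1 (hAN hz) t⁻¹).1 (inv_mem ht)
      have e : t * z * t⁻¹ * z⁻¹ = t * (z * t⁻¹ * z⁻¹) := by group
      show t * z * t⁻¹ * z⁻¹ ∈ T
      rw [e]
      exact mul_mem ht h2
    have hCp : IsPGroup 2 (⁅T, A⁆ : Subgroup R) := hT2.to_le hle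
    have hnt : Nontrivial (⁅T, A⁆ : Subgroup R) := (Subgroup.nontrivial_iff_ne_bot _).2 hne
    obtain ⟨j, hj⟩ := IsPGroup.iff_card.1 hCp
    have hj0 : j ≠ 0 := by
      rintro rfl
      have h3 : Nat.card (⁅T, A⁆ : Subgroup R) = 1 := by simpa using hj
      have h4 := (Finite.one_lt_card_iff_nontrivial (α := (⁅T, A⁆ : Subgroup R))).2 hnt
      omega
    have hdvd : 2 ∣ Nat.card (⁅T, A⁆ : Subgroup R) := by
      rw [hj]
      exact dvd_pow_self 2 hj0
    obtain ⟨i, hi⟩ := exists_prime_orderOf_dvd_card' 2 hdvd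
    have hi2 : ((i : R) : SL(2, E)) * ((i : R) : SL(2, E)) = 1 := by
      have h5 := pow_orderOf_eq_one i
      rw [hi, pow_two] at h5
      have h6 := congrArg Subtype.val (congrArg Subtype.val h5)
      simpa using h6
    have hi1 : ((i : R) : SL(2, E)) ≠ 1 := by
      intro h5
      have h6 : i = 1 := Subtype.ext (Subtype.ext h5)
      rw [h6, orderOf_one] at hi
      omega
    have hineg : ((i : R) : SL(2, E)) = -1 :=
      ((mul_self_eq_one_iff h2E _).1 hi2).resolve_left hi1
    have hiC : (i : R) ∈ (T ⊓ Subgroup.centralizer (A : Set R)) ⊓ ⁅T, A⁆ := by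
      refine ⟨⟨hle i.2, Subgroup.mem_centralizer_iff.2 fun z _ => ?_⟩, i.2⟩
      apply Subtype.ext
      show (z : SL(2, E)) * (i : R) = ((i : R) : SL(2, E)) * z
      rw [hineg]
      simp
    rw [h1, Subgroup.mem_bot] at hiC
    exact hi1 (by rw [hiC]; rfl)
  rw [Subgroup.commutator_eq_bot_iff_le_centralizer] at hbot
  refine Subgroup.mem_centralizer_iff.2 fun t ht => ?_
  have := Subgroup.mem_centralizer_iff.1 (hbot ht) g (Subgroup.mem_zpowers g)
  exact this.symm

/-- Abelian Sylow `2`-subgroup: normalizer in centralizer. -/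
theorem normalizer_le_centralizer_sylow (hp2 : p ≠ 2) (R : Subgroup SL(2, E)) (T : Sylow 2 R)
    (hT : IsMulCommutative (T : Subgroup R)) :
    Subgroup.normalizer ((T : Subgroup R) : Set R) ≤
      Subgroup.centralizer ((T : Subgroup R) : Set R) := by
  classical
  intro n hn
  obtain ⟨e, m, hm, he⟩ := Nat.exists_eq_two_pow_mul_odd (n := orderOf n) (orderOf_pos n).ne'
  have hg : n ^ 2 ^ e ∈ Subgroup.centralizer ((T : Subgroup R) : Set R) := by
    apply centralizes_of_odd hp2 R T T.isPGroup'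
    · exact pow_mem hn _
    · have : orderOf (n ^ 2 ^ e) = m := by
        rw [orderOf_pow' n (pow_ne_zero e two_ne_zero), he,
          Nat.gcd_eq_right (dvd_mul_right _ _)]
        exact Nat.mul_div_cancel_left _ (pow_pos two_pos e)
      rw [this]
      exact hm
  have hf : n ^ m ∈ Subgroup.centralizer ((T : Subgroup R) : Set R) := by
    have hfN : n ^ m ∈ Subgroup.normalizer ((T : Subgroup R) : Set R) := pow_mem hn _
    have hf2 : (n ^ m) ^ 2 ^ e = 1 := by
      rw [← pow_mul, mul_comm, ← he, pow_orderOf_eq_one]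
    have hzp : IsPGroup 2 (Subgroup.zpowers (n ^ m)) := by
      obtain ⟨k, -, hk⟩ := (Nat.dvd_prime_pow Nat.prime_two).1 (orderOf_dvd_of_pow_eq_one hf2)
      apply IsPGroup.of_card (n := k)
      rw [Nat.card_zpowers, hk]
    have hsup := hzp.to_sup_of_normal_right' T.isPGroup' ((Subgroup.zpowers_le).2 hfN)
    have hle : (T : Subgroup R) ≤ Subgroup.zpowers (n ^ m) ⊔ (T : Subgroup R) := le_sup_right
    have heq := T.is_maximal' hsup hle
    have hmem : n ^ m ∈ (T : Subgroup R) := by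
      rw [← heq]
      exact Subgroup.mem_sup_left (Subgroup.mem_zpowers _)
    refine Subgroup.mem_centralizer_iff.2 fun t ht => ?_
    exact congrArg Subtype.val (hT.is_comm.comm (⟨t, ht⟩ : (T : Subgroup R)) ⟨_, hmem⟩)
  -- Bezout
  have hcop : IsCoprime ((2 ^ e : ℕ) : ℤ) (m : ℤ) :=
    Nat.isCoprime_iff_coprime.2 (Nat.Coprime.pow_left e (Nat.coprime_two_left.2 hm))
  obtain ⟨a, b, hab⟩ := hcop
  have hn1 : n = (n ^ 2 ^ e) ^ a * (n ^ m) ^ b := by
    have h : n ^ (a * ((2 ^ e : ℕ) : ℤ) + b * (m : ℤ)) = n := by rw [hab, zpow_one]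
    rw [_root_.zpow_add, mul_comm a, mul_comm b, _root_.zpow_mul, _root_.zpow_mul, zpow_natCast, zpow_natCast] at h
    exact h.symm
  rw [hn1]
  exact mul_mem (zpow_mem hg a) (zpow_mem hf b)

/-- If `R ≤ SL₂(E)` has an abelian Sylow `2`-subgroup, elements of order dividing `p` in `R` commute. -/
theorem commute_of_abelian_sylow (hp2 : p ≠ 2) (R : Subgroup SL(2, E)) (T : Sylow 2 R)
    (hT : IsMulCommutative (T : Subgroup R)) {u v : SL(2, E)} (hu : u ∈ R) (hv : v ∈ R)
    (hup : u ^ p = 1) (hvp : v ^ p = 1) : u * v = v * u := by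
  classical
  have hN := normalizer_le_centralizer_sylow hp2 R T hT
  let φ := MonoidHom.transferSylow T hN
  let L : Subgroup R := φ.ker
  have hLodd : Odd (Nat.card L) := by
    have := MonoidHom.not_dvd_card_ker_transferSylow T hN
    exact Nat.odd_iff.2 (Nat.two_dvd_ne_zero.1 this)
  have hpodd : Nat.Coprime p 2 :=
    (Nat.coprime_primes hp.out Nat.prime_two).2 hp2
  have hker : ∀ z : R, z ^ p = 1 → z ∈ L := by
    intro z hz
    show φ z = 1
    have h1 : (φ z) ^ p = 1 := by rw [← map_pow, hz, map_one]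
    obtain ⟨k, hk⟩ := T.isPGroup' (φ z)
    have h2 := orderOf_dvd_of_pow_eq_one h1
    have h3 := orderOf_dvd_of_pow_eq_one hk
    have h4 : orderOf (φ z) = 1 :=
      Nat.eq_one_of_dvd_coprimes (Nat.Coprime.pow_right k hpodd) h2 h3
    exact orderOf_eq_one_iff.1 h4
  let ι : L →* SL(2, E) := R.subtype.comp L.subtype
  have hι : Function.Injective ι := R.subtype_injective.comp L.subtype_injective
  have hS : Sys p ι := ⟨hι, hLodd, hp2⟩
  have hu' : (⟨u, hu⟩ : R) ^ p = 1 := Subtype.ext (by simpa using hup)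
  have hv' : (⟨v, hv⟩ : R) ^ p = 1 := Subtype.ext (by simpa using hvp)
  have h1 := hS.commute_of_pow (u := ⟨⟨u, hu⟩, hker _ hu'⟩) (w := ⟨⟨v, hv⟩, hker _ hv'⟩)
    (Subtype.ext hu') (Subtype.ext hv')
  exact congrArg Subtype.val (congrArg Subtype.val h1)

/-- The non-commuting pair `y 1`, `x s` forbids abelian Sylow `2`-subgroups. -/
theorem not_abelian_sylow (hp2 : p ≠ 2) (R : Subgroup SL(2, E)) (T : Sylow 2 R) {s : E} (hs : s ≠ 0)
    (hy : y 1 ∈ R) (hx : x s ∈ R) : ¬ IsMulCommutative (T : Subgroup R) := by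
  intro hT
  have hpowx : (x s) ^ p = 1 := by
    rw [x_pow, CharP.cast_eq_zero, zero_mul, x_zero]
  have hpowy : (y (1 : E)) ^ p = 1 := by
    rw [y_pow, CharP.cast_eq_zero, zero_mul, y_zero]
  have hc := commute_of_abelian_sylow hp2 R T hT hx hy hpowx hpowy
  have h3 := congrArg (fun M : SL(2, E) => M.1 0 0) hc
  simp at h3
  exact hs h3

end Cfsg.Agent.Lib.PGroup.QuadSylow2
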