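import Mathlib
import Cfsg.Agent.Lib.PGroup.QuadG
import Cfsg.Agent.Lib.PGroup.QuadSylow2

/-!
# Quadratic pairs force non-abelian Sylow `2`-subgroups

No Dickson here: a homomorphism to `SL₂(E)` hitting `y 1` and `x s` forbids abelian Sylow
`2`-subgroups (`QuadSylow2.not_abelian_sylow`).
-/

namespace Cfsg.Agent.Lib.PGroup.QuadAb

open Cfsg Matrix Cfsg.Agent.Lib.PSL2.Basic Cfsg.Agent.Lib.PGroup.QuadG
open scoped MatrixGroups

universe u

variable {p : ℕ} [hp : Fact p.Prime]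

/-- A homomorphism to `SL₂(E)` hitting `y 1`, `x s`: the Sylow `2`-subgroups are non-abelian. -/
theorem not_abelian_of_hom {Y : Type*} [Group Y] [Finite Y] (hp2 : p ≠ 2) {E : Type*} [Field E]
    [Finite E] [CharP E p] (ψ : Y →* SL(2, E)) {s : E} (hs : s ≠ 0) {a b : Y} (ha : ψ a = y 1)
    (hb : ψ b = x s) (T : Sylow 2 Y) : ¬ IsMulCommutative (T : Subgroup Y) := by
  intro hT
  have hsurj : Function.Surjective ψ.rangeRestrict := ψ.rangeRestrict_surjective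
  let T' : Sylow 2 ψ.range := T.mapSurjective hsurj
  refine QuadSylow2.not_abelian_sylow hp2 ψ.range T' hs ⟨a, ha⟩ ⟨b, hb⟩ ?_
  refine ⟨⟨fun u v => ?_⟩⟩
  obtain ⟨u, hu⟩ := u
  obtain ⟨v, hv⟩ := v
  obtain ⟨u', hu', rfl⟩ : u ∈ (T : Subgroup Y).map ψ.rangeRestrict := hu
  obtain ⟨v', hv', rfl⟩ : v ∈ (T : Subgroup Y).map ψ.rangeRestrict := hv
  have h := hT.is_comm.comm ⟨u', hu'⟩ ⟨v', hv'⟩
  have h' : u' * v' = v' * u' := congrArg Subtype.val h
  apply Subtype.ext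
  show ψ.rangeRestrict u' * ψ.rangeRestrict v' = ψ.rangeRestrict v' * ψ.rangeRestrict u'
  rw [← map_mul, ← map_mul, h']

variable {G : Type u} [Group G] [Finite G]

/-- **Ambient pair**: no abelian Sylow `2`-subgroups in `⟨a, b⟩`. -/
theorem not_abelian_of_pair (hp2 : p ≠ 2) (P : Subgroup G)
    (hP : IsPGroup p P) (a b h : G) (han : a ∈ Subgroup.normalizer (P : Set G))
    (hbn : b ∈ Subgroup.normalizer (P : Set G))
    (hqa : ∀ v ∈ P, a * (a * v * a⁻¹ * v⁻¹) * a⁻¹ = a * v * a⁻¹ * v⁻¹)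
    (hqb : ∀ v ∈ P, b * (b * v * b⁻¹ * v⁻¹) * b⁻¹ = b * v * b⁻¹ * v⁻¹)
    (hh : h ∈ Subgroup.closure {a, b}) (hcop : Nat.Coprime (orderOf h) p)
    (hhP : h ∉ Subgroup.centralizer (P : Set G)) (T : Sylow 2 (Subgroup.closure {a, b} : Subgroup G)) :
    ¬ IsMulCommutative (T : Subgroup (Subgroup.closure {a, b} : Subgroup G)) := by
  classical
  have haY : a ∈ Subgroup.closure {a, b} := Subgroup.subset_closure (Or.inl rfl)
  have hbY : b ∈ Subgroup.closure {a, b} := Subgroup.subset_closure (Or.inr rfl)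
  have haD : a ∈ Subgroup.closure {a, b} ⊔ P := Subgroup.mem_sup_left haY
  have hbD : b ∈ Subgroup.closure {a, b} ⊔ P := Subgroup.mem_sup_left hbY
  obtain ⟨Γ, _, _, q, E, _, _, _, s, π, θ, hq, hs, hπa, hπb, hθadd, hθinj, hθc, hθ1, -⟩ :=
    ambient_data P hP a b h han hbn hqa hqb hh hcop hhP haD hbD
  have hYD : Subgroup.closure {a, b} ≤ Subgroup.closure {a, b} ⊔ P := le_sup_left
  let ψ : ↥(Subgroup.closure {a, b}) →* SL(2, E) :=
    π.comp (q.comp (Subgroup.inclusion hYD))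
  exact not_abelian_of_hom hp2 ψ hs (a := ⟨a, haY⟩) (b := ⟨b, hbY⟩) hπa hπb T

/-- The form of S0593. -/
theorem two_quadratic_not_abelian (hp2 : p ≠ 2) (V H : Subgroup G)
    (hV : IsElementaryAbelian p V) (hHV : H ≤ Subgroup.normalizer (V : Set G))
    (hf : H ⊓ Subgroup.centralizer (V : Set G) = ⊥) (a b : G) (hab : H = Subgroup.closure {a, b})
    (ha : ⁅⁅V, Subgroup.zpowers a⁆, Subgroup.zpowers a⁆ = ⊥)
    (hb : ⁅⁅V, Subgroup.zpowers b⁆, Subgroup.zpowers b⁆ = ⊥)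
    (hnp : ¬ IsPGroup p H) (T : Sylow 2 H) : ¬ IsMulCommutative T := by
  subst hab
  have hVp : IsPGroup p V := by
    intro v
    refine ⟨1, Subtype.ext ?_⟩
    simpa using hV.2 v.1 v.2
  have haY : a ∈ Subgroup.closure {a, b} := Subgroup.subset_closure (Or.inl rfl)
  have hbY : b ∈ Subgroup.closure {a, b} := Subgroup.subset_closure (Or.inr rfl)
  unfold IsPGroup at hnp
  push Not at hnp
  obtain ⟨y₀, hy₀⟩ := hnp
  have hk : ∀ k : ℕ, (y₀ : G) ^ p ^ k ≠ 1 := fun k hk => hy₀ k (Subtype.ext hk)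
  obtain ⟨h, hh, hcop, hne⟩ := exists_coprime_lift (MonoidHom.id G) (a := a) (b := b)
    (y := y₀) y₀.2 hk
  have hhC : h ∉ Subgroup.centralizer (V : Set G) := by
    intro hc
    have : h ∈ Subgroup.closure {a, b} ⊓ Subgroup.centralizer (V : Set G) := ⟨hh, hc⟩
    rw [hf, Subgroup.mem_bot] at this
    exact hne this
  exact not_abelian_of_pair hp2 V hVp a b h (hHV haY) (hHV hbY) (quad_elem ha) (quad_elem hb) hh hcop
    hhC T

end Cfsg.Agent.Lib.PGroup.QuadAb
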