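import Mathlib
import Cfsg.Agent.Lib.PGroup.QuadAb
import Cfsg.Agent.Lib.PGroup.ZJStable
import Cfsg.Agent.Lib.PSL2.SylowU
import Cfsg.Prelude.Def_PLocal

/-!
# Abelian Sylow `2`-subgroups and `p`-stability, `p` odd
-/

namespace Cfsg.Agent.Lib.PGroup.QuadTwoAb

open Cfsg Cfsg.Agent.Lib.Basic.PCore Cfsg.Agent.Lib.PGroup.QuadG Cfsg.Agent.Lib.PGroup.QuadAb

universe u

variable {p : ℕ} [hp : Fact p.Prime]

/-- All `2`-subgroups are abelian. -/
def TwoAb (G : Type*) [Group G] : Prop := ∀ T : Subgroup G, IsPGroup 2 T → IsMulCommutative T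

theorem twoAb_of_sylow {G : Type*} [Group G] [Finite G] (hab : ∀ T : Sylow 2 G, IsMulCommutative T) :
    TwoAb G := by
  intro T hT
  obtain ⟨Q, hQ⟩ := hT.exists_le_sylow
  have h1 := hab Q
  refine ⟨⟨fun u v => Subtype.ext ?_⟩⟩
  have h2 := h1.is_comm.comm ⟨u.1, hQ u.2⟩ ⟨v.1, hQ v.2⟩
  exact congrArg (fun z : (Q : Subgroup G) => (z : G)) h2

theorem TwoAb.subgroup {G : Type*} [Group G] (hG : TwoAb G) (H : Subgroup G) : TwoAb H := by
  intro T hT
  have h1 := hG (T.map H.subtype) (hT.map H.subtype)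
  refine ⟨⟨fun u v => Subtype.ext (Subtype.ext ?_)⟩⟩
  have h2 := h1.is_comm.comm ⟨u.1.1, u.1, u.2, rfl⟩ ⟨v.1.1, v.1, v.2, rfl⟩
  exact congrArg (fun z : (T.map H.subtype : Subgroup G) => (z : G)) h2

theorem TwoAb.of_surj {G Q : Type*} [Group G] [Finite G] [Group Q] (hG : TwoAb G) (f : G →* Q)
    (hf : Function.Surjective f) : TwoAb Q := by
  intro T hT
  obtain ⟨P, hP, rfl⟩ := Cfsg.Agent.Lib.PSL2.SylowU.exists_isPGroup_map_eq 2 f hf T hT
  have h1 := hG P hP
  refine ⟨⟨?_⟩⟩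
  rintro ⟨_, u, hu, rfl⟩ ⟨_, v, hv, rfl⟩
  have h2 := h1.is_comm.comm ⟨u, hu⟩ ⟨v, hv⟩
  have h3 : u * v = v * u := congrArg Subtype.val h2
  apply Subtype.ext
  show f u * f v = f v * f u
  rw [← map_mul, ← map_mul, h3]

/-- A group with abelian `2`-subgroups is `p`-stable on each normal `p`-subgroup. -/
theorem stable_of_twoAb {G : Type u} [Group G] [Finite G] (hp2 : p ≠ 2) (hG : TwoAb G)
    (P : Subgroup G) [hPn : P.Normal] (hP : IsPGroup p P) : IsPStableOn p P := by
  classical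
  by_contra hns
  unfold IsPStableOn at hns
  push Not at hns
  obtain ⟨a, hq, hcore⟩ := hns
  let C : Subgroup G := Subgroup.centralizer (P : Set G)
  let f : G →* G ⧸ C := QuotientGroup.mk' C
  have hfs : Function.Surjective f := QuotientGroup.mk'_surjective C
  have hqa := quad_elem hq
  have hN : ∀ g : G, g ∈ Subgroup.normalizer (P : Set G) := by
    intro g
    rw [Subgroup.normalizer_eq_top_iff.2 hPn]
    trivial
  obtain ⟨n, hn⟩ := pow_mem_centralizer_of_quad hP (hN a) hqa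
  have hx : ∃ n : ℕ, f a ^ p ^ n = 1 := by
    refine ⟨n, ?_⟩
    rw [← map_pow]
    exact (QuotientGroup.eq_one_iff _).2 hn
  obtain ⟨gb, y, hy, hk⟩ := exists_conj_not_pgroup hx hcore
  obtain ⟨g, rfl⟩ := hfs gb
  have hy' : y ∈ Subgroup.closure {f a, f (g * a * g⁻¹)} := by
    simpa [map_mul, map_inv] using hy
  obtain ⟨h, hh, hcop, hne⟩ := exists_coprime_lift f hy' hk
  have hhC : h ∉ Subgroup.centralizer (P : Set G) := by
    intro hc
    exact hne ((QuotientGroup.eq_one_iff _).2 hc)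
  obtain ⟨T⟩ : Nonempty (Sylow 2 (Subgroup.closure {a, g * a * g⁻¹} : Subgroup G)) := by
    haveI : Fact (Nat.Prime 2) := ⟨Nat.prime_two⟩
    infer_instance
  haveI : Fact (Nat.Prime 2) := ⟨Nat.prime_two⟩
  have hT := (hG.subgroup (Subgroup.closure {a, g * a * g⁻¹})) (T : Subgroup _) T.isPGroup'
  exact not_abelian_of_pair hp2 P hP a _ h (hN a) (hN _) hqa (quad_elem_conj (hN g) hqa) hh hcop hhC T
    hT

/-- Stability on sections from stability on normal `p`-subgroups of the quotient. -/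
theorem section_stable_of {G : Type*} [Group G] [Finite G] (K N : Subgroup G) [hKn : K.Normal]
    [hNn : N.Normal] (hK : IsPGroup p K)
    (hst : ∀ (P : Subgroup (G ⧸ N)) [P.Normal], IsPGroup p P → IsPStableOn p P) :
    IsPStableOnSection p K N := by
  classical
  intro a hquad
  set π : G →* G ⧸ N := QuotientGroup.mk' N with hπ
  have hπs : Function.Surjective π := QuotientGroup.mk'_surjective N
  set Kb : Subgroup (G ⧸ N) := K.map π with hKb
  haveI hKbn : Kb.Normal := Subgroup.Normal.map hKn π hπs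
  have hKbp : IsPGroup p Kb := hK.map π
  set Cb : Subgroup (G ⧸ N) := Subgroup.centralizer (Kb : Set (G ⧸ N)) with hCb
  haveI hCbn : Cb.Normal := Subgroup.normal_centralizer
  set ρ : G ⧸ N →* (G ⧸ N) ⧸ Cb := QuotientGroup.mk' Cb with hρ
  have hρs : Function.Surjective ρ := QuotientGroup.mk'_surjective Cb
  have hsec : sectionKernel K N = (ρ.comp π).ker := by
    ext x
    rw [MonoidHom.mem_ker, MonoidHom.comp_apply]
    show π x ∈ Cb ↔ _
    exact (QuotientGroup.eq_one_iff (π x)).symm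
  have hs : Function.Surjective (ρ.comp π) := hρs.comp hπs
  refine ⟨(pCore p ((G ⧸ N) ⧸ Cb)).comap (ρ.comp π), Subgroup.Normal.comap (pCore_normal p _) _, ?_, ?_, ?_⟩
  · rw [hsec]
    intro x hx
    have hx' : (ρ.comp π) x = 1 := hx
    exact Subgroup.mem_comap.mpr (by rw [hx']; exact Subgroup.one_mem _)
  · obtain ⟨k, hk⟩ := IsPGroup.iff_card.mp (pCore_isPGroup p (G := (G ⧸ N) ⧸ Cb))
    refine ⟨k, ?_⟩
    rw [hsec, ← MonoidHom.comap_bot, Subgroup.relIndex_comap,
      Subgroup.map_comap_eq_self_of_surjective hs, Subgroup.relIndex_bot_left, hk]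
  · have hq : ⁅⁅Kb, Subgroup.zpowers (π a)⁆, Subgroup.zpowers (π a)⁆ = ⊥ := by
      have h1 : (⁅⁅K, Subgroup.zpowers a⁆, Subgroup.zpowers a⁆).map π = ⊥ := by
        rw [Subgroup.map_eq_bot_iff, hπ, QuotientGroup.ker_mk']
        exact hquad
      rw [Subgroup.map_commutator, Subgroup.map_commutator, MonoidHom.map_zpowers] at h1
      exact h1
    exact hst Kb hKbp (π a) hq

/-- **The form of S0626.** -/
theorem actionPStable_of_twoAb {G : Type u} [Group G] [Finite G] (hp2 : p ≠ 2) (hG : TwoAb G) :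
    IsActionPStable p G := by
  classical
  refine ⟨?_, ?_, ?_⟩
  · intro V _ hV
    refine stable_of_twoAb hp2 hG V ?_
    intro v
    refine ⟨1, Subtype.ext ?_⟩
    simpa using hV.2 v.1 v.2
  · refine section_stable_of _ _ (pCore_isPGroup p) ?_
    intro P _ hP
    exact stable_of_twoAb hp2 (hG.of_surj _ (QuotientGroup.mk'_surjective _)) P hP
  · intro S V _ hV
    refine stable_of_twoAb hp2 (hG.subgroup _) V ?_
    have hea := Cfsg.Agent.Lib.PGroup.ZJStable.omegaCenterThompson_ea (p := p) (S := ↥(S : Subgroup G))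
    intro v
    refine ⟨1, Subtype.ext (Subtype.ext ?_)⟩
    obtain ⟨u, hu, he⟩ := hV ⟨v.1, v.2, rfl⟩
    have h1 := hea.2 u hu
    have h2 : (v.1.1 : G) ^ p ^ 1 = 1 := by
      rw [pow_one]
      have h3 : (u : G) = v.1.1 := he
      rw [← h3]
      have h4 : (u : (S : Subgroup G)) ^ p = 1 := h1
      exact congrArg (fun z : (S : Subgroup G) => (z : G)) h4
    exact h2

end Cfsg.Agent.Lib.PGroup.QuadTwoAb
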