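import Mathlib
import Cfsg.Agent.Lib.PGroup.GTFunctor
import Cfsg.Agent.Lib.PGroup.QuadTwoAb

/-!
# The normal `p`-complement theorem for `W(S)`
-/

set_option autoImplicit false
set_option linter.unusedVariables false
set_option linter.style.haveILetI false
set_option linter.unusedSectionVars false
universe u

namespace Cfsg.Agent.Lib.PGroup.GTW

open Subgroup Cfsg Cfsg.Agent.Lib.Basic.PCore Cfsg.Agent.Lib.PGroup.ZJ Cfsg.Agent.Lib.Transfer.Basic
open Cfsg.Agent.Lib.Thompson.GT
open Cfsg.Agent.Lib.PGroup.GTOdd Cfsg.Agent.Lib.PGroup.GTFunctor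
open Cfsg.Agent.Lib.PGroup.Replacement
open scoped commutatorElement

variable {p : ℕ} [hp : Fact p.Prime]

/-- Stability restricts to subgroups containing the normal subgroup. -/
theorem stable_restrict {G : Type*} [Group G] [Finite G] (V' : Subgroup G) [hV' : V'.Normal] (hst : IsPStableOn p V')
    (X : Subgroup G) (V : Subgroup X) [hV : V.Normal] (hVV : V.map X.subtype = V') : IsPStableOn p V := by
  classical
  intro a hq
  have hmapc : (⁅⁅V, zpowers a⁆, zpowers a⁆).map X.subtype = ⊥ := by
    rw [hq]; simp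
  rw [Subgroup.map_commutator, Subgroup.map_commutator, MonoidHom.map_zpowers, hVV] at hmapc
  have h1 := hst (a : G) hmapc
  set D' : Subgroup G := (pCore p (G ⧸ centralizer (V' : Set G))).comap (QuotientGroup.mk' _) with hD'
  haveI hD'n : D'.Normal := Subgroup.Normal.comap (pCore_normal p _) _
  set D : Subgroup X := D'.subgroupOf X with hD
  haveI hDn : D.Normal := inferInstance
  set C := centralizer (V : Set X) with hC
  haveI hCn : C.Normal := Subgroup.normal_centralizer
  have hDp : IsPGroup p (D.map (QuotientGroup.mk' C)) := by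
    rintro ⟨_, d, hd, rfl⟩
    have hd' : ((d : X) : G) ∈ D' := hd
    have hd2 : ((QuotientGroup.mk' (centralizer (V' : Set G))) (d : G)) ∈
      pCore p (G ⧸ centralizer (V' : Set G)) := hd'
    obtain ⟨k, hk⟩ := (pCore_isPGroup p (G := G ⧸ centralizer (V' : Set G))) ⟨_, hd2⟩
    refine ⟨k, Subtype.ext ?_⟩
    have hk' : (QuotientGroup.mk' (centralizer (V' : Set G))) (d : G) ^ (p ^ k) = 1 := by
      simpa using congrArg Subtype.val hk
    rw [← map_pow, QuotientGroup.mk'_apply, QuotientGroup.eq_one_iff] at hk'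
    have hk2 : d ^ (p ^ k) ∈ C := by
      rw [hC, Subgroup.mem_centralizer_iff]
      intro v hv
      have h3 : ((v : X) : G) ∈ V' := by rw [← hVV]; exact ⟨v, hv, rfl⟩
      have h4 := Subgroup.mem_centralizer_iff.mp hk' _ h3
      exact Subtype.ext (by simpa using h4)
    simp only [Subgroup.coe_pow, Subgroup.coe_one]
    rw [← map_pow, QuotientGroup.mk'_apply, QuotientGroup.eq_one_iff]
    exact hk2
  have hDn2 : (D.map (QuotientGroup.mk' C)).Normal :=
    Subgroup.Normal.map hDn _ (QuotientGroup.mk'_surjective C)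
  have hle := le_pCore hDn2 hDp
  exact hle ⟨a, h1, rfl⟩

/-- In a group with a normal `p`-complement the action on normal `p`-subgroups is stable. -/
theorem stable_of_hnc {X : Type*} [Group X] [Finite X] (hX : HasNormalPComplement p X) (V : Subgroup X)
    [hV : V.Normal] (hVp : IsPGroup p V) : IsPStableOn p V := by
  classical
  obtain ⟨M, hMn, hM1, hM2⟩ := hasNormalPComplement_iff.mp hX
  intro a _
  set C := centralizer (V : Set X) with hC
  haveI hCn : C.Normal := Subgroup.normal_centralizer
  have hMC : M ≤ C := by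
    intro m hm
    rw [hC, Subgroup.mem_centralizer_iff]
    intro v hv
    replace hv : v ∈ V := hv
    have h1 : ⁅v, m⁆ ∈ V ⊓ M := by
      refine Subgroup.mem_inf.mpr ⟨?_, ?_⟩
      · have h2 : ⁅v, m⁆ = v * (m * v⁻¹ * m⁻¹) := by
          rw [commutatorElement_def]; group
        rw [h2]
        exact mul_mem hv (hV.conj_mem _ (inv_mem hv) m)
      · rw [commutatorElement_def]
        exact mul_mem (hMn.conj_mem _ hm v) (inv_mem hm)
    have hbot : V ⊓ M = ⊥ := by
      rw [eq_bot_iff]
      rintro x ⟨hx1, hx2⟩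
      obtain ⟨k, hk⟩ := hVp ⟨x, hx1⟩
      have h2 : x ^ (p ^ k) = 1 := by simpa using congrArg Subtype.val hk
      have h3 : orderOf x ∣ p ^ k := orderOf_dvd_of_pow_eq_one h2
      have h4 : orderOf x ∣ Nat.card M := Subgroup.orderOf_dvd_natCard M hx2
      have h5 : (orderOf x).Coprime (p ^ k) :=
        Nat.Coprime.pow_right k (Nat.Coprime.coprime_dvd_left h4 hM1)
      have h6 := Nat.eq_one_of_dvd_coprimes h5 dvd_rfl h3
      rw [Subgroup.mem_bot]
      exact orderOf_eq_one_iff.mp h6
    rw [hbot, Subgroup.mem_bot, commutatorElement_eq_one_iff_mul_comm] at h1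
    exact h1
  have hq : IsPGroup p (X ⧸ C) := by
    intro x
    obtain ⟨y, rfl⟩ := QuotientGroup.mk_surjective x
    obtain ⟨k, hk⟩ := hM2 (y : X ⧸ M)
    refine ⟨k, ?_⟩
    rw [← QuotientGroup.mk_pow, QuotientGroup.eq_one_iff] at hk ⊢
    exact hMC hk
  have htop : IsPGroup p (⊤ : Subgroup (X ⧸ C)) := hq.to_subgroup _
  exact le_pCore inferInstance htop (mem_top _)

/-- Overgroups of all Sylow subgroups. -/
theorem hprop_sylow {G : Type*} [Group G] [Finite G] (P : Sylow p G)
    (hprop : ∀ H : Subgroup G, (P : Subgroup G) ≤ H → H ≠ ⊤ → HasNormalPComplement p H)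
    (S : Sylow p G) : ∀ H : Subgroup G, (S : Subgroup G) ≤ H → H ≠ ⊤ → HasNormalPComplement p H := by
  classical
  intro H hSH hne
  obtain ⟨g, hg⟩ := MulAction.exists_smul_eq G S P
  set H' := H.map (MulAut.conj g).toMonoidHom with hH'
  have hP : (P : Subgroup G) ≤ H' := by
    rw [← hg, Sylow.coe_subgroup_smul]
    rintro _ ⟨x, hx, rfl⟩
    exact ⟨x, hSH hx, rfl⟩
  have hne' : H' ≠ ⊤ := by
    intro h
    apply hne
    rw [eq_top_iff]
    intro x _
    have hx : g * x * g⁻¹ ∈ H' := by rw [h]; trivial
    obtain ⟨y, hy, hyx⟩ := hx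
    have : y = x := (MulAut.conj g).injective hyx
    rwa [← this]
  have h1 := hprop H' hP hne'
  let φ : H →* H' :=
    { toFun := fun x => ⟨g * x * g⁻¹, ⟨x, x.2, rfl⟩⟩
      map_one' := by ext; simp
      map_mul' := by
        intro x y
        apply Subtype.ext
        show g * ((x : G) * y) * g⁻¹ = (g * x * g⁻¹) * (g * y * g⁻¹)
        group }
  refine HasNormalPComplement_of_injective φ ?_ h1
  intro x y hxy
  have h2 : g * (x : G) * g⁻¹ = g * (y : G) * g⁻¹ := congrArg Subtype.val hxy
  exact Subtype.ext ((MulAut.conj g).injective h2)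

/-- Stability in overgroups of a Sylow subgroup. -/
theorem stable_in_overgroup {G : Type*} [Group G] [Finite G] {S : Sylow p G}
    (hall : ∀ (V : Subgroup G) [V.Normal], IsPGroup p V → IsPStableOn p V)
    (hS : ∀ H : Subgroup G, (S : Subgroup G) ≤ H → H ≠ ⊤ → HasNormalPComplement p H)
    (N : Subgroup G) (hSN : (S : Subgroup G) ≤ N) (V : Subgroup N) [hVN : V.Normal] (hVp : IsPGroup p V) :
    IsPStableOn p V := by
  by_cases hNt : N = ⊤
  · -- `V` is normal in `G`
    haveI hVn : (V.map N.subtype).Normal := by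
      refine ⟨?_⟩
      rintro _ ⟨v, hv, rfl⟩ g
      have hgN : g ∈ N := by rw [hNt]; trivial
      have := hVN.conj_mem v hv ⟨g, hgN⟩
      exact ⟨_, this, rfl⟩
    have hVp' : IsPGroup p (V.map N.subtype) := hVp.map _
    exact stable_restrict (V.map N.subtype) (hall _ hVp') N V rfl
  · exact stable_of_hnc (hS N hSN hNt) V hVp

/-- The action is stable in the last step of the reduction. -/
theorem actionPStable_of_overgroups {G : Type u} [Group G] [Finite G] (hp2 : p ≠ 2) (P : Sylow p G)
    (hO : pPrimeCore p G = ⊥) (hG : HasNormalPComplement p (G ⧸ pCore p G))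
    (hprop : ∀ H : Subgroup G, (P : Subgroup G) ≤ H → H ≠ ⊤ → HasNormalPComplement p H) :
    IsActionPStable p G := by
  classical
  obtain ⟨hc, -⟩ := setup_last hp2 P hO hG hprop
  have hall : ∀ (V : Subgroup G) [V.Normal], IsPGroup p V → IsPStableOn p V :=
    fun V _ hV => isPStableOn_of_overgroups hp2 hc P hprop hG V hV
  refine ⟨?_, ?_, ?_⟩
  · intro V _ hV
    refine hall V ?_
    intro v
    refine ⟨1, Subtype.ext ?_⟩
    simpa using hV.2 v.1 v.2
  · -- the section `O_p(G) / Φ(O_p(G))`
    set R := pCore p G with hR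
    haveI hRn : R.Normal := pCore_normal p G
    have hRp : IsPGroup p R := pCore_isPGroup p
    set N := (frattini ↥R).map R.subtype with hN
    haveI hNn : N.Normal := by
      refine ⟨?_⟩
      rintro _ ⟨x, hx, rfl⟩ g
      refine ⟨(MulAut.conjNormal g : MulAut R) x, ?_, rfl⟩
      exact (Subgroup.characteristic_iff_map_le.mp (inferInstance : (frattini ↥R).Characteristic)
        (MulAut.conjNormal g : MulAut R)) ⟨x, hx, rfl⟩
    refine Cfsg.Agent.Lib.PGroup.QuadTwoAb.section_stable_of _ _ hRp ?_
    intro Pb _ hPb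
    -- the group `X = G / N`
    let f : G →* G ⧸ N := QuotientGroup.mk' N
    have hf : Function.Surjective f := QuotientGroup.mk'_surjective N
    have hNR : N ≤ R := Subgroup.map_subtype_le _
    have hNp : IsPGroup p N := hRp.to_le hNR
    have hcoreX : ∀ x : G, f x ∈ pCore p (G ⧸ N) → x ∈ R := by
      intro x hx
      have h1 : (pCore p (G ⧸ N)).comap f ≤ R := by
        refine le_pCore inferInstance ?_
        refine IsPGroup.comap_of_ker_isPGroup (pCore_isPGroup p) f ?_
        rw [QuotientGroup.ker_mk']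
        exact hNp
      exact h1 hx
    have hRmap : R.map f ≤ pCore p (G ⧸ N) :=
      le_pCore (Subgroup.Normal.map hRn f hf) (hRp.map f)
    have hcX : centralizer (pCore p (G ⧸ N) : Set (G ⧸ N)) ≤ pCore p (G ⧸ N) := by
      intro y hy
      obtain ⟨g, rfl⟩ := hf y
      -- `g` lies in the section kernel
      have h1 : g ∈ sectionKernel R N := by
        show f g ∈ centralizer ((R.map f : Subgroup (G ⧸ N)) : Set (G ⧸ N))
        exact Subgroup.centralizer_le hRmap hy
      have h2 := Cfsg.Agent.Lib.PGroup.ZJStable.sectionKernel_isPGroup hRp hc hN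
      have h3 : sectionKernel R N ≤ R := by
        refine le_pCore ?_ h2
        exact Subgroup.Normal.comap Subgroup.normal_centralizer _
      exact hRmap ⟨g, h3 h1, rfl⟩
    let P₂ : Sylow p (G ⧸ N) := P.mapSurjective hf
    have hpropX : ∀ H₀ : Subgroup (G ⧸ N), (P₂ : Subgroup (G ⧸ N)) ≤ H₀ → H₀ ≠ ⊤ →
        HasNormalPComplement p H₀ := by
      intro H₀ hP₂ hne
      have hPH : (P : Subgroup G) ≤ H₀.comap f := fun x hx => hP₂ ⟨x, hx, rfl⟩
      have hHne : H₀.comap f ≠ ⊤ := by
        intro h
        apply hne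
        rw [eq_top_iff]
        intro y _
        obtain ⟨g, rfl⟩ := hf y
        have : g ∈ H₀.comap f := by rw [h]; trivial
        exact this
      have h1 := hprop _ hPH hHne
      let φ : H₀.comap f →* H₀ :=
        { toFun := fun x => ⟨f x, x.2⟩
          map_one' := Subtype.ext (map_one f)
          map_mul' := fun x y => Subtype.ext (map_mul f _ _) }
      refine HasNormalPComplement_of_surjective φ ?_ h1
      rintro ⟨y, hy⟩
      obtain ⟨g, rfl⟩ := hf y
      exact ⟨⟨g, hy⟩, rfl⟩
    have hqX : HasNormalPComplement p ((G ⧸ N) ⧸ pCore p (G ⧸ N)) := by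
      refine HasNormalPComplement_of_surjective (G := G ⧸ R)
        (QuotientGroup.lift R ((QuotientGroup.mk' (pCore p (G ⧸ N))).comp f) ?_) ?_ hG
      · intro x hx
        rw [MonoidHom.mem_ker, MonoidHom.comp_apply, QuotientGroup.mk'_apply, QuotientGroup.eq_one_iff]
        exact hRmap ⟨x, hx, rfl⟩
      · intro y
        obtain ⟨y₁, rfl⟩ := QuotientGroup.mk_surjective y
        obtain ⟨y₂, rfl⟩ := hf y₁
        exact ⟨(y₂ : G ⧸ R), rfl⟩
    exact isPStableOn_of_overgroups hp2 hcX P₂ hpropX hqX Pb hPb
  · intro S V hVn hV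
    haveI := hVn
    have hVp : IsPGroup p V := by
      have h1 : IsPGroup p (V.map (normalizer (thompsonSubgroupOf p (S : Subgroup G) : Set G)).subtype) := by
        refine IsPGroup.to_le ?_ hV
        exact (IsPGroup.map (S.isPGroup'.to_subgroup _) _)
      exact h1.of_equiv (V.equivMapOfInjective _ (subtype_injective _)).symm
    exact stable_in_overgroup hall (hprop_sylow P hprop S) _
      (Cfsg.Agent.Lib.PGroup.ZJStable.le_normalizer_thompson _) V hVp

/-- The functor `W`. -/
def WF (p : ℕ) : ∀ (G : Type u) [Group G], Subgroup G → Subgroup G :=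
  fun _ _ S => (stableNormalClosure p ↥S).map S.subtype

theorem selFun_W : SelFun.{u} p (WF p) where
  le := fun G _ S => Subgroup.map_subtype_le _
  ne_bot := by
    intro G _ _ S hS hne h
    haveI : Nontrivial S := (Subgroup.nontrivial_iff_ne_bot S).mpr hne
    have h1 := Cfsg.Agent.Lib.PGroup.StableClosure.stableNormalClosure_ne_bot (p := p) (S := S) hS
    apply h1
    have h2 : (stableNormalClosure p ↥S).map S.subtype = ⊥ := h
    rw [Subgroup.map_eq_bot_iff] at h2
    rw [eq_bot_iff]
    intro x hx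
    have : x ∈ S.subtype.ker := h2 hx
    rw [Subgroup.ker_subtype, Subgroup.mem_bot] at this
    rw [Subgroup.mem_bot]
    exact this
  map := by
    intro G H _ _ _ _ f S hf
    have hinj : Function.Injective (f.subgroupMap S) := by
      intro x y hxy
      have h1 : f x = f y := congrArg Subtype.val hxy
      exact Subtype.ext (Cfsg.Agent.Lib.PGroup.ZJCore.injOn_of f hf x.2 y.2 h1)
    let η : S ≃* S.map f := MulEquiv.ofBijective (f.subgroupMap S) ⟨hinj, f.subgroupMap_surjective S⟩
    show ((stableNormalClosure p ↥S).map S.subtype).map f = (stableNormalClosure p ↥(S.map f)).map (S.map f).subtype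
    rw [← Cfsg.Agent.Lib.PGroup.StableClosure.stableNormalClosure_map (p := p) η, Subgroup.map_map, Subgroup.map_map]
    rfl

/-- **The normal `p`-complement theorem for `W(S)`**. -/
theorem hnpc_of_normalizer_W (hp2 : p ≠ 2) {G : Type u} [Group G] [Finite G] (P : Sylow p G)
    (h : HasNormalPComplement p (normalizer (((stableNormalClosure p ↥(P : Subgroup G)).map (P : Subgroup G).subtype : Subgroup G) : Set G))) :
    HasNormalPComplement p G := by
  refine gt_reduction' (fun G _ _ P => HasNormalPComplement p (normalizer (WF p G (P : Subgroup G) : Set G)))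
    ?_ ?_ ?_ ?_ _ G rfl P h
  · intro G _ _ P Q h hQP hQne S' hS' hgood
    have hz : ∀ z ∈ (P : Subgroup G), (∀ g ∈ (P : Subgroup G), g * z = z * g) → z ∈ normalizer (Q : Set G) :=
      fun z _ hzc => central_mem_normalizer hQP hzc
    exact (selFun_W.{u}).hnc_normalizer_sub P _ h hz S' hS' hgood
  · intro G _ _ P Q _ h hQP hQne hgood2
    exact (selFun_W.{u}).hnc_normalizer_quo P Q hQP hgood2
  · intro G _ _ P h
    exact (selFun_W.{u}).hnc_normalizer_core P h
  · intro G _ _ P h ih hO hG
    have hprop : ∀ H : Subgroup G, (P : Subgroup G) ≤ H → H ≠ ⊤ → HasNormalPComplement p H := by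
      intro H hPH hne
      refine ih H (Cfsg.Agent.Lib.Thompson.QuadraticBase.card_lt_of_ne_top hne) (P.subtype hPH) ?_
      exact (selFun_W.{u}).hnc_normalizer_sub P H h (fun z hz _ => hPH hz) (P.subtype hPH)
        (map_subtype_sylow P hPH) (vacuous_good P hPH)
    have hst := actionPStable_of_overgroups hp2 P hO hG hprop
    obtain ⟨hc, -⟩ := setup_last hp2 P hO hG hprop
    have hn := Cfsg.Agent.Lib.PGroup.ZJStable.stableNormalClosure_normal hst hc P
    exact hnpc_of_top (Subgroup.normalizer_eq_top_iff.mpr hn) h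

end Cfsg.Agent.Lib.PGroup.GTW
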