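import Mathlib
import Cfsg.Prelude.Def_Transfer
import Cfsg.Agent.Lib.PGroup.SingularSubgroup

/-!
# An involution acting on a large extraspecial subgroup

`α` an involution normalizing `Q` (with `Large Q z`), centralizing `z`, outside `Q`.  Then the group
generated by the commutators `[α, q]` is the centre of `Q₀ = {q : [α, q] ∈ ⟨z⟩}`.
-/

namespace Cfsg.Agent.Lib.PGroup.InvolutionOnExtraspecial

open Subgroup Cfsg.Agent.Lib.PGroup.LargeExtraspecial Cfsg.Agent.Lib.PGroup.SingularSubgroup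
open scoped commutatorElement

variable {G : Type*} [Group G] [Finite G]

omit [Finite G] in
theorem mem_zpowers_of_sq {z x : G} (hz : z * z = 1) : x ∈ zpowers z ↔ x = 1 ∨ x = z := by
  constructor
  · rintro ⟨k, rfl⟩
    rcases Int.even_or_odd' k with ⟨m, rfl | rfl⟩
    · left
      change z ^ (2 * m) = 1
      rw [zpow_mul, zpow_two, hz, one_zpow]
    · right
      change z ^ (2 * m + 1) = z
      rw [zpow_add, zpow_mul, zpow_two, hz, one_zpow, one_mul, zpow_one]
  · rintro (rfl | rfl)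
    · exact one_mem _
    · exact mem_zpowers _

/-- The identity behind the adjointness of `α - 1`. -/
theorem comm_key {E : Type*} [Group E] (hc : ∀ x y : E, ⁅x, y⁆ ∈ center E) (σ : E ≃* E)
    (hσ : ∀ x y : E, ⁅σ x, σ y⁆ = ⁅x, y⁆) (x q : E) :
    ⁅x, σ q * q⁻¹⁆ = ⁅σ x * x⁻¹, σ q⁆⁻¹ := by
  have hinvr : ∀ a b : E, ⁅a, b⁻¹⁆ = ⁅a, b⁆⁻¹ := by
    intro a b
    have h1 := Extraspecial.comm_mul_right hc a b b⁻¹
    simp only [mul_inv_cancel, commutatorElement_one_right] at h1
    exact (eq_inv_of_mul_eq_one_right h1.symm)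
  have hinvl : ∀ a b : E, ⁅a⁻¹, b⁆ = ⁅a, b⁆⁻¹ := by
    intro a b
    have h1 := Extraspecial.comm_mul_left hc a a⁻¹ b
    simp only [mul_inv_cancel, commutatorElement_one_left] at h1
    exact (eq_inv_of_mul_eq_one_right h1.symm)
  rw [Extraspecial.comm_mul_right hc, Extraspecial.comm_mul_left hc, hσ, hinvr, hinvl, mul_inv_rev,
    inv_inv]

section Core

variable {Q : Subgroup G} {z α : G}

/-- The conjugation action of `α` on `Q`. -/
def sigma (hα2 : α * α = 1) (hαN : ∀ y ∈ Q, α * y * α⁻¹ ∈ Q) : ↥Q ≃* ↥Q where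
  toFun x := ⟨α * x * α⁻¹, hαN x x.2⟩
  invFun x := ⟨α * x * α⁻¹, hαN x x.2⟩
  left_inv x := by
    apply Subtype.ext
    have hi : α⁻¹ = α := inv_eq_of_mul_eq_one_left hα2
    change α * (α * x * α⁻¹) * α⁻¹ = x
    rw [hi, mul_assoc α (α * x * α), mul_assoc (α * x), hα2, mul_one, ← mul_assoc, hα2, one_mul]
  right_inv x := by
    apply Subtype.ext
    have hi : α⁻¹ = α := inv_eq_of_mul_eq_one_left hα2
    change α * (α * x * α⁻¹) * α⁻¹ = x
    rw [hi, mul_assoc α (α * x * α), mul_assoc (α * x), hα2, mul_one, ← mul_assoc, hα2, one_mul]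
  map_mul' a b := by
    apply Subtype.ext
    change α * (a * b) * α⁻¹ = (α * a * α⁻¹) * (α * b * α⁻¹)
    group

theorem core (L : Large Q z) (hp : IsPGroup 2 Q) (hα2 : α * α = 1) (hαz : α * z = z * α)
    (hαN : ∀ y ∈ Q, α * y * α⁻¹ ∈ Q) (hαQ : α ∉ Q) (Q₀ : Subgroup G)
    (hQ₀ : ∀ q, q ∈ Q₀ ↔ q ∈ Q ∧ α * q * α⁻¹ * q⁻¹ ∈ zpowers z) :
    closure ((fun q : G => α * q * α⁻¹ * q⁻¹) '' (Q : Set G)) = (center ↥Q₀).map Q₀.subtype := by
  have hprime : Fact (Nat.Prime 2) := ⟨Nat.prime_two⟩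
  have hi : α⁻¹ = α := inv_eq_of_mul_eq_one_left hα2
  set R := closure ((fun q : G => α * q * α⁻¹ * q⁻¹) '' (Q : Set G)) with hR
  have hc := Large'.comm_mem_center L
  have hZ := Large'.card_center L
  let σ : ↥Q ≃* ↥Q := sigma hα2 hαN
  have hσv : ∀ x : ↥Q, ((σ x : ↥Q) : G) = α * x * α⁻¹ := fun _ => rfl
  let ez : ↥Q := ⟨z, L.z_mem⟩
  have hσz : σ ez = ez := by
    apply Subtype.ext
    rw [hσv]
    change α * z * α⁻¹ = z
    rw [hαz]; group
  have hcen : ∀ y : ↥Q, y ∈ center ↥Q → y = 1 ∨ y = ez := by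
    rintro ⟨y, hy⟩ hyc
    have h2 := L.center y hy (by
      intro x hx
      exact congrArg (fun t : ↥Q => (t : G)) (mem_center_iff.mp hyc ⟨x, hx⟩))
    rcases h2 with h2 | h2
    · left; exact Subtype.ext h2
    · right; exact Subtype.ext h2
  have hezc : ez ∈ center ↥Q := by
    rw [mem_center_iff]
    rintro ⟨v, hv⟩
    exact Subtype.ext (L.z_comm v hv)
  have hσc : ∀ x y : ↥Q, ⁅σ x, σ y⁆ = ⁅x, y⁆ := by
    intro x y
    rw [← map_commutatorElement]
    rcases hcen _ (hc x y) with h | h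
    · rw [h, map_one]
    · rw [h, hσz]
  -- `d q = σ q * q⁻¹`
  let d : ↥Q → ↥Q := fun q => σ q * q⁻¹
  have hdv : ∀ q : ↥Q, ((d q : ↥Q) : G) = α * q * α⁻¹ * (q : G)⁻¹ := fun _ => rfl
  have hdR : ∀ q : ↥Q, ((d q : ↥Q) : G) ∈ R := fun q =>
    subset_closure ⟨q, q.2, rfl⟩
  have hRQ : R ≤ Q := by
    rw [hR, closure_le]
    rintro _ ⟨q, hq, rfl⟩
    exact (d ⟨q, hq⟩).2
  -- membership in `Q₀`
  have hQ₀Q : Q₀ ≤ Q := fun q hq => ((hQ₀ q).mp hq).1
  have hmemQ₀ : ∀ x : ↥Q, (x : G) ∈ Q₀ ↔ d x ∈ center ↥Q := by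
    intro x
    rw [hQ₀, mem_zpowers_of_sq L.z_sq]
    constructor
    · rintro ⟨-, h | h⟩
      · have : d x = 1 := Subtype.ext h
        rw [this]; exact one_mem _
      · have : d x = ez := Subtype.ext h
        rw [this]; exact hezc
    · intro h
      refine ⟨x.2, ?_⟩
      rcases hcen _ h with h | h
      · left; exact congrArg Subtype.val h
      · right; exact congrArg Subtype.val h
  -- the centralizer of `R`
  set R' := R.subgroupOf Q with hR'
  set Q₀' := Q₀.subgroupOf Q with hQ₀'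
  have hdmem : ∀ q : ↥Q, d q ∈ R' := fun q => by
    rw [hR', mem_subgroupOf]
    exact hdR q
  have hCR : centralizer (R' : Set ↥Q) = Q₀' := by
    ext x
    rw [hQ₀', mem_subgroupOf, hmemQ₀, mem_centralizer_iff]
    constructor
    · intro h
      rw [mem_center_iff]
      intro y
      obtain ⟨q, rfl⟩ := σ.surjective y
      have h1 := h (d q) (hdmem q)
      have h2 := comm_key hc σ hσc x q
      have h3 : ⁅x, σ q * q⁻¹⁆ = 1 := commutatorElement_eq_one_iff_mul_comm.mpr h1.symm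
      rw [h3] at h2
      have h4 : ⁅σ x * x⁻¹, σ q⁆ = 1 := by
        rw [← inv_inv ⁅σ x * x⁻¹, σ q⁆, ← h2, inv_one]
      exact (commutatorElement_eq_one_iff_mul_comm.mp h4).symm
    · intro h r hr
      have hr := mem_subgroupOf.mp hr
      -- `x` commutes with the generators
      have hgen : ∀ q : ↥Q, d q * x = x * d q := by
        intro q
        have h2 := comm_key hc σ hσc x q
        have h3 : ⁅σ x * x⁻¹, σ q⁆ = 1 :=
          commutatorElement_eq_one_iff_mul_comm.mpr ((mem_center_iff.mp h) (σ q)).symm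
        rw [h3, inv_one] at h2
        exact (commutatorElement_eq_one_iff_mul_comm.mp h2).symm
      have hle : R ≤ (centralizer ({x} : Set ↥Q)).map Q.subtype := by
        rw [hR, closure_le]
        rintro _ ⟨q, hq, rfl⟩
        refine ⟨d ⟨q, hq⟩, ?_, rfl⟩
        rw [SetLike.mem_coe, mem_centralizer_singleton_iff]
        exact hgen ⟨q, hq⟩
      obtain ⟨t, ht, hte⟩ := hle hr
      have : t = r := Subtype.ext hte
      rw [← this]
      exact mem_centralizer_singleton_iff.mp ht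
  -- `z ∈ R`
  have hzR : z ∈ R := by
    by_contra hzR
    have h1 : ∀ q r : ↥Q, q * d r = d r * q := by
      intro q r
      have h2 : d (q * r) = d q * (q * d r * q⁻¹) := by
        simp only [d, map_mul]
        group
      have h3 : ⁅q, d r⁆ ∈ R' := by
        have h4 : ⁅q, d r⁆ = (d q)⁻¹ * d (q * r) * (d r)⁻¹ := by
          rw [h2, commutatorElement_def]
          group
        rw [h4]
        exact mul_mem (mul_mem (inv_mem (hdmem q)) (hdmem _)) (inv_mem (hdmem r))
      rcases hcen _ (hc q (d r)) with h | h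
      · exact commutatorElement_eq_one_iff_mul_comm.mp h
      · exfalso
        rw [h] at h3
        exact hzR (mem_subgroupOf.mp h3)
    have h2 : ∀ r : ↥Q, d r = 1 := by
      intro r
      have h3 : d r ∈ center ↥Q := mem_center_iff.mpr (fun q => h1 q r)
      rcases hcen _ h3 with h | h
      · exact h
      · exfalso
        apply hzR
        have := hdR r
        rw [h] at this
        exact this
    apply hαQ
    apply L.self
    intro x hx
    have h3 := congrArg Subtype.val (h2 ⟨x, hx⟩)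
    rw [hdv] at h3
    have h4 : α * x * α⁻¹ = x := by
      calc α * x * α⁻¹ = (α * x * α⁻¹ * x⁻¹) * x := by group
        _ = x := by
          have : α * (⟨x, hx⟩ : ↥Q) * α⁻¹ * ((⟨x, hx⟩ : ↥Q) : G)⁻¹ = 1 := h3
          simp only at this
          rw [this, one_mul]
    calc α * x = α * x * α⁻¹ * α := by group
      _ = x * α := by rw [h4]
  have hcenterR : center ↥Q ≤ R' := by
    intro y hy
    rcases hcen y hy with rfl | rfl
    · exact one_mem _
    · rw [hR', mem_subgroupOf]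
      exact hzR
  have hcenterQ₀ : center ↥Q ≤ Q₀' := by
    rw [← hCR, ← centralizer_univ]
    exact centralizer_le (Set.subset_univ _)
  -- duality
  have hd1 := Extraspecial.card_mul_card_inf_center hp hc hZ R'
  have hd2 := Extraspecial.card_mul_card_inf_center hp hc hZ Q₀'
  rw [inf_eq_right.mpr hcenterR, hCR] at hd1
  rw [inf_eq_right.mpr hcenterQ₀] at hd2
  have hcard : Nat.card (centralizer (Q₀' : Set ↥Q)) = Nat.card R' := by
    have hpos : 0 < Nat.card Q₀' := Nat.card_pos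
    have h3 : Nat.card Q₀' * Nat.card R' = Nat.card Q₀' * Nat.card (centralizer (Q₀' : Set ↥Q)) := by
      rw [← hd1, mul_comm (Nat.card Q₀'), ← hd2]
    exact (Nat.eq_of_mul_eq_mul_left hpos h3).symm
  have hRle : R' ≤ centralizer (Q₀' : Set ↥Q) := by
    rw [← hCR]
    intro r hr
    rw [mem_centralizer_iff]
    intro x hx
    exact (mem_centralizer_iff.mp hx r hr).symm
  have hRC : R' = centralizer (Q₀' : Set ↥Q) := Subgroup.eq_of_le_of_card_ge hRle hcard.le
  -- `R ≤ Q₀`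
  have hRQ₀ : ∀ q : ↥Q, d (d q) ∈ center ↥Q := by
    intro q
    have h1 : σ (d q) = (d q)⁻¹ := by
      apply Subtype.ext
      simp only [d, map_mul, map_inv]
      have h2 : ∀ y : ↥Q, σ (σ y) = y := fun y => σ.left_inv y
      have h3 : σ (σ q) = q := h2 q
      rw [h3]
      simp
    have h4 : d (d q) = (d q)⁻¹ * (d q)⁻¹ := by
      simp only [d] at h1 ⊢
      rw [h1]
    rw [h4]
    rcases L.sq _ (d q).2 with h | h
    · have : d q * d q = 1 := Subtype.ext h
      have h5 : (d q)⁻¹ * (d q)⁻¹ = (d q * d q)⁻¹ := by group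
      rw [h5, this, inv_one]
      exact one_mem _
    · have : d q * d q = ez := Subtype.ext h
      have h5 : (d q)⁻¹ * (d q)⁻¹ = (d q * d q)⁻¹ := by group
      rw [h5, this]
      exact inv_mem hezc
  have hRleQ₀ : R ≤ Q₀ := by
    rw [hR, closure_le]
    rintro _ ⟨q, hq, rfl⟩
    exact (hmemQ₀ (d ⟨q, hq⟩)).mpr (hRQ₀ ⟨q, hq⟩)
  apply le_antisymm
  · intro r hr
    refine ⟨⟨r, hRleQ₀ hr⟩, mem_center_iff.mpr ?_, rfl⟩
    rintro ⟨x, hx⟩
    have hrR' : (⟨r, hRQ hr⟩ : ↥Q) ∈ R' := by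
      rw [hR', mem_subgroupOf]; exact hr
    rw [hRC] at hrR'
    have := mem_centralizer_iff.mp hrR' ⟨x, hQ₀Q hx⟩ (by
      rw [hQ₀', SetLike.mem_coe, mem_subgroupOf]; exact hx)
    have h5 := congrArg (fun t : ↥Q => (t : G)) this
    exact Subtype.ext h5
  · rintro _ ⟨y, hy, rfl⟩
    have hyQ : (y : G) ∈ Q := hQ₀Q y.2
    have : (⟨y, hyQ⟩ : ↥Q) ∈ R' := by
      rw [hRC, mem_centralizer_iff]
      intro x hx
      have hx' : (x : G) ∈ Q₀ := by
        rw [hQ₀', SetLike.mem_coe, mem_subgroupOf] at hx; exact hx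
      have := mem_center_iff.mp hy ⟨x, hx'⟩
      have h5 := congrArg (fun t : ↥Q₀ => (t : G)) this
      exact Subtype.ext h5
    rw [hR', mem_subgroupOf] at this
    exact this

omit [Finite G] in
theorem part_b (L : Large Q z) (hαz : α * z = z * α) (Q₀ : Subgroup G)
    (hQ₀ : ∀ q, q ∈ Q₀ ↔ q ∈ Q ∧ α * q * α⁻¹ * q⁻¹ ∈ zpowers z)
    (h : ¬ Q₀ ≤ (Q ⊓ centralizer ({α} : Set G)) ⊔ zpowers z) : ∃ q ∈ Q, q * α * q⁻¹ = α * z := by
  obtain ⟨x, hx, hxn⟩ := SetLike.not_le_iff_exists.mp h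
  have hx' := (hQ₀ x).mp hx
  refine ⟨x, hx'.1, ?_⟩
  rcases (mem_zpowers_of_sq L.z_sq).mp hx'.2 with h1 | h1
  · exfalso
    apply hxn
    apply mem_sup_left
    refine ⟨hx'.1, mem_centralizer_singleton_iff.mpr ?_⟩
    have h2 : α * x * α⁻¹ = x := by
      calc α * x * α⁻¹ = (α * x * α⁻¹ * x⁻¹) * x := by group
        _ = x := by rw [h1, one_mul]
    calc x * α = (α * x * α⁻¹) * α := by rw [h2]
      _ = α * x := by group
  · have hzsq := L.z_sq
    have hzi : z⁻¹ = z := inv_eq_of_mul_eq_one_left hzsq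
    have h2 : x * α * x⁻¹ = z⁻¹ * α := by
      rw [← h1]; group
    rw [h2, hzi]
    exact hαz.symm

end Core

end Cfsg.Agent.Lib.PGroup.InvolutionOnExtraspecial
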