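import Mathlib
import Cfsg.Prelude.Def_Transfer
import Cfsg.Prelude.Def_Solvable
import Cfsg.Prelude.Def_MonsterType
import Cfsg.Agent.Lib.PGroup.LargeQ

/-!
# A pair of large extraspecial subgroups

`Q`, `Q' = g Q g⁻¹` with centres `⟨z⟩`, `⟨a⟩`, `a = g z g⁻¹ ∈ Q`, `a ≠ z`.
-/

namespace Cfsg.Agent.Lib.PGroup.LargePair

open Subgroup Cfsg.Agent.Lib.PGroup.LargeExtraspecial Cfsg.Agent.Lib.PGroup.LargeQ
open scoped commutatorElement

variable {G : Type*} [Group G] [Finite G]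

omit [Finite G] in
/-- The structure `Large` transported by conjugation. -/
theorem large_map {Q : Subgroup G} {z : G} (L : Large Q z) (g : G) :
    Large (Q.map (MulAut.conj g).toMonoidHom) (g * z * g⁻¹) := by
  have hmem : ∀ x, x ∈ Q.map (MulAut.conj g).toMonoidHom ↔ g⁻¹ * x * g ∈ Q := by
    intro x
    constructor
    · rintro ⟨y, hy, rfl⟩
      have : g⁻¹ * (MulAut.conj g).toMonoidHom y * g = y := by simp [mul_assoc]
      rwa [this]
    · intro h
      exact ⟨_, h, by simp [mul_assoc]⟩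
  have hmem' : ∀ x ∈ Q, g * x * g⁻¹ ∈ Q.map (MulAut.conj g).toMonoidHom := fun x hx =>
    ⟨x, hx, rfl⟩
  refine ⟨hmem' z L.z_mem, ?_, ?_, ?_, ?_, ?_, ?_, ?_⟩
  · calc g * z * g⁻¹ * (g * z * g⁻¹) = g * (z * z) * g⁻¹ := by group
      _ = 1 := by rw [L.z_sq]; group
  · intro h
    apply L.z_ne
    have : z = g⁻¹ * (g * z * g⁻¹) * g := by group
    rw [this, h]; group
  · intro x hx
    have h1 := L.z_comm _ ((hmem x).mp hx)
    calc x * (g * z * g⁻¹) = g * ((g⁻¹ * x * g) * z) * g⁻¹ := by group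
      _ = g * (z * (g⁻¹ * x * g)) * g⁻¹ := by rw [h1]
      _ = g * z * g⁻¹ * x := by group
  · intro y hy hyc
    have h2 := L.center _ ((hmem y).mp hy) (by
      intro x hx
      have h3 := hyc (g * x * g⁻¹) (hmem' x hx)
      calc x * (g⁻¹ * y * g) = g⁻¹ * ((g * x * g⁻¹) * y) * g := by group
        _ = g⁻¹ * (y * (g * x * g⁻¹)) * g := by rw [h3]
        _ = (g⁻¹ * y * g) * x := by group)
    rcases h2 with h2 | h2
    · left
      have : y = g * (g⁻¹ * y * g) * g⁻¹ := by group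
      rw [this, h2]; group
    · right
      have : y = g * (g⁻¹ * y * g) * g⁻¹ := by group
      rw [this, h2]
  · intro x hx y hy
    rcases L.comm _ ((hmem x).mp hx) _ ((hmem y).mp hy) with h | h
    · left
      calc x * y = g * ((g⁻¹ * x * g) * (g⁻¹ * y * g)) * g⁻¹ := by group
        _ = g * ((g⁻¹ * y * g) * (g⁻¹ * x * g)) * g⁻¹ := by rw [h]
        _ = y * x := by group
    · right
      calc x * y = g * ((g⁻¹ * x * g) * (g⁻¹ * y * g)) * g⁻¹ := by group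
        _ = g * (z * ((g⁻¹ * y * g) * (g⁻¹ * x * g))) * g⁻¹ := by rw [h]
        _ = g * z * g⁻¹ * (y * x) := by group
  · intro x hx
    have h3 : x * x = g * ((g⁻¹ * x * g) * (g⁻¹ * x * g)) * g⁻¹ := by group
    rcases L.sq _ ((hmem x).mp hx) with h | h
    · left
      rw [h3, h]; group
    · right
      rw [h3, h]
  · intro c hc
    rw [hmem]
    apply L.self
    intro x hx
    have h3 := hc (g * x * g⁻¹) (hmem' x hx)
    calc (g⁻¹ * c * g) * x = g⁻¹ * (c * (g * x * g⁻¹)) * g := by group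
      _ = g⁻¹ * ((g * x * g⁻¹) * c) * g := by rw [h3]
      _ = x * (g⁻¹ * c * g) := by group

/-- A pair of large extraspecial subgroups with `a ∈ Q`, `z ∈ Q'`. -/
structure Pair (Q Q' : Subgroup G) (z a : G) : Prop where
  L : Large Q z
  L' : Large Q' a
  p : IsPGroup 2 Q
  p' : IsPGroup 2 Q'
  N : ∀ c : G, c * z = z * c → ∀ y ∈ Q, c * y * c⁻¹ ∈ Q
  N' : ∀ c : G, c * a = a * c → ∀ y ∈ Q', c * y * c⁻¹ ∈ Q'
  a_mem : a ∈ Q
  z_mem' : z ∈ Q'
  ne : a ≠ z

theorem pair_of_conj {Q : Subgroup G} {z g : G} (L : Large Q z) (hp : IsPGroup 2 Q)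
    (hN : ∀ c : G, c * z = z * c → ∀ y ∈ Q, c * y * c⁻¹ ∈ Q) (ha : g * z * g⁻¹ ∈ Q)
    (hne : g * z * g⁻¹ ≠ z) : Pair Q (Q.map (MulAut.conj g).toMonoidHom) z (g * z * g⁻¹) where
  L := L
  L' := large_map L g
  p := hp
  p' := hp.map _
  N := hN
  N' := by
    rintro c hc _ ⟨y, hy, rfl⟩
    have hc' : (g⁻¹ * c * g) * z = z * (g⁻¹ * c * g) := by
      calc (g⁻¹ * c * g) * z = g⁻¹ * (c * (g * z * g⁻¹)) * g := by group
        _ = g⁻¹ * ((g * z * g⁻¹) * c) * g := by rw [hc]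
        _ = z * (g⁻¹ * c * g) := by group
    refine ⟨(g⁻¹ * c * g) * y * (g⁻¹ * c * g)⁻¹, hN _ hc' y hy, ?_⟩
    simp [mul_assoc]
  a_mem := ha
  z_mem' := ⟨g⁻¹ * z * g, mem_conj_of_conj_mem L hp hN ha, by simp [mul_assoc]⟩
  ne := hne

namespace Pair

variable {Q Q' : Subgroup G} {z a : G}

omit [Finite G] in
theorem symm (P : Pair Q Q' z a) : Pair Q' Q a z :=
  ⟨P.L', P.L, P.p', P.p, P.N', P.N, P.z_mem', P.a_mem, P.ne.symm⟩

/-- `A = Q ∩ C(a)`. -/
def A (Q : Subgroup G) (a : G) : Subgroup G := Q ⊓ centralizer ({a} : Set G)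

omit [Finite G] in
theorem mem_A {Q : Subgroup G} {a x : G} : x ∈ A Q a ↔ x ∈ Q ∧ x * a = a * x := by
  rw [A, mem_inf, mem_centralizer_singleton_iff]

omit [Finite G] in
theorem A_comm_z (P : Pair Q Q' z a) {x : G} (hx : x ∈ A Q a) : x * z = z * x :=
  P.L.z_comm x (mem_A.mp hx).1

/-- The product `A A'`. -/
def R (Q Q' : Subgroup G) (z a : G) : Subgroup G := A Q' z ⊔ A Q a

omit [Finite G] in
theorem A_le_R : A Q a ≤ R Q Q' z a := le_sup_right

omit [Finite G] in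
theorem A'_le_R : A Q' z ≤ R Q Q' z a := le_sup_left

omit [Finite G] in
theorem R_comm (Q Q' : Subgroup G) (z a : G) : R Q Q' z a = R Q' Q a z := sup_comm _ _

omit [Finite G] in
/-- The elements of `R` centralize `z` and `a`. -/
theorem R_le_centralizer (P : Pair Q Q' z a) {x : G} (hx : x ∈ R Q Q' z a) :
    x * z = z * x ∧ x * a = a * x := by
  have hle : R Q Q' z a ≤ centralizer ({z} : Set G) ⊓ centralizer ({a} : Set G) := by
    refine sup_le ?_ ?_
    · intro y hy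
      have h := mem_A.mp hy
      exact ⟨mem_centralizer_singleton_iff.mpr h.2,
        mem_centralizer_singleton_iff.mpr (P.L'.z_comm y h.1)⟩
    · intro y hy
      have h := mem_A.mp hy
      exact ⟨mem_centralizer_singleton_iff.mpr (P.L.z_comm y h.1),
        mem_centralizer_singleton_iff.mpr h.2⟩
  have h := hle hx
  exact ⟨mem_centralizer_singleton_iff.mp h.1, mem_centralizer_singleton_iff.mp h.2⟩

omit [Finite G] in
theorem conj_A_mem (P : Pair Q Q' z a) {c y : G} (hcz : c * z = z * c) (hca : c * a = a * c)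
    (hy : y ∈ A Q a) : c * y * c⁻¹ ∈ A Q a := by
  have h := mem_A.mp hy
  refine mem_A.mpr ⟨P.N c hcz y h.1, ?_⟩
  calc c * y * c⁻¹ * a = c * y * (c⁻¹ * a * c) * c⁻¹ := by group
    _ = c * y * a * c⁻¹ := by
        have : c⁻¹ * a * c = a := by
          rw [mul_assoc, ← hca]; group
        rw [this]
    _ = c * (a * y) * c⁻¹ := by rw [mul_assoc c y a, h.2]
    _ = (c * a) * y * c⁻¹ := by group
    _ = a * (c * y * c⁻¹) := by rw [hca]; group

omit [Finite G] in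
/-- Products: each element of `R` is a product `b b'` with `b ∈ A`, `b' ∈ A'`. -/
theorem exists_mul_of_mem_R (P : Pair Q Q' z a) {x : G} (hx : x ∈ R Q Q' z a) :
    ∃ b ∈ A Q a, ∃ b' ∈ A Q' z, x = b * b' := by
  rw [R, sup_comm, sup_eq_closure] at hx
  induction hx using closure_induction with
  | mem x hx =>
    rcases hx with hx | hx
    · exact ⟨x, hx, 1, one_mem _, by simp⟩
    · exact ⟨1, one_mem _, x, hx, by simp⟩
  | one => exact ⟨1, one_mem _, 1, one_mem _, by simp⟩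
  | mul x y _ _ hx hy =>
    obtain ⟨b₁, hb₁, b₁', hb₁', rfl⟩ := hx
    obtain ⟨b₂, hb₂, b₂', hb₂', rfl⟩ := hy
    have h1 := mem_A.mp hb₁'
    refine ⟨b₁ * (b₁' * b₂ * b₁'⁻¹), mul_mem hb₁ (conj_A_mem P h1.2 (P.L'.z_comm _ h1.1) hb₂),
      b₁' * b₂', mul_mem hb₁' hb₂', by group⟩
  | inv x _ hx =>
    obtain ⟨b, hb, b', hb', rfl⟩ := hx
    have h1 := mem_A.mp (inv_mem hb')
    refine ⟨b'⁻¹ * b⁻¹ * (b'⁻¹)⁻¹, conj_A_mem P h1.2 (P.L'.z_comm _ h1.1) (inv_mem hb),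
      b'⁻¹, inv_mem hb', by group⟩

theorem R_isPGroup (P : Pair Q Q' z a) : IsPGroup 2 (R Q Q' z a) := by
  have hp : Fact (Nat.Prime 2) := ⟨Nat.prime_two⟩
  refine IsPGroup.to_sup_of_normal_right' (P.p'.to_le inf_le_left) (P.p.to_le inf_le_left) ?_
  apply le_normalizer_of_forall
  intro c hc y hy
  have h := mem_A.mp hc
  exact conj_A_mem P h.2 (P.L'.z_comm _ h.1) hy

/-! ### `E = Q ∩ Q'` -/

omit [Finite G] in
theorem inf_eq_A_inf_A (P : Pair Q Q' z a) : A Q' z ⊓ A Q a = Q ⊓ Q' := by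
  ext x
  simp only [mem_inf, mem_A]
  constructor
  · rintro ⟨⟨h1, _⟩, ⟨h3, _⟩⟩
    exact ⟨h3, h1⟩
  · rintro ⟨h1, h2⟩
    exact ⟨⟨h2, P.L.z_comm x h1⟩, ⟨h1, P.L'.z_comm x h2⟩⟩

omit [Finite G] in
theorem E_le_A (P : Pair Q Q' z a) : Q ⊓ Q' ≤ A Q a := by
  rw [← inf_eq_A_inf_A P]
  exact inf_le_right

omit [Finite G] in
theorem E_le_A' (P : Pair Q Q' z a) : Q ⊓ Q' ≤ A Q' z := by
  rw [← inf_eq_A_inf_A P]
  exact inf_le_left

omit [Finite G] in
theorem z_mem_E (P : Pair Q Q' z a) : z ∈ Q ⊓ Q' := ⟨P.L.z_mem, P.z_mem'⟩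

omit [Finite G] in
theorem a_mem_E (P : Pair Q Q' z a) : a ∈ Q ⊓ Q' := ⟨P.a_mem, P.L'.z_mem⟩

omit [Finite G] in
/-- `E` is abelian. -/
theorem E_comm (P : Pair Q Q' z a) {x y : G} (hx : x ∈ Q ⊓ Q') (hy : y ∈ Q ⊓ Q') :
    x * y = y * x := by
  rcases P.L.comm x hx.1 y hy.1 with h | h
  · exact h
  rcases P.L'.comm x hx.2 y hy.2 with h' | h'
  · exact h'
  exfalso
  apply P.ne
  rw [h] at h'
  exact (mul_right_cancel h').symm

omit [Finite G] in
/-- `E` has exponent two. -/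
theorem E_sq (P : Pair Q Q' z a) {x : G} (hx : x ∈ Q ⊓ Q') : x * x = 1 := by
  rcases P.L.sq x hx.1 with h | h
  · exact h
  rcases P.L'.sq x hx.2 with h' | h'
  · exact h'
  exact absurd (h'.symm.trans h) P.ne

omit [Finite G] in
/-- `[A, A'] ≤ E`. -/
theorem comm_A_A' (P : Pair Q Q' z a) {b b' : G} (hb : b ∈ A Q a) (hb' : b' ∈ A Q' z) :
    b * b' * b⁻¹ * b'⁻¹ ∈ Q ⊓ Q' := by
  have h1 := mem_A.mp hb
  have h2 := mem_A.mp hb'
  constructor
  · have := P.N b' h2.2 b⁻¹ (inv_mem h1.1)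
    have h3 : b * b' * b⁻¹ * b'⁻¹ = b * (b' * b⁻¹ * b'⁻¹) := by group
    rw [h3]
    exact mul_mem h1.1 this
  · have := P.N' b h1.2 b' h2.1
    exact Subgroup.mul_mem _ this (Subgroup.inv_mem _ h2.1)

omit [Finite G] in
/-- `R` normalizes `E`. -/
theorem conj_E_mem (P : Pair Q Q' z a) {c e : G} (hc : c ∈ R Q Q' z a) (he : e ∈ Q ⊓ Q') :
    c * e * c⁻¹ ∈ Q ⊓ Q' := by
  have h := R_le_centralizer P hc
  exact ⟨P.N c h.1 e he.1, P.N' c h.2 e he.2⟩

omit [Finite G] in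
theorem comm_A_A (P : Pair Q Q' z a) {b c : G} (hb : b ∈ A Q a) (hc : c ∈ A Q a) :
    b * c * b⁻¹ * c⁻¹ ∈ Q ⊓ Q' := by
  rcases P.L.comm b (mem_A.mp hb).1 c (mem_A.mp hc).1 with h | h
  · rw [h]
    have : c * b * b⁻¹ * c⁻¹ = 1 := by group
    rw [this]
    exact one_mem _
  · rw [h]
    have : z * (c * b) * b⁻¹ * c⁻¹ = z := by group
    rw [this]
    exact z_mem_E P

omit [Finite G] in
/-- Commutators of elements of `R` lie in `E`. -/
theorem comm_R_mem (P : Pair Q Q' z a) {x y : G} (hx : x ∈ R Q Q' z a) (hy : y ∈ R Q Q' z a) :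
    x * y * x⁻¹ * y⁻¹ ∈ Q ⊓ Q' := by
  -- generators in the second variable
  have hE : ∀ {b c : G}, (b ∈ A Q a ∨ b ∈ A Q' z) → (c ∈ A Q a ∨ c ∈ A Q' z) →
      b * c * b⁻¹ * c⁻¹ ∈ Q ⊓ Q' := by
    rintro b c (hb | hb) (hc | hc)
    · exact comm_A_A P hb hc
    · exact comm_A_A' P hb hc
    · have := comm_A_A' P hc hb
      have h2 : b * c * b⁻¹ * c⁻¹ = (c * b * c⁻¹ * b⁻¹)⁻¹ := by group
      rw [h2]
      exact inv_mem this
    · have hE' := (inf_comm Q Q') ▸ comm_A_A P.symm hb hc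
      exact hE'
  have hS : ∀ c : G, (c ∈ A Q a ∨ c ∈ A Q' z) → ∀ x ∈ R Q Q' z a, x * c * x⁻¹ * c⁻¹ ∈ Q ⊓ Q' := by
    intro c hc x hx
    have hx' := hx
    rw [R, sup_eq_closure] at hx'
    induction hx' using closure_induction with
    | mem x h =>
      exact hE (h.elim Or.inr Or.inl) hc
    | one => simp [one_mem]
    | mul x y h1 h2 ih1 ih2 =>
      have hxR : x ∈ R Q Q' z a := by rw [R, sup_eq_closure]; exact h1
      have hyR : y ∈ R Q Q' z a := by rw [R, sup_eq_closure]; exact h2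
      have h3 : x * y * c * (x * y)⁻¹ * c⁻¹ =
          (x * (y * c * y⁻¹ * c⁻¹) * x⁻¹) * (x * c * x⁻¹ * c⁻¹) := by group
      rw [h3]
      exact mul_mem (conj_E_mem P hxR (ih2 hyR)) (ih1 hxR)
    | inv x h1 ih1 =>
      have hxR : x ∈ R Q Q' z a := by rw [R, sup_eq_closure]; exact h1
      have h3 : x⁻¹ * c * x⁻¹⁻¹ * c⁻¹ = x⁻¹ * (x * c * x⁻¹ * c⁻¹)⁻¹ * x⁻¹⁻¹ := by group
      rw [h3]
      exact conj_E_mem P (inv_mem hxR) (inv_mem (ih1 hxR))
  have hy' := hy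
  rw [R, sup_eq_closure] at hy'
  induction hy' using closure_induction with
  | mem y h =>
    exact hS y (h.elim Or.inr Or.inl) x hx
  | one => simp [one_mem]
  | mul y w h1 h2 ih1 ih2 =>
    have hyR : y ∈ R Q Q' z a := by rw [R, sup_eq_closure]; exact h1
    have hwR : w ∈ R Q Q' z a := by rw [R, sup_eq_closure]; exact h2
    have h3 : x * (y * w) * x⁻¹ * (y * w)⁻¹ =
        (x * y * x⁻¹ * y⁻¹) * (y * (x * w * x⁻¹ * w⁻¹) * y⁻¹) := by group
    rw [h3]
    exact mul_mem (ih1 hyR) (conj_E_mem P hyR (ih2 hwR))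
  | inv y h1 ih1 =>
    have hyR : y ∈ R Q Q' z a := by rw [R, sup_eq_closure]; exact h1
    have h3 : x * y⁻¹ * x⁻¹ * y⁻¹⁻¹ = y⁻¹ * (x * y * x⁻¹ * y⁻¹)⁻¹ * y⁻¹⁻¹ := by group
    rw [h3]
    exact conj_E_mem P (inv_mem hyR) (inv_mem (ih1 hyR))

omit [Finite G] in
theorem sq_A_mem (P : Pair Q Q' z a) {b : G} (hb : b ∈ A Q a) : b * b ∈ Q ⊓ Q' := by
  rcases P.L.sq b (mem_A.mp hb).1 with h | h
  · rw [h]; exact one_mem _
  · rw [h]; exact z_mem_E P

omit [Finite G] in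
/-- Squares of elements of `R` lie in `E`. -/
theorem sq_R_mem (P : Pair Q Q' z a) {x : G} (hx : x ∈ R Q Q' z a) : x * x ∈ Q ⊓ Q' := by
  obtain ⟨b, hb, b', hb', rfl⟩ := exists_mul_of_mem_R P hx
  have h1 := sq_A_mem P hb
  have h2 : b' * b' ∈ Q ⊓ Q' := (inf_comm Q Q') ▸ sq_A_mem P.symm hb'
  have h3 := comm_A_A' P (inv_mem hb) hb'
  have h4 : b * b' * (b * b') = (b * b) * (b⁻¹ * b' * b⁻¹⁻¹ * b'⁻¹) * (b' * b') := by group
  rw [h4]
  exact mul_mem (mul_mem h1 h3) h2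

/-! ### The four-group `V = ⟨z, a⟩` -/

/-- `V = ⟨z, a⟩`. -/
def V (P : Pair Q Q' z a) : Subgroup G := four P.L.z_sq P.L'.z_sq (P.L.z_comm a P.a_mem)

omit [Finite G] in
theorem mem_V (P : Pair Q Q' z a) {x : G} : x ∈ P.V ↔ x = 1 ∨ x = z ∨ x = a ∨ x = a * z := Iff.rfl

omit [Finite G] in
theorem z_mem_V (P : Pair Q Q' z a) : z ∈ P.V := Or.inr (Or.inl rfl)

omit [Finite G] in
theorem a_mem_V (P : Pair Q Q' z a) : a ∈ P.V := Or.inr (Or.inr (Or.inl rfl))

omit [Finite G] in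
theorem closure_eq_V (P : Pair Q Q' z a) : closure ({z, a} : Set G) = P.V := by
  apply le_antisymm
  · rw [closure_le]
    rintro x (rfl | rfl)
    · exact P.z_mem_V
    · exact P.a_mem_V
  · intro x hx
    have hz : z ∈ closure ({z, a} : Set G) := subset_closure (by simp)
    have ha : a ∈ closure ({z, a} : Set G) := subset_closure (by simp)
    rcases (P.mem_V).mp hx with rfl | rfl | rfl | rfl
    · exact one_mem _
    · exact hz
    · exact ha
    · exact mul_mem ha hz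

omit [Finite G] in
theorem mem_centralizer_V (P : Pair Q Q' z a) {x : G} :
    x ∈ centralizer (P.V : Set G) ↔ x * z = z * x ∧ x * a = a * x := by
  rw [mem_centralizer_iff]
  constructor
  · intro h
    exact ⟨(h z P.z_mem_V).symm, (h a P.a_mem_V).symm⟩
  · rintro ⟨h1, h2⟩ v hv
    rcases (P.mem_V).mp hv with rfl | rfl | rfl | rfl
    · simp
    · exact h1.symm
    · exact h2.symm
    · rw [mul_assoc, h1.symm, ← mul_assoc, h2.symm, mul_assoc]

/-- Elements of `Q` normalize `V`. -/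
theorem conj_V_mem (P : Pair Q Q' z a) {t v : G} (ht : t ∈ Q) (hv : v ∈ P.V) :
    t * v * t⁻¹ ∈ P.V := by
  have hz : t * z * t⁻¹ = z := by rw [P.L.z_comm t ht]; group
  have hza := P.L.z_comm a P.a_mem
  have ha : t * a * t⁻¹ = a ∨ t * a * t⁻¹ = a * z := by
    rcases P.L.comm t ht a P.a_mem with h | h
    · left; rw [h]; group
    · right; rw [h, ← hza.symm]; group
  rcases (P.mem_V).mp hv with rfl | rfl | rfl | rfl
  · simp [one_mem]
  · rw [hz]; exact P.z_mem_V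
  · rcases ha with h | h <;> rw [h]
    · exact P.a_mem_V
    · exact mul_mem P.a_mem_V P.z_mem_V
  · have h3 : t * (a * z) * t⁻¹ = (t * a * t⁻¹) * (t * z * t⁻¹) := by group
    rw [h3, hz]
    rcases ha with h | h <;> rw [h]
    · exact mul_mem P.a_mem_V P.z_mem_V
    · exact mul_mem (mul_mem P.a_mem_V P.z_mem_V) P.z_mem_V

omit [Finite G] in
theorem V_symm (P : Pair Q Q' z a) : P.symm.V = P.V := by
  rw [← closure_eq_V, ← closure_eq_V, Set.pair_comm]

theorem X_le_normalizer_V (P : Pair Q Q' z a) : Q ⊔ Q' ≤ normalizer (P.V : Set G) := by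
  refine sup_le ?_ ?_
  · intro t ht
    exact mem_normalizer_of_forall (fun v hv => P.conj_V_mem ht hv)
  · intro t ht
    apply mem_normalizer_of_forall
    intro v hv
    have h1 := P.symm.conj_V_mem ht (by rw [V_symm]; exact hv)
    rw [V_symm] at h1
    exact h1

/-- `[X, E] ≤ V`. -/
theorem comm_X_E_mem (P : Pair Q Q' z a) {x e : G} (hx : x ∈ Q ⊔ Q') (he : e ∈ Q ⊓ Q') :
    x * e * x⁻¹ * e⁻¹ ∈ P.V := by
  have hN := X_le_normalizer_V P
  have hx' := hx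
  rw [sup_eq_closure] at hx'
  induction hx' using closure_induction with
  | mem x h =>
    rcases h with h | h
    · rcases P.L.comm x h e he.1 with h' | h'
      · rw [h']
        have : e * x * x⁻¹ * e⁻¹ = 1 := by group
        rw [this]; exact one_mem _
      · rw [h']
        have : z * (e * x) * x⁻¹ * e⁻¹ = z := by group
        rw [this]; exact P.z_mem_V
    · rcases P.L'.comm x h e he.2 with h' | h'
      · rw [h']
        have : e * x * x⁻¹ * e⁻¹ = 1 := by group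
        rw [this]; exact one_mem _
      · rw [h']
        have : a * (e * x) * x⁻¹ * e⁻¹ = a := by group
        rw [this]; exact P.a_mem_V
  | one => simp [one_mem]
  | mul x y h1 h2 ih1 ih2 =>
    have hxX : x ∈ Q ⊔ Q' := by rw [sup_eq_closure]; exact h1
    have hyX : y ∈ Q ⊔ Q' := by rw [sup_eq_closure]; exact h2
    have h3 : x * y * e * (x * y)⁻¹ * e⁻¹ =
        (x * (y * e * y⁻¹ * e⁻¹) * x⁻¹) * (x * e * x⁻¹ * e⁻¹) := by group
    rw [h3]
    exact mul_mem ((mem_normalizer_iff.mp (hN hxX) _).mp (ih2 hyX)) (ih1 hxX)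
  | inv x h1 ih1 =>
    have hxX : x ∈ Q ⊔ Q' := by rw [sup_eq_closure]; exact h1
    have h3 : x⁻¹ * e * x⁻¹⁻¹ * e⁻¹ = x⁻¹ * (x * e * x⁻¹ * e⁻¹)⁻¹ * x⁻¹⁻¹ := by group
    rw [h3]
    exact (mem_normalizer_iff.mp (inv_mem (hN hxX)) _).mp (inv_mem (ih1 hxX))

/-! ### The centre of `R` -/

/-- An element of `R` centralizing `A = C_Q(a)` lies in `V`. -/
theorem mem_V_of_comm (P : Pair Q Q' z a) {c : G} (hcz : c * z = z * c)
    (hcA : ∀ b ∈ A Q a, c * b = b * c) : c ∈ P.V := by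
  have ha1 : a ≠ 1 := P.L'.z_ne
  obtain ⟨u, hu, hua⟩ := P.L.exists_noncomm P.a_mem ha1 P.ne
  exact P.L.eq_of_comm_of_normalizes P.a_mem P.L'.z_sq hu hua hcz (P.N c hcz)
    (fun b hb hba => hcA b (mem_A.mpr ⟨hb, hba⟩))

omit [Finite G] in
theorem V_le_R (P : Pair Q Q' z a) : P.V ≤ R Q Q' z a := by
  intro x hx
  exact A_le_R ((E_le_A P) (by
    rcases (P.mem_V).mp hx with rfl | rfl | rfl | rfl
    · exact one_mem _
    · exact z_mem_E P
    · exact a_mem_E P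
    · exact mul_mem (a_mem_E P) (z_mem_E P)))

omit [Finite G] in
theorem comm_V_of_mem_R (P : Pair Q Q' z a) {x v : G} (hx : x ∈ R Q Q' z a) (hv : v ∈ P.V) :
    x * v = v * x :=
  (mem_centralizer_iff.mp ((P.mem_centralizer_V).mpr (R_le_centralizer P hx)) v hv).symm

theorem center_R_eq (P : Pair Q Q' z a) :
    (center ↥(R Q Q' z a)).map (R Q Q' z a).subtype = P.V := by
  apply le_antisymm
  · rintro _ ⟨c, hc, rfl⟩
    have hc' : ∀ y ∈ R Q Q' z a, (c : G) * y = y * c := fun y hy =>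
      congrArg Subtype.val ((mem_center_iff.mp hc ⟨y, hy⟩).symm)
    exact mem_V_of_comm P (hc' z (V_le_R P P.z_mem_V)) (fun b hb => hc' b (A_le_R hb))
  · intro v hv
    refine ⟨⟨v, V_le_R P hv⟩, mem_center_iff.mpr ?_, rfl⟩
    rintro ⟨x, hx⟩
    exact Subtype.ext (comm_V_of_mem_R P hx hv)

theorem E_le_Z2 (P : Pair Q Q' z a) :
    Q ⊓ Q' ≤ (Subgroup.upperCentralSeries ↥(R Q Q' z a) 2).map (R Q Q' z a).subtype := by
  intro e he
  have heR : e ∈ R Q Q' z a := A_le_R (E_le_A P he)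
  refine ⟨⟨e, heR⟩, SetLike.mem_coe.mpr ?_, rfl⟩
  refine (Subgroup.mem_upperCentralSeries_succ_iff (n := 1)).mpr ?_
  rintro ⟨y, hy⟩
  rw [Subgroup.upperCentralSeries_one]
  -- `[e, y] ∈ V`
  have h1 : e * y * e⁻¹ * y⁻¹ ∈ P.V := by
    have hcomm : ∀ {t : G}, (t ∈ A Q a ∨ t ∈ A Q' z) → e * t * e⁻¹ * t⁻¹ ∈ P.V := by
      intro t ht
      rcases ht with ht | ht
      · rcases P.L.comm e he.1 t (mem_A.mp ht).1 with h' | h'
        · rw [h']
          have : t * e * e⁻¹ * t⁻¹ = 1 := by group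
          rw [this]; exact one_mem _
        · rw [h']
          have : z * (t * e) * e⁻¹ * t⁻¹ = z := by group
          rw [this]; exact P.z_mem_V
      · rcases P.L'.comm e he.2 t (mem_A.mp ht).1 with h' | h'
        · rw [h']
          have : t * e * e⁻¹ * t⁻¹ = 1 := by group
          rw [this]; exact one_mem _
        · rw [h']
          have : a * (t * e) * e⁻¹ * t⁻¹ = a := by group
          rw [this]; exact P.a_mem_V
    obtain ⟨b, hb, b', hb', rfl⟩ := exists_mul_of_mem_R P hy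
    have h2 := hcomm (Or.inl hb)
    have h3 := hcomm (Or.inr hb')
    have h4 : e * (b * b') * e⁻¹ * (b * b')⁻¹ =
        (e * b * e⁻¹ * b⁻¹) * (b * (e * b' * e⁻¹ * b'⁻¹) * b⁻¹) := by group
    rw [h4]
    refine mul_mem h2 ?_
    have hbc := comm_V_of_mem_R P (A_le_R hb) h3
    rw [hbc]
    simpa using h3
  rw [mem_center_iff]
  rintro ⟨x, hx⟩
  exact Subtype.ext (comm_V_of_mem_R P hx h1)

theorem Z3_eq_top (P : Pair Q Q' z a) : Subgroup.upperCentralSeries ↥(R Q Q' z a) 3 = ⊤ := by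
  rw [eq_top_iff]
  rintro ⟨x, hx⟩ -
  refine (Subgroup.mem_upperCentralSeries_succ_iff (n := 2)).mpr ?_
  rintro ⟨y, hy⟩
  obtain ⟨t, ht, hte⟩ := E_le_Z2 P (comm_R_mem P hx hy)
  have : t = ⟨x, hx⟩ * ⟨y, hy⟩ * (⟨x, hx⟩ : ↥(R Q Q' z a))⁻¹ * (⟨y, hy⟩ : ↥(R Q Q' z a))⁻¹ :=
    Subtype.ext hte
  rw [commutatorElement_def, ← this]
  exact ht

end Pair

/-- The `Pair` structure from the large extraspecial hypotheses. -/
theorem pair_of_large {Q : Subgroup G} (hQ : Cfsg.IsLargeExtraspecial Q) {z g : G}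
    (hz : (center ↥Q).map Q.subtype = zpowers z) (hz2 : orderOf z = 2)
    (hgH : g ∉ centralizer ({z} : Set G)) (hgQ : g * z * g⁻¹ ∈ Q) :
    Pair Q (Q.map (MulAut.conj g).toMonoidHom) z (g * z * g⁻¹) := by
  obtain ⟨z', hZ, L⟩ := exists_large hQ.1 hQ.2.1
  have hzm : z ∈ (center ↥Q).map Q.subtype := by
    rw [hz]; exact mem_zpowers z
  have hz1 : z ≠ 1 := by
    rintro rfl
    simp at hz2
  have hzz : z = z' := ((hZ z).mp hzm).resolve_left hz1
  subst hzz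
  have hN : ∀ c : G, c * z = z * c → ∀ y ∈ Q, c * y * c⁻¹ ∈ Q := by
    intro c hc y hy
    have hcC : c ∈ centralizer (((center ↥Q).map Q.subtype : Subgroup G) : Set G) := by
      rw [mem_centralizer_iff]
      intro x hx
      rcases (hZ x).mp hx with rfl | rfl
      · simp
      · exact hc.symm
    exact (mem_normalizer_iff.mp (hQ.2.2.1 hcC) y).mp hy
  refine pair_of_conj L hQ.1.1.1 hN hgQ ?_
  intro h
  apply hgH
  rw [mem_centralizer_singleton_iff]
  calc g * z = g * z * g⁻¹ * g := by group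
    _ = z * g := by rw [h]

end Cfsg.Agent.Lib.PGroup.LargePair
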