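import Mathlib
import Cfsg.Prelude.Def_Transfer
import Cfsg.Prelude.Def_Solvable
import Cfsg.Prelude.Def_MonsterType
import Cfsg.Agent.Lib.Basic.PCore
import Cfsg.Agent.Lib.PGroup.LargePair

/-!
# The subgroup `X = ⟨Q, Q'⟩` generated by a pair of large extraspecial subgroups

`X/R ≅ S₃`, where `R = C_X(V)`.
-/

namespace Cfsg.Agent.Lib.PGroup.LargePair

open Subgroup Cfsg.Agent.Lib.PGroup.LargeExtraspecial Cfsg.Agent.Lib.PGroup.LargeQ
open scoped commutatorElement

/-! ## A group generated by two involutions with `(uv)³ = 1` -/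

theorem six_of_relations {Γ : Type*} [Group Γ] {u v : Γ} (h1 : u * u = 1) (h2 : v * v = 1)
    (h3 : u * v * u = v * u * v) (hgen : closure ({u, v} : Set Γ) = ⊤) (x : Γ) :
    x = 1 ∨ x = u ∨ x = v ∨ x = u * v ∨ x = v * u ∨ x = u * v * u := by
  have hiu : u⁻¹ = u := inv_eq_of_mul_eq_one_left h1
  have hiv : v⁻¹ = v := inv_eq_of_mul_eq_one_left h2
  have hu' : ∀ y : Γ, u * (u * y) = y := fun y => by rw [← mul_assoc, h1, one_mul]
  have hv' : ∀ y : Γ, v * (v * y) = y := fun y => by rw [← mul_assoc, h2, one_mul]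
  have h4 : v * (u * v) = u * (v * u) := by
    rw [← mul_assoc, ← mul_assoc]; exact h3.symm
  have h5 : ∀ y : Γ, v * (u * (v * y)) = u * (v * (u * y)) := fun y => by
    rw [← mul_assoc v u, ← mul_assoc (v * u), ← mul_assoc u v, ← mul_assoc (u * v), h3]
  have hx : x ∈ closure ({u, v} : Set Γ) := by rw [hgen]; trivial
  have step : ∀ t ∈ ({u, v} : Set Γ), ∀ y : Γ,
      (y = 1 ∨ y = u ∨ y = v ∨ y = u * v ∨ y = v * u ∨ y = u * v * u) →
      (t * y = 1 ∨ t * y = u ∨ t * y = v ∨ t * y = u * v ∨ t * y = v * u ∨ t * y = u * v * u) := by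
    rintro t (rfl | rfl) y (rfl | rfl | rfl | rfl | rfl | rfl) <;>
      simp only [mul_assoc, mul_one, h1, h2, hu', hv', h4, h5, true_or, or_true]
  induction hx using closure_induction_left with
  | one => exact Or.inl rfl
  | mul_left t ht y hy ih => exact step t ht y ih
  | inv_mul_cancel t ht y hy ih =>
    rcases ht with rfl | ht
    · rw [hiu]; exact step _ (Or.inl rfl) y ih
    · rw [Set.mem_singleton_iff] at ht
      subst ht
      rw [hiv]; exact step _ (Or.inr rfl) y ih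

/-- Six cosets. -/
theorem coset_six {G : Type*} [Group G] {X R Q Q' : Subgroup G} {u v : G} (hX : X = Q ⊔ Q')
    (hN : ∀ x ∈ X, ∀ r ∈ R, x * r * x⁻¹ ∈ R) (hu : u ∈ Q) (hv : v ∈ Q')
    (hQ : ∀ t ∈ Q, t ∈ R ∨ t * u⁻¹ ∈ R) (hQ' : ∀ t ∈ Q', t ∈ R ∨ t * v⁻¹ ∈ R) (hu2 : u * u ∈ R)
    (hv2 : v * v ∈ R) (hrel : (u * v * u⁻¹) * (v * u * v⁻¹)⁻¹ ∈ R) :
    ∀ x ∈ X, ∃ s, (s = 1 ∨ s = u ∨ s = v ∨ s = u * v ∨ s = v * u ∨ s = u * v * u) ∧ x⁻¹ * s ∈ R := by
  have hQX : Q ≤ X := hX ▸ le_sup_left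
  have hQ'X : Q' ≤ X := hX ▸ le_sup_right
  have huX := hQX hu
  have hvX := hQ'X hv
  haveI hR' : (R.subgroupOf X).Normal := by
    refine ⟨fun r hr c => ?_⟩
    rw [mem_subgroupOf] at hr ⊢
    exact hN c c.2 r hr
  let π : ↥X →* ↥X ⧸ R.subgroupOf X := QuotientGroup.mk' _
  have hπ : ∀ x y : ↥X, π x = π y ↔ (x : G)⁻¹ * y ∈ R := by
    intro x y
    change ((x : ↥X ⧸ R.subgroupOf X) = y) ↔ _
    rw [QuotientGroup.eq, mem_subgroupOf]
    rfl
  have hπ1 : ∀ x : ↥X, π x = 1 ↔ (x : G) ∈ R := by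
    intro x
    change ((x : ↥X ⧸ R.subgroupOf X) = 1) ↔ _
    rw [QuotientGroup.eq_one_iff, mem_subgroupOf]
  set nu : ↥X := ⟨u, huX⟩ with hnu
  set nv : ↥X := ⟨v, hvX⟩ with hnv
  have h1 : π nu * π nu = 1 := by
    rw [← map_mul, hπ1]
    exact hu2
  have h2 : π nv * π nv = 1 := by
    rw [← map_mul, hπ1]
    exact hv2
  have hiu : (π nu)⁻¹ = π nu := inv_eq_of_mul_eq_one_left h1
  have hiv : (π nv)⁻¹ = π nv := inv_eq_of_mul_eq_one_left h2
  have h3 : π nu * π nv * π nu = π nv * π nu * π nv := by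
    have h4 : π (nu * nv * nu⁻¹ * (nv * nu * nv⁻¹)⁻¹) = 1 := by
      rw [hπ1]
      exact hrel
    rw [map_mul, map_inv, mul_inv_eq_one] at h4
    simp only [map_mul, map_inv, hiu, hiv] at h4
    exact h4
  have hgen : closure ({π nu, π nv} : Set (↥X ⧸ R.subgroupOf X)) = ⊤ := by
    set D := closure ({π nu, π nv} : Set (↥X ⧸ R.subgroupOf X)) with hD
    have hnuD : π nu ∈ D := subset_closure (by simp)
    have hnvD : π nv ∈ D := subset_closure (by simp)
    have hsub : Q ⊔ Q' ≤ (D.comap π).map X.subtype := by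
      refine sup_le ?_ ?_
      · intro t ht
        refine ⟨⟨t, hQX ht⟩, ?_, rfl⟩
        rw [SetLike.mem_coe, mem_comap]
        rcases hQ t ht with h | h
        · rw [(hπ1 ⟨t, hQX ht⟩).mpr h]
          exact one_mem _
        · have : π ⟨t, hQX ht⟩ = π nu := by
            rw [hπ]
            have h5 : t⁻¹ * u = t⁻¹ * (t * u⁻¹)⁻¹ * t⁻¹⁻¹ := by group
            change t⁻¹ * u ∈ R
            rw [h5]
            exact hN t⁻¹ (inv_mem (hQX ht)) _ (inv_mem h)
          rw [this]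
          exact hnuD
      · intro t ht
        refine ⟨⟨t, hQ'X ht⟩, ?_, rfl⟩
        rw [SetLike.mem_coe, mem_comap]
        rcases hQ' t ht with h | h
        · rw [(hπ1 ⟨t, hQ'X ht⟩).mpr h]
          exact one_mem _
        · have : π ⟨t, hQ'X ht⟩ = π nv := by
            rw [hπ]
            have h5 : t⁻¹ * v = t⁻¹ * (t * v⁻¹)⁻¹ * t⁻¹⁻¹ := by group
            change t⁻¹ * v ∈ R
            rw [h5]
            exact hN t⁻¹ (inv_mem (hQ'X ht)) _ (inv_mem h)
          rw [this]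
          exact hnvD
    rw [eq_top_iff]
    rintro y -
    obtain ⟨x, rfl⟩ := QuotientGroup.mk'_surjective _ y
    have hx2 : (x : G) ∈ (D.comap π).map X.subtype := hsub (hX ▸ x.2)
    obtain ⟨x', hx', hxx'⟩ := hx2
    have : x' = x := Subtype.ext hxx'
    rw [← this]
    exact hx'
  intro x hx
  have hs := six_of_relations h1 h2 h3 hgen (π ⟨x, hx⟩)
  rcases hs with h | h | h | h | h | h
  · refine ⟨1, Or.inl rfl, ?_⟩
    rw [mul_one]
    exact inv_mem ((hπ1 ⟨x, hx⟩).mp h)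
  · exact ⟨u, Or.inr (Or.inl rfl), (hπ _ nu).mp h⟩
  · exact ⟨v, Or.inr (Or.inr (Or.inl rfl)), (hπ _ nv).mp h⟩
  · rw [← map_mul] at h
    exact ⟨u * v, Or.inr (Or.inr (Or.inr (Or.inl rfl))), (hπ _ (nu * nv)).mp h⟩
  · rw [← map_mul] at h
    exact ⟨v * u, Or.inr (Or.inr (Or.inr (Or.inr (Or.inl rfl)))), (hπ _ (nv * nu)).mp h⟩
  · rw [← map_mul, ← map_mul] at h
    exact ⟨u * v * u, Or.inr (Or.inr (Or.inr (Or.inr (Or.inr rfl)))), (hπ _ (nu * nv * nu)).mp h⟩

/-- A normal `2`-subgroup lies in the kernel of a surjection onto `S₃`. -/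
theorem normal_pGroup_le_ker {Γ : Type*} [Group Γ] (f : Γ →* Equiv.Perm (Fin 3))
    (hf : Function.Surjective f) {T : Subgroup Γ} (hT : T.Normal) (hp : IsPGroup 2 T) :
    T ≤ f.ker := by
  intro t ht
  rw [MonoidHom.mem_ker]
  by_contra hne
  have key : ∀ τ : Equiv.Perm (Fin 3), τ ≠ 1 → ∃ σ : Equiv.Perm (Fin 3),
      τ * (σ * τ * σ⁻¹) ≠ 1 ∧ (τ * (σ * τ * σ⁻¹)) ^ 3 = 1 := by decide +kernel
  obtain ⟨σ, h1, h2⟩ := key _ hne
  obtain ⟨s, rfl⟩ := hf σ
  have he : t * (s * t * s⁻¹) ∈ T := mul_mem ht (hT.conj_mem t ht s)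
  have hfe : f (t * (s * t * s⁻¹)) = f t * (f s * f t * (f s)⁻¹) := by
    simp [map_mul, map_inv]
  rw [← hfe] at h1 h2
  obtain ⟨k, hk⟩ := hp ⟨_, he⟩
  have hk' : (t * (s * t * s⁻¹)) ^ 2 ^ k = 1 := congrArg Subtype.val hk
  have h3 : (f (t * (s * t * s⁻¹))) ^ 2 ^ k = 1 := by
    rw [← map_pow, hk', map_one]
  have hord : orderOf (f (t * (s * t * s⁻¹))) = 3 := by
    have hpp : Fact (Nat.Prime 3) := ⟨Nat.prime_three⟩
    exact orderOf_eq_prime h2 h1
  have h4 := orderOf_dvd_of_pow_eq_one h3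
  rw [hord] at h4
  have h5 : 3 ∣ 2 := Nat.Prime.dvd_of_dvd_pow Nat.prime_three h4
  omega

variable {G : Type*} [Group G] [Finite G]

namespace Pair

variable {Q Q' : Subgroup G} {z a : G}

omit [Finite G] in
theorem mem_or_mul_inv_mem_A (P : Pair Q Q' z a) {u t : G} (hu : u ∈ Q) (hua : u * a = z * (a * u))
    (ht : t ∈ Q) : t ∈ A Q a ∨ t * u⁻¹ ∈ A Q a := by
  rcases P.L.comm t ht a P.a_mem with h | h
  · exact Or.inl (mem_A.mpr ⟨ht, h⟩)
  · right
    refine mem_A.mpr ⟨mul_mem ht (inv_mem hu), ?_⟩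
    have h1 := Large.inv_mul_of_comm P.L hu hua
    have hzt := P.L.z_comm t ht
    calc (t * u⁻¹) * a = t * (u⁻¹ * a) := by group
      _ = t * (z * (a * u⁻¹)) := by rw [h1]
      _ = (t * z) * (a * u⁻¹) := by group
      _ = z * (t * a) * u⁻¹ := by rw [hzt]; group
      _ = z * (z * (a * t)) * u⁻¹ := by rw [h]
      _ = (z * z) * (a * t) * u⁻¹ := by group
      _ = a * (t * u⁻¹) := by rw [P.L.z_sq]; group

omit [Finite G] in
theorem z_mem_A (P : Pair Q Q' z a) : z ∈ A Q a :=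
  mem_A.mpr ⟨P.L.z_mem, (P.L.z_comm a P.a_mem).symm⟩

omit [Finite G] in
/-- `Q` normalizes `R`. -/
theorem conj_R_mem_of_mem_Q (P : Pair Q Q' z a) {t r : G} (ht : t ∈ Q) (hr : r ∈ R Q Q' z a) :
    t * r * t⁻¹ ∈ R Q Q' z a := by
  have hle : R Q Q' z a ≤ (R Q Q' z a).comap (MulAut.conj t).toMonoidHom := by
    refine sup_le ?_ ?_
    · intro x hx
      rw [mem_comap]
      change t * x * t⁻¹ ∈ R Q Q' z a
      have h := mem_A.mp hx
      have hxz : x * z = z * x := h.2
      have hxa : x * a = a * x := P.L'.z_comm x h.1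
      have hcomm : ∀ t₁ ∈ Q, x * (t₁⁻¹ * a * t₁) = (t₁⁻¹ * a * t₁) * x := by
        intro t₁ ht₁
        have hxz' := hxz
        rcases P.L.comm t₁⁻¹ (inv_mem ht₁) a P.a_mem with h' | h'
        · rw [h']
          have : a * t₁⁻¹ * t₁ = a := by group
          rw [this]; exact hxa
        · rw [h']
          have : z * (a * t₁⁻¹) * t₁ = z * a := by group
          rw [this]
          calc x * (z * a) = (x * z) * a := by group
            _ = z * (x * a) := by rw [hxz]; group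
            _ = z * (a * x) := by rw [hxa]
            _ = z * a * x := by group
      -- the commutator
      have he : t * x * t⁻¹ * x⁻¹ ∈ A Q a := by
        refine mem_A.mpr ⟨?_, ?_⟩
        · have h2 := P.N x hxz t⁻¹ (inv_mem ht)
          have h3 : t * x * t⁻¹ * x⁻¹ = t * (x * t⁻¹ * x⁻¹) := by group
          rw [h3]
          exact mul_mem ht h2
        · have hc := hcomm t ht
          have hxinv : x⁻¹ * a = a * x⁻¹ := (show Commute x a from hxa).inv_left
          calc t * x * t⁻¹ * x⁻¹ * a = t * x * t⁻¹ * (x⁻¹ * a) := by group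
            _ = t * x * t⁻¹ * (a * x⁻¹) := by rw [hxinv]
            _ = t * (x * (t⁻¹ * a * t)) * t⁻¹ * x⁻¹ := by group
            _ = t * ((t⁻¹ * a * t) * x) * t⁻¹ * x⁻¹ := by rw [hc]
            _ = a * (t * x * t⁻¹ * x⁻¹) := by group
      have h4 : t * x * t⁻¹ = (t * x * t⁻¹ * x⁻¹) * x := by group
      rw [h4]
      exact mul_mem (A_le_R he) (A'_le_R hx)
    · intro x hx
      rw [mem_comap]
      change t * x * t⁻¹ ∈ R Q Q' z a
      have h := mem_A.mp hx
      rcases P.L.comm t ht x h.1 with h' | h'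
      · rw [h']
        have : x * t * t⁻¹ = x := by group
        rw [this]; exact A_le_R hx
      · rw [h']
        have : z * (x * t) * t⁻¹ = z * x := by group
        rw [this]
        exact A_le_R (mul_mem (z_mem_A P) hx)
  exact hle hr

omit [Finite G] in
theorem conj_R_mem_of_mem_Q' (P : Pair Q Q' z a) {t r : G} (ht : t ∈ Q') (hr : r ∈ R Q Q' z a) :
    t * r * t⁻¹ ∈ R Q Q' z a := by
  have h := conj_R_mem_of_mem_Q P.symm ht (r := r) (by rw [R_comm]; exact hr)
  rwa [R_comm] at h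

theorem X_le_normalizer_R (P : Pair Q Q' z a) : Q ⊔ Q' ≤ normalizer (R Q Q' z a : Set G) := by
  refine sup_le ?_ ?_
  · exact le_normalizer_of_forall (fun c hc y hy => conj_R_mem_of_mem_Q P hc hy)
  · exact le_normalizer_of_forall (fun c hc y hy => conj_R_mem_of_mem_Q' P hc hy)

theorem conj_R_mem_of_mem_X (P : Pair Q Q' z a) {t r : G} (ht : t ∈ Q ⊔ Q') (hr : r ∈ R Q Q' z a) :
    t * r * t⁻¹ ∈ R Q Q' z a :=
  (mem_normalizer_iff.mp (X_le_normalizer_R P ht) r).mp hr

omit [Finite G] in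
theorem R_le_X (P : Pair Q Q' z a) : R Q Q' z a ≤ Q ⊔ Q' := by
  refine sup_le ?_ ?_
  · exact (inf_le_left : A Q' z ≤ Q').trans le_sup_right
  · exact (inf_le_left : A Q a ≤ Q).trans le_sup_left

/-- The key relation: `u v u⁻¹` and `v u v⁻¹` agree modulo `R`. -/
theorem rel_mem_R (P : Pair Q Q' z a) {g : G} (hg1 : g * z * g⁻¹ = a)
    (hg2 : ∀ t ∈ Q, g * t * g⁻¹ ∈ Q') {u v : G} (hu : u ∈ Q) (hua : u * a = z * (a * u))
    (hv : v ∈ Q') (hvz : v * z = a * (z * v)) :
    (u * v * u⁻¹) * (v * u * v⁻¹)⁻¹ ∈ R Q Q' z a := by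
  have hz2 := P.L.z_sq
  have ha2 := P.L'.z_sq
  have hza : a * z = z * a := P.L.z_comm a P.a_mem
  have hzu : u * z = z * u := P.L.z_comm u hu
  have hav : v * a = a * v := P.L'.z_comm v hv
  have hu1 : u * a * u⁻¹ = z * a := by rw [hua]; group
  have hu2 : u * z * u⁻¹ = z := by rw [hzu]; group
  have hv1 : v * z * v⁻¹ = a * z := by rw [hvz]; group
  have hv2 : v * a * v⁻¹ = a := by rw [hav]; group
  have hu3 : u⁻¹ * z * u = z := by
    rw [mul_assoc, ← hzu]; group
  -- the element `c`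
  set c := (u * g)⁻¹ * v with hc
  have hcz : c * z = z * c := by
    have h1 : (u * g) * z * (u * g)⁻¹ = z * a := by
      calc (u * g) * z * (u * g)⁻¹ = u * (g * z * g⁻¹) * u⁻¹ := by group
        _ = z * a := by rw [hg1, hu1]
    calc c * z = (u * g)⁻¹ * (v * z * v⁻¹) * v := by rw [hc]; group
      _ = (u * g)⁻¹ * (z * a) * v := by rw [hv1, hza]
      _ = (u * g)⁻¹ * ((u * g) * z * (u * g)⁻¹) * v := by rw [h1]
      _ = z * c := by rw [hc]; group
  set t' := c * u * c⁻¹ with ht'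
  have ht'Q : t' ∈ Q := P.N c hcz u hu
  set q' := g * t' * g⁻¹ with hq'
  have hq'Q' : q' ∈ Q' := hg2 t' ht'Q
  have hvform : v = u * g * c := by rw [hc]; group
  have hy' : v * u * v⁻¹ = u * q' * u⁻¹ := by
    calc v * u * v⁻¹ = (u * g * c) * u * (u * g * c)⁻¹ := by rw [← hvform]
      _ = u * q' * u⁻¹ := by rw [hq', ht']; group
  set e := v * q'⁻¹ with he
  have heQ' : e ∈ Q' := mul_mem hv (inv_mem hq'Q')
  have hf : (u * v * u⁻¹) * (v * u * v⁻¹)⁻¹ = u * e * u⁻¹ := by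
    rw [hy', he]; group
  -- the action of `y = u v u⁻¹`, `y' = v u v⁻¹`
  have hy1 : (u * v * u⁻¹) * z * (u * v * u⁻¹)⁻¹ = a := by
    calc (u * v * u⁻¹) * z * (u * v * u⁻¹)⁻¹ = u * (v * (u⁻¹ * z * u) * v⁻¹) * u⁻¹ := by group
      _ = u * (a * z) * u⁻¹ := by rw [hu3, hv1]
      _ = (u * a * u⁻¹) * (u * z * u⁻¹) := by group
      _ = (z * a) * z := by rw [hu1, hu2]
      _ = (a * z) * z := by rw [hza]
      _ = a := by rw [mul_assoc, hz2, mul_one]
  have hua' : u⁻¹ * a * u = z * a := by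
    have := Large.inv_mul_of_comm P.L hu hua
    rw [this]; group
  have hvz' : v⁻¹ * z * v = a * z := by
    have := Large.inv_mul_of_comm P.L' hv hvz
    rw [this]; group
  have hy2 : (u * v * u⁻¹) * a * (u * v * u⁻¹)⁻¹ = z := by
    calc (u * v * u⁻¹) * a * (u * v * u⁻¹)⁻¹ = u * (v * (u⁻¹ * a * u) * v⁻¹) * u⁻¹ := by group
      _ = u * (v * (z * a) * v⁻¹) * u⁻¹ := by rw [hua']
      _ = u * ((v * z * v⁻¹) * (v * a * v⁻¹)) * u⁻¹ := by group
      _ = u * ((a * z) * a) * u⁻¹ := by rw [hv1, hv2]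
      _ = u * ((z * a) * a) * u⁻¹ := by rw [hza]
      _ = u * z * u⁻¹ := by rw [mul_assoc z, ha2, mul_one]
      _ = z := hu2
  have hy'2 : (v * u * v⁻¹) * a * (v * u * v⁻¹)⁻¹ = z := by
    calc (v * u * v⁻¹) * a * (v * u * v⁻¹)⁻¹ = v * (u * (v⁻¹ * a * v) * u⁻¹) * v⁻¹ := by group
      _ = v * (u * a * u⁻¹) * v⁻¹ := by
          have : v⁻¹ * a * v = a := by rw [mul_assoc, ← hav]; group
          rw [this]
      _ = (v * z * v⁻¹) * (v * a * v⁻¹) := by rw [hu1]; group
      _ = (a * z) * a := by rw [hv1, hv2]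
      _ = (z * a) * a := by rw [hza]
      _ = z := by rw [mul_assoc, ha2, mul_one]
  -- `f = y y'⁻¹` centralizes `z`
  have hf1 : ((u * v * u⁻¹) * (v * u * v⁻¹)⁻¹) * z * ((u * v * u⁻¹) * (v * u * v⁻¹)⁻¹)⁻¹ = z := by
    have h5 : (v * u * v⁻¹)⁻¹ * z * (v * u * v⁻¹) = a := by
      nth_rw 1 [← hy'2]
      group
    calc ((u * v * u⁻¹) * (v * u * v⁻¹)⁻¹) * z * ((u * v * u⁻¹) * (v * u * v⁻¹)⁻¹)⁻¹
        = (u * v * u⁻¹) * ((v * u * v⁻¹)⁻¹ * z * (v * u * v⁻¹)) * (u * v * u⁻¹)⁻¹ := by group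
      _ = z := by rw [h5, hy2]
  rw [hf] at hf1 ⊢
  have hez : e * z = z * e := by
    have h6 : e * z * e⁻¹ = z := by
      calc e * z * e⁻¹ = u⁻¹ * ((u * e * u⁻¹) * (u * z * u⁻¹) * (u * e * u⁻¹)⁻¹) * u := by group
        _ = u⁻¹ * z * u := by rw [hu2, hf1]
        _ = z := hu3
    calc e * z = e * z * e⁻¹ * e := by group
      _ = z * e := by rw [h6]
  exact conj_R_mem_of_mem_Q P hu (A'_le_R (mem_A.mpr ⟨heQ', hez⟩))

/-- The values of the action on `V`. -/
theorem mem_R_of_comm (P : Pair Q Q' z a) {g : G} (hg1 : g * z * g⁻¹ = a)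
    (hg2 : ∀ t ∈ Q, g * t * g⁻¹ ∈ Q') {u v : G} (hu : u ∈ Q) (hua : u * a = z * (a * u))
    (hv : v ∈ Q') (hvz : v * z = a * (z * v)) {x : G} (hx : x ∈ Q ⊔ Q') (hxz : x * z = z * x)
    (hxa : x * a = a * x) : x ∈ R Q Q' z a := by
  have hz2 := P.L.z_sq
  have ha2 := P.L'.z_sq
  have hza : a * z = z * a := P.L.z_comm a P.a_mem
  have hzu : u * z = z * u := P.L.z_comm u hu
  have hav : v * a = a * v := P.L'.z_comm v hv
  have hu1 : u * a * u⁻¹ = z * a := by rw [hua]; group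
  have hu2 : u * z * u⁻¹ = z := by rw [hzu]; group
  have hv1 : v * z * v⁻¹ = a * z := by rw [hvz]; group
  have hv2 : v * a * v⁻¹ = a := by rw [hav]; group
  have hsq : u * u ∈ R Q Q' z a := by
    rcases P.L.sq u hu with h | h
    · rw [h]; exact one_mem _
    · rw [h]; exact A_le_R (z_mem_A P)
  have hsq' : v * v ∈ R Q Q' z a := by
    rcases P.L'.sq v hv with h | h
    · rw [h]; exact one_mem _
    · rw [h]; exact A'_le_R (z_mem_A P.symm)
  obtain ⟨s, hs, hr⟩ := coset_six rfl (fun x hx r hr => conj_R_mem_of_mem_X P hx hr) hu hv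
    (fun t ht => (mem_or_mul_inv_mem_A P hu hua ht).imp (fun h => A_le_R h) (fun h => A_le_R h))
    (fun t ht => (mem_or_mul_inv_mem_A P.symm hv hvz ht).imp (fun h => A'_le_R h)
      (fun h => A'_le_R h)) hsq hsq' (rel_mem_R P hg1 hg2 hu hua hv hvz) x hx
  have hrc := R_le_centralizer P hr
  have hsform : s = x * (x⁻¹ * s) := by group
  have hsz : s * z * s⁻¹ = z := by
    have h1 : s * z = z * s := by
      rw [hsform, mul_assoc, hrc.1, ← mul_assoc, hxz, mul_assoc]
    rw [h1]; group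
  have hsa : s * a * s⁻¹ = a := by
    have h1 : s * a = a * s := by
      rw [hsform, mul_assoc, hrc.2, ← mul_assoc, hxa, mul_assoc]
    rw [h1]; group
  have hne : a ≠ z := P.ne
  rcases hs with rfl | rfl | rfl | rfl | rfl | rfl
  · have : x = (x⁻¹ * 1)⁻¹ := by group
    rw [this]
    exact inv_mem hr
  · exfalso
    rw [hu1] at hsa
    exact P.L.z_ne (by simpa using hsa)
  · exfalso
    rw [hv1] at hsz
    exact P.L'.z_ne (by simpa using hsz)
  · exfalso
    apply hne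
    rw [← hsz]
    calc a = (a * z) * z := by rw [mul_assoc, hz2, mul_one]
      _ = (z * a) * z := by rw [hza]
      _ = (u * a * u⁻¹) * (u * z * u⁻¹) := by rw [hu1, hu2]
      _ = u * (a * z) * u⁻¹ := by group
      _ = u * (v * z * v⁻¹) * u⁻¹ := by rw [hv1]
      _ = u * v * z * (u * v)⁻¹ := by group
  · exfalso
    apply hne
    rw [← hsa]
    calc v * u * a * (v * u)⁻¹ = v * (u * a * u⁻¹) * v⁻¹ := by group
      _ = (v * z * v⁻¹) * (v * a * v⁻¹) := by rw [hu1]; group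
      _ = (a * z) * a := by rw [hv1, hv2]
      _ = (z * a) * a := by rw [hza]
      _ = z := by rw [mul_assoc, ha2, mul_one]
  · exfalso
    apply hne
    have h1 := (swap_of_u_w hz2 ha2 hza hzu hua hav hv1).1
    rw [hsz] at h1
    exact h1.symm

/-- The action on `V#`. -/
theorem exists_perm_hom (P : Pair Q Q' z a) {u v : G} (hu : u ∈ Q) (hua : u * a = z * (a * u))
    (hv : v ∈ Q') (hvz : v * z = a * (z * v)) :
    ∃ F : ↥(normalizer (P.V : Set G)) →* Equiv.Perm (Fin 3),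
      (∀ n, F n = 1 ↔ (n : G) * z = z * n ∧ (n : G) * a = a * n) ∧
      ∀ (Y : Subgroup G) (hY : Y ≤ normalizer (P.V : Set G)), u ∈ Y → v ∈ Y →
        Function.Surjective (F.comp (Subgroup.inclusion hY)) := by
  classical
  have hz1 := P.L.z_ne
  have ha1 := P.L'.z_ne
  have haz := P.ne
  have hz2 := P.L.z_sq
  have ha2 := P.L'.z_sq
  have hza : a * z = z * a := P.L.z_comm a P.a_mem
  have hzu : u * z = z * u := P.L.z_comm u hu
  have hav : v * a = a * v := P.L'.z_comm v hv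
  have hu1 : u * a * u⁻¹ = z * a := by rw [hua]; group
  have hu2 : u * z * u⁻¹ = z := by rw [hzu]; group
  have hv1 : v * z * v⁻¹ = a * z := by rw [hvz]; group
  have hv2 : v * a * v⁻¹ = a := by rw [hav]; group
  have hzaV : z * a = a * z := hza.symm
  have hu3 : u * (a * z) * u⁻¹ = a := by
    calc u * (a * z) * u⁻¹ = (u * a * u⁻¹) * (u * z * u⁻¹) := by group
      _ = z * a * z := by rw [hu1, hu2]
      _ = (a * z) * z := by rw [hza]
      _ = a := by rw [mul_assoc, hz2, mul_one]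
  have hv3 : v * (a * z) * v⁻¹ = z := by
    calc v * (a * z) * v⁻¹ = (v * a * v⁻¹) * (v * z * v⁻¹) := by group
      _ = a * (a * z) := by rw [hv2, hv1]
      _ = z := by rw [← mul_assoc, ha2, one_mul]
  have hV : ∀ x, x ∈ P.V ↔ x = 1 ∨ x = z ∨ x = a ∨ x = a * z := fun x => P.mem_V
  let S : Set G := {x | x ∈ P.V ∧ x ≠ 1}
  have hSeq : S = {z, a, a * z} := by
    ext x
    simp only [S, Set.mem_ofPred_eq, Set.mem_insert_iff, Set.mem_singleton_iff, hV]
    constructor
    · rintro ⟨h | h | h | h, h1⟩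
      · exact absurd h h1
      · exact Or.inl h
      · exact Or.inr (Or.inl h)
      · exact Or.inr (Or.inr h)
    · rintro (h | h | h)
      · subst h; exact ⟨Or.inr (Or.inl rfl), hz1⟩
      · subst h; exact ⟨Or.inr (Or.inr (Or.inl rfl)), ha1⟩
      · subst h
        refine ⟨Or.inr (Or.inr (Or.inr rfl)), ?_⟩
        intro h
        apply haz
        calc a = a * (z * z) := by rw [hz2, mul_one]
          _ = (a * z) * z := by group
          _ = z := by rw [h, one_mul]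
  have hScard : Nat.card S = 3 := by
    rw [Nat.card_coe_set_eq, Set.ncard_eq_three]
    refine ⟨z, a, a * z, haz.symm, ?_, ?_, hSeq⟩
    · intro h
      exact ha1 (by simpa using h.symm)
    · intro h
      exact hz1 (by simpa using h.symm)
  have hconjS : ∀ c ∈ normalizer (P.V : Set G), ∀ x ∈ S, c * x * c⁻¹ ∈ S := by
    intro c hc x hx
    refine ⟨(mem_normalizer_iff.mp hc x).mp hx.1, ?_⟩
    intro h
    apply hx.2
    have : x = c⁻¹ * (c * x * c⁻¹) * c := by group
    rw [this, h]; group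
  let f : ↥(normalizer (P.V : Set G)) →* Equiv.Perm S :=
    { toFun := fun n =>
        { toFun := fun x => ⟨n * x * (n : G)⁻¹, hconjS n n.2 x x.2⟩
          invFun := fun x => ⟨(n : G)⁻¹ * x * (n : G)⁻¹⁻¹, hconjS _ (inv_mem n.2) x x.2⟩
          left_inv := fun x => by
            apply Subtype.ext
            simp [mul_assoc]
          right_inv := fun x => by
            apply Subtype.ext
            simp [mul_assoc] }
      map_one' := by
        ext x
        simp
      map_mul' := fun m n => by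
        ext x
        simp [mul_assoc] }
  have hf : ∀ (n : ↥(normalizer (P.V : Set G))) (x : S), ((f n x : S) : G) = n * x * (n : G)⁻¹ :=
    fun _ _ => rfl
  have hf1 : ∀ n : ↥(normalizer (P.V : Set G)), (n : G) * z * (n : G)⁻¹ = z →
      (n : G) * a * (n : G)⁻¹ = a → f n = 1 := by
    intro n h1 h2
    ext ⟨x, hx⟩
    have hx' : x ∈ ({z, a, a * z} : Set G) := hSeq ▸ hx
    simp only [Set.mem_insert_iff, Set.mem_singleton_iff] at hx'
    rw [hf, Equiv.Perm.one_apply]
    rcases hx' with rfl | rfl | rfl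
    · exact h1
    · exact h2
    · calc (n : G) * (a * z) * (n : G)⁻¹ = ((n : G) * a * (n : G)⁻¹) * ((n : G) * z * (n : G)⁻¹) := by
            group
        _ = a * z := by rw [h1, h2]
  have hf2 : ∀ n : ↥(normalizer (P.V : Set G)), f n = 1 → (n : G) * z * (n : G)⁻¹ = z ∧
      (n : G) * a * (n : G)⁻¹ = a := by
    intro n h
    have hzS : z ∈ S := hSeq ▸ (by simp)
    have haS : a ∈ S := hSeq ▸ (by simp)
    have h1 := congrArg (fun p : Equiv.Perm S => ((p ⟨z, hzS⟩ : S) : G)) h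
    have h2 := congrArg (fun p : Equiv.Perm S => ((p ⟨a, haS⟩ : S) : G)) h
    simp only [hf, Equiv.Perm.one_apply] at h1 h2
    exact ⟨h1, h2⟩
  let e : S ≃ Fin 3 := Finite.equivFinOfCardEq hScard
  let F : ↥(normalizer (P.V : Set G)) →* Equiv.Perm (Fin 3) :=
    (e.permCongrHom.toMonoidHom).comp f
  have hFf : ∀ n, F n = e.permCongrHom (f n) := fun _ => rfl
  have hF1 : ∀ n, F n = 1 ↔ f n = 1 := by
    intro n
    rw [hFf, map_eq_one_iff _ e.permCongrHom.injective]
  refine ⟨F, ?_, ?_⟩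
  · intro n
    rw [hF1]
    constructor
    · intro h
      obtain ⟨h1, h2⟩ := hf2 n h
      constructor
      · calc (n : G) * z = (n : G) * z * (n : G)⁻¹ * n := by group
          _ = z * n := by rw [h1]
      · calc (n : G) * a = (n : G) * a * (n : G)⁻¹ * n := by group
          _ = a * n := by rw [h2]
    · rintro ⟨h1, h2⟩
      apply hf1
      · rw [h1]; group
      · rw [h2]; group
  · intro Y hY huY hvY
    have hsurj : Function.Surjective (f.comp (Subgroup.inclusion hY)) := by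
      set k := f.comp (Subgroup.inclusion hY) with hk
      let nu : ↥Y := ⟨u, huY⟩
      let nw : ↥Y := ⟨v, hvY⟩
      have hord2 : orderOf (k nu) = 2 := by
        have hp : Fact (Nat.Prime 2) := ⟨Nat.prime_two⟩
        apply orderOf_eq_prime
        · rw [← map_pow]
          apply hf1
          · change (u ^ 2) * z * (u ^ 2)⁻¹ = z
            calc (u ^ 2) * z * (u ^ 2)⁻¹ = u * (u * z * u⁻¹) * u⁻¹ := by
                  simp only [pow_two, mul_inv_rev, mul_assoc]
              _ = z := by rw [hu2, hu2]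
          · change (u ^ 2) * a * (u ^ 2)⁻¹ = a
            calc (u ^ 2) * a * (u ^ 2)⁻¹ = u * (u * a * u⁻¹) * u⁻¹ := by
                  simp only [pow_two, mul_inv_rev, mul_assoc]
              _ = u * (a * z) * u⁻¹ := by rw [hu1, hzaV]
              _ = a := hu3
        · intro h
          have h1 := (hf2 _ h).2
          change u * a * u⁻¹ = a at h1
          rw [hu1] at h1
          exact hz1 (by simpa using h1)
      have hc1 : (u * v) * z * (u * v)⁻¹ = a := by
        calc (u * v) * z * (u * v)⁻¹ = u * (v * z * v⁻¹) * u⁻¹ := by group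
          _ = a := by rw [hv1, hu3]
      have hc2 : (u * v) * a * (u * v)⁻¹ = a * z := by
        calc (u * v) * a * (u * v)⁻¹ = u * (v * a * v⁻¹) * u⁻¹ := by group
          _ = a * z := by rw [hv2, hu1, hzaV]
      have hc3 : (u * v) * (a * z) * (u * v)⁻¹ = z := by
        calc (u * v) * (a * z) * (u * v)⁻¹ = u * (v * (a * z) * v⁻¹) * u⁻¹ := by group
          _ = z := by rw [hv3, hu2]
      have hord3 : orderOf (k (nu * nw)) = 3 := by
        have hp : Fact (Nat.Prime 3) := ⟨Nat.prime_three⟩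
        apply orderOf_eq_prime
        · rw [← map_pow]
          apply hf1
          · change ((u * v) ^ 3) * z * ((u * v) ^ 3)⁻¹ = z
            calc ((u * v) ^ 3) * z * ((u * v) ^ 3)⁻¹ =
                (u * v) * ((u * v) * ((u * v) * z * (u * v)⁻¹) * (u * v)⁻¹) * (u * v)⁻¹ := by
                  simp only [pow_succ, pow_zero, one_mul, mul_inv_rev, mul_assoc]
              _ = z := by rw [hc1, hc2, hc3]
          · change ((u * v) ^ 3) * a * ((u * v) ^ 3)⁻¹ = a
            calc ((u * v) ^ 3) * a * ((u * v) ^ 3)⁻¹ =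
                (u * v) * ((u * v) * ((u * v) * a * (u * v)⁻¹) * (u * v)⁻¹) * (u * v)⁻¹ := by
                  simp only [pow_succ, pow_zero, one_mul, mul_inv_rev, mul_assoc]
              _ = a := by rw [hc2, hc3, hc1]
        · intro h
          have h1 := (hf2 _ h).1
          change (u * v) * z * (u * v)⁻¹ = z at h1
          rw [hc1] at h1
          exact haz h1
      have hd2 : 2 ∣ Nat.card k.range := by
        rw [← hord2]
        exact Subgroup.orderOf_dvd_natCard _ ⟨nu, rfl⟩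
      have hd3 : 3 ∣ Nat.card k.range := by
        rw [← hord3]
        exact Subgroup.orderOf_dvd_natCard _ ⟨nu * nw, rfl⟩
      have hc6 : Nat.card (Equiv.Perm S) = 6 := by
        rw [Nat.card_perm, hScard]
        rfl
      have hd6 : Nat.card k.range ∣ 6 := by
        have h1 : Nat.card k.range ∣ Nat.card (Equiv.Perm S) := Subgroup.card_subgroup_dvd_card _
        rwa [hc6] at h1
      have hd : 6 ∣ Nat.card k.range := by
        have : Nat.Coprime 2 3 := by norm_num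
        exact this.mul_dvd_of_dvd_of_dvd hd2 hd3
      have hcard : Nat.card k.range = Nat.card (Equiv.Perm S) := by
        rw [hc6]
        exact Nat.dvd_antisymm hd6 hd
      have htop : k.range = ⊤ := Subgroup.eq_top_of_card_eq _ hcard
      exact MonoidHom.range_eq_top.mp htop
    intro τ
    obtain ⟨y, hy⟩ := hsurj (e.permCongrHom.symm τ)
    refine ⟨y, ?_⟩
    change e.permCongrHom (f (Subgroup.inclusion hY y)) = τ
    have hy' : f (Subgroup.inclusion hY y) = e.permCongrHom.symm τ := hy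
    rw [hy']
    exact e.permCongrHom.apply_symm_apply τ

/-- The structure of `X = ⟨Q, Q'⟩`. -/
theorem main (P : Pair Q Q' z a) {g : G} (hg1 : g * z * g⁻¹ = a)
    (hg2 : ∀ t ∈ Q, g * t * g⁻¹ ∈ Q') :
    R Q Q' z a = (Q ⊔ Q') ⊓ centralizer (P.V : Set G) ∧
    R Q Q' z a = (Cfsg.pCore 2 ↥(Q ⊔ Q')).map (Q ⊔ Q').subtype ∧
    (∃ _ : ((R Q Q' z a).subgroupOf (Q ⊔ Q')).Normal,
      Nonempty (↥(Q ⊔ Q') ⧸ (R Q Q' z a).subgroupOf (Q ⊔ Q') ≃* Equiv.Perm (Fin 3))) ∧
    normalizer (P.V : Set G) =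
      (Q ⊔ Q') ⊔ (centralizer ({z} : Set G) ⊓ centralizer (P.V : Set G)) ∧
    (∀ y ∈ normalizer (P.V : Set G), ∀ x ∈ Q ⊔ Q', y * x * y⁻¹ ∈ Q ⊔ Q') ∧
    R Q Q' z a ≤ centralizer ({z} : Set G) ⊓ centralizer (P.V : Set G) ∧
    (∀ x ∈ Q ⊔ Q', ∀ c ∈ centralizer ({z} : Set G) ⊓ centralizer (P.V : Set G),
      x * c * x⁻¹ * c⁻¹ ∈ R Q Q' z a) ∧
    (Q ⊔ Q') ⊓ (centralizer ({z} : Set G) ⊓ centralizer (P.V : Set G)) = R Q Q' z a := by
  have hp2 : Fact (Nat.Prime 2) := ⟨Nat.prime_two⟩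
  obtain ⟨u, hu, hua⟩ := P.L.exists_noncomm P.a_mem P.L'.z_ne P.ne
  obtain ⟨v, hv, hvz⟩ := P.L'.exists_noncomm P.z_mem' P.L.z_ne P.ne.symm
  have hXN := X_le_normalizer_V P
  obtain ⟨F, hF1, hF2⟩ := exists_perm_hom P hu hua hv hvz
  have huX : u ∈ Q ⊔ Q' := mem_sup_left hu
  have hvX : v ∈ Q ⊔ Q' := mem_sup_right hv
  have hCV : ∀ {x : G}, x ∈ centralizer (P.V : Set G) → x * z = z * x ∧ x * a = a * x :=
    fun hx => (P.mem_centralizer_V).mp hx
  have hCV' : ∀ {x : G}, x * z = z * x → x * a = a * x → x ∈ centralizer (P.V : Set G) :=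
    fun h1 h2 => (P.mem_centralizer_V).mpr ⟨h1, h2⟩
  have hR1 : R Q Q' z a = (Q ⊔ Q') ⊓ centralizer (P.V : Set G) := by
    apply le_antisymm
    · refine le_inf (R_le_X P) ?_
      intro r hr
      have := R_le_centralizer P hr
      exact hCV' this.1 this.2
    · rintro x ⟨hx1, hx2⟩
      have := hCV hx2
      exact mem_R_of_comm P hg1 hg2 hu hua hv hvz hx1 this.1 this.2
  have hCle : centralizer (P.V : Set G) ≤ centralizer ({z} : Set G) := by
    intro c hc
    exact mem_centralizer_singleton_iff.mpr (hCV hc).1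
  have hinf : centralizer ({z} : Set G) ⊓ centralizer (P.V : Set G) = centralizer (P.V : Set G) :=
    inf_eq_right.mpr hCle
  -- the surjection onto `S₃`
  set f := F.comp (Subgroup.inclusion hXN) with hf
  have hfs : Function.Surjective f := hF2 _ hXN huX hvX
  have hker : (R Q Q' z a).subgroupOf (Q ⊔ Q') = f.ker := by
    ext x
    rw [mem_subgroupOf, MonoidHom.mem_ker, hf, MonoidHom.comp_apply, hF1]
    constructor
    · intro h
      exact R_le_centralizer P h
    · rintro ⟨h1, h2⟩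
      exact mem_R_of_comm P hg1 hg2 hu hua hv hvz x.2 h1 h2
  have hnorm : ((R Q Q' z a).subgroupOf (Q ⊔ Q')).Normal := hker ▸ f.normal_ker
  have hRp : IsPGroup 2 ↥((R Q Q' z a).subgroupOf (Q ⊔ Q')) := (R_isPGroup P).comap_subtype
  have hR2 : R Q Q' z a = (Cfsg.pCore 2 ↥(Q ⊔ Q')).map (Q ⊔ Q').subtype := by
    apply le_antisymm
    · intro r hr
      have h1 := Cfsg.Agent.Lib.Basic.PCore.le_pCore hnorm hRp
      exact ⟨⟨r, R_le_X P hr⟩, h1 (by rw [mem_subgroupOf]; exact hr), rfl⟩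
    · rintro _ ⟨t, ht, rfl⟩
      have h1 := normal_pGroup_le_ker f hfs (Cfsg.Agent.Lib.Basic.PCore.pCore_normal 2 _)
        (Cfsg.Agent.Lib.Basic.PCore.pCore_isPGroup 2) ht
      rw [← hker, mem_subgroupOf] at h1
      exact h1
  have hR3 : ∃ _ : ((R Q Q' z a).subgroupOf (Q ⊔ Q')).Normal,
      Nonempty (↥(Q ⊔ Q') ⧸ (R Q Q' z a).subgroupOf (Q ⊔ Q') ≃* Equiv.Perm (Fin 3)) :=
    ⟨hnorm, ⟨(QuotientGroup.quotientMulEquivOfEq hker).trans
      (QuotientGroup.quotientKerEquivOfSurjective f hfs)⟩⟩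
  have hN4 : normalizer (P.V : Set G) =
      (Q ⊔ Q') ⊔ (centralizer ({z} : Set G) ⊓ centralizer (P.V : Set G)) := by
    rw [hinf]
    apply le_antisymm
    · intro n hn
      obtain ⟨x, hx⟩ := hfs (F ⟨n, hn⟩)
      have h1 : F ((Subgroup.inclusion hXN x)⁻¹ * ⟨n, hn⟩) = 1 := by
        rw [map_mul, map_inv]
        have : F (Subgroup.inclusion hXN x) = F ⟨n, hn⟩ := hx
        rw [this]
        simp
      have h2 := (hF1 _).mp h1
      have h3 : (x : G)⁻¹ * n ∈ centralizer (P.V : Set G) := hCV' h2.1 h2.2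
      have h4 : n = x * ((x : G)⁻¹ * n) := by group
      rw [h4]
      exact mul_mem (mem_sup_left x.2) (mem_sup_right h3)
    · refine sup_le hXN ?_
      intro c hc
      apply mem_normalizer_of_forall
      intro w hw
      have := mem_centralizer_iff.mp hc w hw
      rw [← this]
      simpa using hw
  have hcX : ∀ c ∈ centralizer (P.V : Set G), ∀ x ∈ Q ⊔ Q', c * x * c⁻¹ ∈ Q ⊔ Q' := by
    intro c hc x hx
    have hle : Q ⊔ Q' ≤ (Q ⊔ Q').comap (MulAut.conj c).toMonoidHom := by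
      refine sup_le ?_ ?_
      · intro t ht
        exact mem_sup_left (P.N c (hCV hc).1 t ht)
      · intro t ht
        exact mem_sup_right (P.N' c (hCV hc).2 t ht)
    exact hle hx
  have hN5 : ∀ y ∈ normalizer (P.V : Set G), ∀ x ∈ Q ⊔ Q', y * x * y⁻¹ ∈ Q ⊔ Q' := by
    have hle : normalizer (P.V : Set G) ≤ normalizer ((Q ⊔ Q' : Subgroup G) : Set G) := by
      rw [hN4, hinf]
      refine sup_le ?_ ?_
      · exact le_normalizer_of_forall (fun c hc y hy => mul_mem (mul_mem hc hy) (inv_mem hc))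
      · exact le_normalizer_of_forall hcX
    intro y hy x hx
    exact (mem_normalizer_iff.mp (hle hy) x).mp hx
  refine ⟨hR1, hR2, hR3, hN4, hN5, ?_, ?_, ?_⟩
  · rw [hinf, hR1]
    exact inf_le_right
  · intro x hx c hc
    rw [hinf] at hc
    rw [hR1]
    refine ⟨?_, ?_⟩
    · have h1 := hcX c hc x⁻¹ (inv_mem hx)
      have h2 : x * c * x⁻¹ * c⁻¹ = x * (c * x⁻¹ * c⁻¹) := by group
      rw [h2]
      exact mul_mem hx h1
    · refine mem_centralizer_iff.mpr ?_
      intro w hw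
      have h1 : x⁻¹ * w * x⁻¹⁻¹ ∈ P.V := (mem_normalizer_iff.mp (inv_mem (hXN hx)) w).mp hw
      have h2 := mem_centralizer_iff.mp hc _ h1
      have h3 := mem_centralizer_iff.mp hc w hw
      have h4 : c⁻¹ * w = w * c⁻¹ := (show Commute c w from h3.symm).inv_left
      calc w * (x * c * x⁻¹ * c⁻¹) = x * ((x⁻¹ * w * x⁻¹⁻¹) * c) * x⁻¹ * c⁻¹ := by group
        _ = x * (c * (x⁻¹ * w * x⁻¹⁻¹)) * x⁻¹ * c⁻¹ := by rw [h2]
        _ = x * c * x⁻¹ * (w * c⁻¹) := by group
        _ = x * c * x⁻¹ * (c⁻¹ * w) := by rw [h4]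
        _ = (x * c * x⁻¹ * c⁻¹) * w := by group
  · rw [hinf]
    exact hR1.symm

end Pair

end Cfsg.Agent.Lib.PGroup.LargePair
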