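import Mathlib
import Cfsg.Prelude.Def_MonsterType
import Cfsg.Agent.Lib.Components.Layer
import Cfsg.Agent.Lib.Components.Basic
import Cfsg.Agent.Lib.Components.LayerProduct
import Cfsg.Agent.Lib.Components.FStar
import Cfsg.Agent.Lib.Components.FStar2
import Cfsg.Agent.Lib.Components.Balance
import Cfsg.Agent.Lib.Basic.PCore
import Cfsg.Agent.Lib.Basic.SylowUtil
import Cfsg.Agent.Lib.PGroup.Extraspecial
import Cfsg.Agent.Lib.PGroup.LargeFz

/-!
# The structure of a group with a large extraspecial 2-subgroup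

For `Q` large extraspecial with centre `⟨z⟩`: the components of `G` are permuted transitively by `Q`,
there are at most two of them, and the two-component case has the stated fine structure.
-/

set_option autoImplicit false

namespace Cfsg.Agent.Lib.PGroup.LargeStructure

open Cfsg Subgroup
open Cfsg.Agent.Lib.Components.Layer
open Cfsg.Agent.Lib.Components.LayerProduct
open scoped commutatorElement

variable {G : Type*} [Group G]

/-! ### Generalities -/

/-- Conjugate of a subgroup, in the form used by the statement. -/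
abbrev cj (g : G) (X : Subgroup G) : Subgroup G := X.map (MulAut.conj g).toMonoidHom

theorem conj_mem_cj {g x : G} {X : Subgroup G} (hx : x ∈ X) : g * x * g⁻¹ ∈ cj g X :=
  ⟨x, hx, rfl⟩

theorem mem_cj {g x : G} {X : Subgroup G} : x ∈ cj g X ↔ g⁻¹ * x * g ∈ X := by
  constructor
  · rintro ⟨y, hy, rfl⟩
    have : g⁻¹ * ((MulAut.conj g).toMonoidHom y) * g = y := by
      simp [MulAut.conj_apply]
      group
    rw [this]; exact hy
  · intro h
    refine ⟨_, h, ?_⟩
    simp [MulAut.conj_apply]
    group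

theorem cj_cj (g h : G) (X : Subgroup G) : cj g (cj h X) = cj (g * h) X := by
  ext x
  simp only [mem_cj, mul_inv_rev]
  constructor
  · intro hx
    convert hx using 1
    group
  · intro hx
    convert hx using 1
    group

theorem cj_one (X : Subgroup G) : cj (1 : G) X = X := by
  ext x
  simp

theorem cj_inv_cj (g : G) (X : Subgroup G) : cj g⁻¹ (cj g X) = X := by
  rw [cj_cj, inv_mul_cancel, cj_one]

theorem cj_eq_of_mem_normalizer {g : G} {X : Subgroup G} (hg : g ∈ normalizer (X : Set G)) :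
    cj g X = X := by
  ext x
  rw [mem_cj]
  have := (mem_normalizer_iff.mp (inv_mem hg)) x
  simp only [inv_inv] at this
  exact this.symm

theorem comps_commute {L K : Subgroup G} (hL : IsComponent L) (hK : IsComponent K) (hne : L ≠ K) :
    ∀ a ∈ L, ∀ b ∈ K, a * b = b * a := by
  rcases eq_or_commutator_eq_bot hL hK with h | h
  · exact absurd h hne
  · exact commutator_eq_bot_iff_forall.mp h

theorem sSup_commute {S₁ S₂ : Set (Subgroup G)}
    (h : ∀ X ∈ S₁, ∀ Y ∈ S₂, ∀ a ∈ X, ∀ b ∈ Y, a * b = b * a) :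
    ∀ a ∈ sSup S₁, ∀ b ∈ sSup S₂, a * b = b * a := by
  have h1 : sSup S₁ ≤ centralizer ((sSup S₂ : Subgroup G) : Set G) := by
    apply sSup_le
    intro X hX
    rw [Subgroup.le_centralizer_iff]
    apply sSup_le
    intro Y hY y hy
    rw [Subgroup.mem_centralizer_iff]
    intro x hx
    exact h X hX Y hY x hx y hy
  intro a ha b hb
  exact (Subgroup.mem_centralizer_iff.mp (h1 ha) b hb).symm

theorem map_sSup_le {S : Set (Subgroup G)} {g : G} (h : ∀ X ∈ S, cj g X ∈ S) {x : G}
    (hx : x ∈ sSup S) : g * x * g⁻¹ ∈ sSup S := by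
  have : sSup S ≤ (sSup S).comap (MulAut.conj g).toMonoidHom := by
    apply sSup_le
    intro X hX y hy
    exact (le_sSup (h X hX)) ⟨y, hy, rfl⟩
  exact this hx

/-- A group all of whose squares lie in `A` has Frattini subgroup inside `A`. -/
theorem frattini_le_of_sq {P : Type*} [Group P] [Finite P] (A : Subgroup P)
    (hA : ∀ x : P, x * x ∈ A) : frattini P ≤ A := by
  intro r hr
  by_contra hrA
  -- a maximal subgroup above `A` avoiding `r`
  obtain ⟨B, hAB, hB⟩ : ∃ B : Subgroup P, A ≤ B ∧ Maximal (fun B : Subgroup P => A ≤ B ∧ r ∉ B) B := by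
    have hfin : {B : Subgroup P | A ≤ B ∧ r ∉ B}.Finite := Set.toFinite _
    obtain ⟨B, hAB, hB⟩ := hfin.exists_le_maximal (a := A) ⟨le_rfl, hrA⟩
    exact ⟨B, hAB, hB⟩
  have hrB : r ∉ B := hB.prop.2
  have hsq : ∀ x : P, x * x ∈ B := fun x => hB.prop.1 (hA x)
  have hnorm : B.Normal := by
    refine ⟨fun b hb g => ?_⟩
    have h1 : g * b * g⁻¹ = (g * b) * (g * b) * b⁻¹ * (g⁻¹ * g⁻¹) := by group
    rw [h1]
    exact mul_mem (mul_mem (hsq _) (inv_mem hb)) (hsq _)
  have hco : IsCoatom B := by
    refine ⟨fun h => hrB (h ▸ mem_top r), fun C hC => ?_⟩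
    have hrC : r ∈ C := by
      by_contra hrC
      exact absurd (hB.le_of_ge ⟨hC.le.trans' hB.prop.1, hrC⟩ hC.le) (not_le_of_gt hC)
    rw [eq_top_iff]
    intro c _
    by_cases hcB : c ∈ B
    · exact hC.le hcB
    · -- `r` is in `B ⊔ ⟨c⟩`
      have hr' : r ∈ B ⊔ zpowers c := by
        by_contra hr'
        have hle : B ≤ B ⊔ zpowers c := le_sup_left
        have := hB.le_of_ge ⟨hle.trans' hB.prop.1, hr'⟩ hle
        exact hcB (this (mem_sup_right (mem_zpowers c)))
      have hr'' : r ∈ ((B ⊔ zpowers c : Subgroup P) : Set P) := hr'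
      rw [Subgroup.normal_mul, Set.mem_mul] at hr''
      obtain ⟨b, hb, y, hy, hby⟩ := hr''
      obtain ⟨k, rfl⟩ := mem_zpowers_iff.mp hy
      have hk : ∀ m : ℤ, c ^ (2 * m) ∈ B := fun m => by
        rw [zpow_mul, zpow_two]
        exact zpow_mem (hsq c) m
      obtain ⟨m, rfl | rfl⟩ := Int.even_or_odd' k
      · exact absurd (hby ▸ mul_mem hb (hk m)) hrB
      · have h2 : c = b⁻¹ * r * (c ^ (2 * m))⁻¹ := by
          rw [← hby, zpow_add, zpow_one]
          group
        rw [h2]
        exact mul_mem (mul_mem (hC.le (inv_mem hb)) hrC) (hC.le (inv_mem (hk m)))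
  have h3 : frattini P ≤ B := by
    have : frattini P = Order.radical (Subgroup P) := rfl
    rw [this]
    exact Order.radical_le_coatom hco
  exact hrB (h3 hr)

/-- **Cayley**: a nonabelian simple group has no involution whose centralizer has order two. -/
theorem cayley {X : Type*} [Group X] [Finite X] [IsSimpleGroup X] (hnc : ¬ IsMulCommutative X)
    {a : X} (ha : a ≠ 1) (haa : a * a = 1) (hC : ∀ x : X, x * a = a * x → x = 1 ∨ x = a) : False := by
  have : Fact (Nat.Prime 2) := ⟨Nat.prime_two⟩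
  have hord : orderOf a = 2 := orderOf_eq_prime (by rw [pow_two, haa]) ha
  have hp : IsPGroup 2 (zpowers a) := by
    rw [IsPGroup.iff_card, Nat.card_zpowers, hord]
    exact ⟨1, rfl⟩
  obtain ⟨S, hS⟩ := hp.exists_le_sylow
  have haS : a ∈ (S : Subgroup X) := hS (mem_zpowers a)
  have hSp : IsPGroup 2 (S : Subgroup X) := S.isPGroup'
  have : Nontrivial (S : Subgroup X) :=
    ⟨⟨⟨a, haS⟩, 1, fun h => ha (congrArg Subtype.val h)⟩⟩
  -- `a` is central in `S`
  have hnt : Nontrivial (center (S : Subgroup X)) := hSp.center_nontrivial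
  obtain ⟨b, hb⟩ := exists_ne (1 : center (S : Subgroup X))
  have hb1 : ((b : (S : Subgroup X)) : X) ≠ 1 := by
    intro h
    exact hb (Subtype.ext (Subtype.ext h))
  have hbc : ∀ s : (S : Subgroup X), (b : (S : Subgroup X)) * s = s * b := fun s =>
    ((mem_center_iff.mp b.2) s).symm
  have hba : ((b : (S : Subgroup X)) : X) = a := by
    rcases hC _ (congrArg Subtype.val (hbc ⟨a, haS⟩)) with h | h
    · exact absurd h hb1
    · exact h
  have hS2 : ∀ s ∈ (S : Subgroup X), s = 1 ∨ s = a := by
    intro s hs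
    apply hC
    have := congrArg Subtype.val (hbc ⟨s, hs⟩)
    simp only [Subgroup.coe_mul, hba] at this
    exact this.symm
  -- the normalizer of `S` centralizes `S`
  have hN : Subgroup.normalizer ((S : Subgroup X) : Set X) ≤ centralizer ((S : Subgroup X) : Set X) := by
    intro g hg
    rw [Subgroup.mem_centralizer_iff]
    intro s hs
    have h1 : g * a * g⁻¹ ∈ (S : Subgroup X) := (mem_normalizer_iff.mp hg a).mp haS
    have h2 : g * a * g⁻¹ = a := by
      rcases hS2 _ h1 with h | h
      · exfalso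
        apply ha
        have : a = g⁻¹ * (g * a * g⁻¹) * g := by group
        rw [this, h]
        group
      · exact h
    have h3 : g * a = a * g := by
      calc g * a = g * a * g⁻¹ * g := by group
        _ = a * g := by rw [h2]
    rcases hS2 s hs with rfl | rfl
    · simp
    · exact h3.symm
  have hcomp := MonoidHom.ker_transferSylow_isComplement' S hN
  have hker : ((MonoidHom.transferSylow S hN).ker).Normal := inferInstance
  rcases hker.eq_bot_or_eq_top with h | h
  · apply hnc
    rw [h] at hcomp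
    have htop : (S : Subgroup X) = ⊤ := by
      have := hcomp.2
      ext x
      simp only [mem_top, iff_true]
      obtain ⟨⟨⟨u, hu⟩, ⟨v, hv⟩⟩, huv⟩ := hcomp.existsUnique x |>.exists
      have hu1 : u = 1 := by simpa using hu
      subst hu1
      have : (1 : X) * v = x := huv
      rw [one_mul] at this
      rw [← this]
      exact hv
    refine ⟨⟨fun x y => ?_⟩⟩
    have hx : (x : X) ∈ (S : Subgroup X) := htop ▸ mem_top x
    have hy : (y : X) ∈ (S : Subgroup X) := htop ▸ mem_top y
    rcases hS2 _ hx with h1 | h1 <;> rcases hS2 _ hy with h2 | h2 <;> simp [h1, h2]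
  · rw [h] at hcomp
    have h1 := hcomp.sup_eq_top
    have hbot := hcomp.disjoint
    rw [disjoint_iff] at hbot
    have : a ∈ (⊤ : Subgroup X) ⊓ (S : Subgroup X) := ⟨mem_top a, haS⟩
    rw [hbot] at this
    exact ha (by simpa using this)

/-! ### The hypotheses, elementwise -/

/-- The consequences of largeness used below. -/
structure Hyp (Q : Subgroup G) (z : G) : Prop where
  zQ : z ∈ Q
  zz : z * z = 1
  z1 : z ≠ 1
  pg : IsPGroup 2 Q
  cent : ∀ x : G, (∀ q ∈ Q, x * q = q * x) → x = 1 ∨ x = z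
  zc : ∀ q ∈ Q, q * z = z * q
  norm : ∀ c : G, c * z = z * c → ∀ q ∈ Q, c * q * c⁻¹ ∈ Q
  odd : ∀ K : Subgroup G, Odd (Nat.card K) → Q ≤ normalizer (K : Set G) → K = ⊥
  comm : ∀ a ∈ Q, ∀ b ∈ Q, a * b * a⁻¹ * b⁻¹ = 1 ∨ a * b * a⁻¹ * b⁻¹ = z
  sq : ∀ a ∈ Q, a * a = 1 ∨ a * a = z

theorem hyp_of_large [Finite G] {Q : Subgroup G} (hQ : IsLargeExtraspecial Q) {z : G}
    (hz : (center ↥Q).map Q.subtype = zpowers z) : Hyp Q z := by
  have : Fact (Nat.Prime 2) := ⟨Nat.prime_two⟩
  have hE := hQ.1
  have hzc : z ∈ (center ↥Q).map Q.subtype := hz ▸ mem_zpowers z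
  obtain ⟨z0, hz0, hz0z⟩ := hzc
  have hcard : Nat.card (zpowers z) = 2 := by
    rw [← hz, ← hE.2]
    exact Nat.card_congr ((center ↥Q).equivMapOfInjective Q.subtype Q.subtype_injective).symm.toEquiv
  have hord : orderOf z = 2 := by rwa [Nat.card_zpowers] at hcard
  have hzz : z * z = 1 := by rw [← pow_two, ← hord, pow_orderOf_eq_one]
  have hz1 : z ≠ 1 := by
    rintro rfl
    simp at hord
  have hQz : z ∈ Q := by
    rw [← hz0z]
    exact z0.2
  have hmemz : ∀ y : ↥Q, y ∈ center ↥Q → (y : G) = 1 ∨ (y : G) = z := by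
    intro y hy
    rw [← Cfsg.Agent.Lib.PGroup.LargeFz.mem_zpowers_iff_invol hzz, ← hz]
    exact ⟨y, hy, rfl⟩
  have hzc' : ∀ q ∈ Q, q * z = z * q := by
    intro q hq
    rw [← hz0z]
    exact congrArg Subtype.val ((mem_center_iff.mp hz0) ⟨q, hq⟩)
  refine ⟨hQz, hzz, hz1, hE.1.1, ?_, hzc', ?_, hQ.2.2.2, ?_, ?_⟩
  · intro x hx
    have h1 : x ∈ centralizer (Q : Set G) := by
      rw [Subgroup.mem_centralizer_iff]
      intro q hq
      exact (hx q hq).symm
    rw [hQ.2.1, hz, Cfsg.Agent.Lib.PGroup.LargeFz.mem_zpowers_iff_invol hzz] at h1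
    exact h1
  · intro c hc q hq
    have h1 : c ∈ centralizer (((center ↥Q).map Q.subtype : Subgroup G) : Set G) := by
      rw [Subgroup.mem_centralizer_iff]
      intro y hy
      rw [hz] at hy
      have hy' : y ∈ zpowers z := hy
      rw [Cfsg.Agent.Lib.PGroup.LargeFz.mem_zpowers_iff_invol hzz] at hy'
      rcases hy' with rfl | rfl
      · simp
      · exact hc.symm
    exact (mem_normalizer_iff.mp (hQ.2.2.1 h1) q).mp hq
  · intro a ha b hb
    have h1 := Cfsg.Agent.Lib.PGroup.Extraspecial.IsExtraspecial.comm_mem_center hE ⟨a, ha⟩ ⟨b, hb⟩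
    have h2 := hmemz _ h1
    simpa [commutatorElement_def] using h2
  · intro a ha
    have h1 := Cfsg.Agent.Lib.PGroup.Extraspecial.IsExtraspecial.pow_mem_center hE ⟨a, ha⟩
    have h2 := hmemz _ h1
    simpa [pow_two] using h2

section

variable [Finite G] {Q : Subgroup G} {z : G} {L : Subgroup G} {a w : G}

theorem Hyp.solvable (h : Hyp Q z) : Group.IsSolvable ↥Q := by
  have : Fact (Nat.Prime 2) := ⟨Nat.prime_two⟩
  have := h.pg.isNilpotent
  infer_instance

/-- No component of `G` centralizes `z`. -/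
theorem Hyp.not_cent (h : Hyp Q z) {L : Subgroup G} (hL : IsComponent L) :
    ¬ ∀ x ∈ L, x * z = z * x := by
  intro hc
  have hN : L ≤ normalizer (Q : Set G) := by
    intro x hx
    rw [mem_normalizer_iff]
    intro y
    refine ⟨fun hy => h.norm x (hc x hx) y hy, fun hy => ?_⟩
    have hxi : x⁻¹ * z = z * x⁻¹ := by
      calc x⁻¹ * z = x⁻¹ * (z * x) * x⁻¹ := by group
        _ = x⁻¹ * (x * z) * x⁻¹ := by rw [hc x hx]
        _ = z * x⁻¹ := by group
    have := h.norm x⁻¹ hxi _ hy
    simpa [mul_assoc] using this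
  have hcomm := commutator_eq_bot_of_isSolvable hL h.solvable hN
  have h1 : L ≤ zpowers z := by
    intro x hx
    rw [Cfsg.Agent.Lib.PGroup.LargeFz.mem_zpowers_iff_invol h.zz]
    exact h.cent x (commutator_eq_bot_iff_forall.mp hcomm x hx)
  have hsolv : Group.IsSolvable ↥(zpowers z) := inferInstance
  exact not_le_of_isSolvable hL hsolv h1

/-- A nontrivial normal subgroup of a Sylow subgroup above `Q` contains `z`. -/
theorem Hyp.z_mem (h : Hyp Q z) (T : Sylow 2 G) (hQT : Q ≤ T) {N : Subgroup G}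
    (hNT : N ≤ T) (hn : ∀ t ∈ (T : Subgroup G), ∀ n ∈ N, t * n * t⁻¹ ∈ N) (hne : N ≠ ⊥) : z ∈ N := by
  have : Fact (Nat.Prime 2) := ⟨Nat.prime_two⟩
  set N' : Subgroup (T : Subgroup G) := N.subgroupOf T with hN'
  have hnorm : N'.Normal := by
    refine ⟨fun x hx c => ?_⟩
    rw [hN', mem_subgroupOf] at hx ⊢
    exact hn c c.2 x hx
  have hne' : N' ≠ ⊥ := by
    intro hbot
    apply hne
    rw [eq_bot_iff]
    intro x hx
    have : (⟨x, hNT hx⟩ : (T : Subgroup G)) ∈ N' := by
      rw [hN', mem_subgroupOf]; exact hx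
    rw [hbot, mem_bot] at this
    simpa using congrArg Subtype.val this
  have hinf := Cfsg.Agent.Lib.Basic.SylowUtil.inf_center_ne_bot_of_isPGroup T.isPGroup' hne'
  obtain ⟨x, hx, hx1⟩ := (Subgroup.ne_bot_iff_exists_ne_one.mp hinf) |> fun ⟨x, hx⟩ =>
    (⟨x.1, x.2, fun h => hx (Subtype.ext h)⟩ : ∃ x : (T : Subgroup G), x ∈ N' ⊓ center (T : Subgroup G) ∧ x ≠ 1)
  obtain ⟨hxN, hxc⟩ := Subgroup.mem_inf.mp hx
  have hxG : (x : G) ∈ N := by
    rw [hN', mem_subgroupOf] at hxN
    exact hxN
  have hcent : ∀ q ∈ Q, (x : G) * q = q * (x : G) := by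
    intro q hq
    have := (mem_center_iff.mp hxc) ⟨q, hQT hq⟩
    exact (congrArg Subtype.val this).symm
  rcases h.cent _ hcent with h1 | h1
  · exact absurd (Subtype.ext h1) hx1
  · rwa [← h1]

/-- `z` is central in a Sylow subgroup above `Q`. -/
theorem Hyp.z_central (h : Hyp Q z) (T : Sylow 2 G) (hQT : Q ≤ T) :
    ∀ t ∈ (T : Subgroup G), t * z = z * t := by
  have : Fact (Nat.Prime 2) := ⟨Nat.prime_two⟩
  have hTne : (T : Subgroup G) ≠ ⊥ := by
    intro hbot
    have : z ∈ (T : Subgroup G) := hQT h.zQ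
    rw [hbot, mem_bot] at this
    exact h.z1 this
  set N : Subgroup G := (center (T : Subgroup G)).map (T : Subgroup G).subtype with hN
  have hNT : N ≤ T := map_subtype_le _
  have hzN : z ∈ N := by
    apply h.z_mem T hQT hNT
    · rintro t ht _ ⟨y, hy, rfl⟩
      refine ⟨y, hy, ?_⟩
      have := (mem_center_iff.mp hy) ⟨t, ht⟩
      have h2 := congrArg Subtype.val this
      simp only [Subgroup.coe_mul] at h2
      simp only [Subgroup.coe_subtype]
      rw [h2]
      group
    · intro hbot
      have hnt : Nontrivial (T : Subgroup G) := by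
        refine ⟨⟨⟨z, hQT h.zQ⟩, 1, fun h1 => h.z1 (congrArg Subtype.val h1)⟩⟩
      have hcn : Nontrivial (center (T : Subgroup G)) := T.isPGroup'.center_nontrivial
      obtain ⟨b, hb⟩ := exists_ne (1 : center (T : Subgroup G))
      have : ((b : (T : Subgroup G)) : G) ∈ N := ⟨b, b.2, rfl⟩
      rw [hbot, mem_bot] at this
      exact hb (Subtype.ext (Subtype.ext this))
  obtain ⟨y, hy, hyz⟩ := hzN
  intro t ht
  have := (mem_center_iff.mp hy) ⟨t, ht⟩
  have h2 := congrArg Subtype.val this
  simp only [Subgroup.coe_mul] at h2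
  simp only [Subgroup.coe_subtype] at hyz
  rwa [hyz] at h2

/-- The Fitting subgroup is `O₂(G)`. -/
theorem Hyp.fitting_eq (h : Hyp Q z) : fittingSubgroup G = pCore 2 G := by
  have : Fact (Nat.Prime 2) := ⟨Nat.prime_two⟩
  apply le_antisymm
  · rw [Cfsg.Agent.Lib.Basic.PCore.fittingSubgroup_eq_iSup_pCore]
    apply iSup_le
    rintro ⟨p, hp⟩
    have hpp : p.Prime := Nat.prime_of_mem_primeFactors hp
    by_cases hp2 : p = 2
    · subst hp2
      exact le_rfl
    · have : Fact p.Prime := ⟨hpp⟩
      have hodd : Odd (Nat.card (pCore p G)) := by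
        obtain ⟨k, hk⟩ := IsPGroup.iff_card.mp (Cfsg.Agent.Lib.Basic.PCore.pCore_isPGroup p (G := G))
        rw [hk]
        exact (hpp.odd_of_ne_two hp2).pow
      have hN : (pCore p G).Normal := inferInstance
      have hb := h.odd _ hodd (by
        rw [normalizer_eq_top_iff.mpr hN]
        exact le_top)
      simp only
      rw [hb]
      exact bot_le
  · exact Cfsg.Agent.Lib.Basic.PCore.pCore_le_fittingSubgroup 2

/-- The first case: `O₂(G) ≠ 1`. -/
theorem Hyp.case_core (h : Hyp Q z) (hO : pCore 2 G ≠ ⊥) :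
    IsMulCommutative ↥(normalClosure ({z} : Set G)) ∧ generalizedFittingSubgroup G = pCore 2 G := by
  have : Fact (Nat.Prime 2) := ⟨Nat.prime_two⟩
  obtain ⟨T, hT⟩ := h.pg.exists_le_sylow
  have hOT : pCore 2 G ≤ T := Cfsg.Agent.Lib.Basic.PCore.pCore_le_sylow T
  have hON : (pCore 2 G).Normal := inferInstance
  have hOp : IsPGroup 2 (pCore 2 G) := Cfsg.Agent.Lib.Basic.PCore.pCore_isPGroup 2
  have hzO : z ∈ pCore 2 G := h.z_mem T hT hOT (fun t _ n hn => hON.conj_mem n hn t) hO
  have hlayer : layer G = ⊥ := by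
    have hsolv : Group.IsSolvable ↥(pCore 2 G) := by
      have := hOp.isNilpotent
      infer_instance
    have hcomm := commutator_layer_eq_bot_of_isSolvable hsolv hON
    rw [layer, sSup_eq_bot]
    intro L hL
    exfalso
    apply h.not_cent hL
    intro x hx
    exact commutator_eq_bot_iff_forall.mp hcomm x (le_layer hL hx) z hzO
  constructor
  · -- the centre of `O₂(G)` contains `z`
    set W : Subgroup G := (center ↥(pCore 2 G)).map (pCore 2 G).subtype with hW
    have hWn : W.Normal := by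
      have : (center ↥(pCore 2 G)).Characteristic := inferInstance
      exact Cfsg.Agent.Lib.Basic.PCore.map_subtype_normal_of_characteristic _
    have hWne : W ≠ ⊥ := by
      have hnt : Nontrivial ↥(pCore 2 G) := (Subgroup.nontrivial_iff_ne_bot _).mpr hO
      have hcn : Nontrivial (center ↥(pCore 2 G)) := hOp.center_nontrivial
      obtain ⟨b, hb⟩ := exists_ne (1 : center ↥(pCore 2 G))
      intro hbot
      have : ((b : ↥(pCore 2 G)) : G) ∈ W := ⟨b, b.2, rfl⟩
      rw [hbot, mem_bot] at this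
      exact hb (Subtype.ext (Subtype.ext this))
    have hzW : z ∈ W := h.z_mem T hT ((map_subtype_le _).trans hOT)
      (fun t _ n hn => hWn.conj_mem n hn t) hWne
    have hle : normalClosure ({z} : Set G) ≤ W := by
      have := hWn
      apply normalClosure_le_normal
      simpa using hzW
    refine ⟨⟨fun a b => ?_⟩⟩
    obtain ⟨a', ha', hae⟩ := hle a.2
    obtain ⟨b', hb', hbe⟩ := hle b.2
    apply Subtype.ext
    simp only [Subgroup.coe_mul]
    rw [← hae, ← hbe]
    have := (mem_center_iff.mp ha') b'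
    simp only [Subgroup.coe_subtype, ← Subgroup.coe_mul]
    exact congrArg Subtype.val this.symm
  · rw [generalizedFittingSubgroup, hlayer, bot_sup_eq, h.fitting_eq]

/-! ### The main case: `F(G) = 1` -/

/-- Components have trivial centre. -/
theorem inf_centralizer_eq_bot (hF : fittingSubgroup G = ⊥) {L : Subgroup G} (hL : IsComponent L) :
    L ⊓ centralizer (L : Set G) = ⊥ := by
  rw [← map_center_eq]
  have hsub : ((center ↥L).map L.subtype).IsSubnormal :=
    (Cfsg.Agent.Lib.Components.Basic.isSubnormal_map_subtype_iff L hL.1 _).mp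
      (Subgroup.Normal.isSubnormal inferInstance)
  have hnil : Group.IsNilpotent ↥((center ↥L).map L.subtype) := by
    have hc : IsMulCommutative ↥((center ↥L).map L.subtype) := by
      refine ⟨⟨fun a b => ?_⟩⟩
      obtain ⟨a', ha', hae⟩ := a.2
      obtain ⟨b', hb', hbe⟩ := b.2
      apply Subtype.ext
      simp only [Subgroup.coe_mul]
      rw [← hae, ← hbe]
      have := (mem_center_iff.mp ha') b'
      simp only [Subgroup.coe_subtype, ← Subgroup.coe_mul]
      exact congrArg Subtype.val this.symm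
    exact Cfsg.Agent.Lib.Components.FStar2.isNilpotent_of_isMulCommutative
  have := Cfsg.Agent.Lib.Basic.PCore.le_fittingSubgroup_of_subnormal hsub hnil
  rw [hF] at this
  exact le_bot_iff.mp this

theorem eq_one_of_mem_of_mem (hF : fittingSubgroup G = ⊥) {L : Subgroup G} (hL : IsComponent L) {x : G}
    (hx : x ∈ L) (hc : x ∈ centralizer (L : Set G)) : x = 1 := by
  have : x ∈ L ⊓ centralizer (L : Set G) := ⟨hx, hc⟩
  rw [inf_centralizer_eq_bot hF hL, mem_bot] at this
  exact this

theorem dec_unique (hF : fittingSubgroup G = ⊥) {L : Subgroup G} (hL : IsComponent L) {a a' w w' : G}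
    (ha : a ∈ L) (ha' : a' ∈ L) (hw : w ∈ centralizer (L : Set G)) (hw' : w' ∈ centralizer (L : Set G))
    (h : a * w = a' * w') : a = a' ∧ w = w' := by
  have h1 : a'⁻¹ * a = w' * w⁻¹ := by
    calc a'⁻¹ * a = a'⁻¹ * (a * w) * w⁻¹ := by group
      _ = a'⁻¹ * (a' * w') * w⁻¹ := by rw [h]
      _ = w' * w⁻¹ := by group
  have h2 : a'⁻¹ * a = 1 := eq_one_of_mem_of_mem hF hL (mul_mem (inv_mem ha') ha)
    (h1 ▸ mul_mem hw' (inv_mem hw))
  have h3 : a = a' := by
    calc a = a' * (a'⁻¹ * a) := by group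
      _ = a' := by rw [h2, mul_one]
  subst h3
  exact ⟨rfl, mul_left_cancel h⟩

theorem mem_centralizer_of_ne {L K : Subgroup G} (hL : IsComponent L) (hK : IsComponent K) (hne : K ≠ L)
    {b : G} (hb : b ∈ K) : b ∈ centralizer (L : Set G) := by
  rw [mem_centralizer_iff]
  intro l hl
  exact comps_commute hL hK hne.symm l hl b hb

theorem layer_le_sup_centralizer {L : Subgroup G} (hL : IsComponent L) :
    layer G ≤ L ⊔ centralizer (L : Set G) := by
  apply sSup_le
  intro K hK
  by_cases hKL : K = L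
  · rw [hKL]; exact le_sup_left
  · refine le_trans ?_ le_sup_right
    intro b hb
    exact mem_centralizer_of_ne hL hK hKL hb

theorem exists_dec_of_mem {L : Subgroup G} (hL : IsComponent L) {x : G} (hx : x ∈ layer G) :
    ∃ a ∈ L, ∃ w ∈ centralizer (L : Set G), x = a * w :=
  mem_sup_of_commute (fun a ha b hb => (mem_centralizer_iff.mp hb a ha)) (layer_le_sup_centralizer hL hx)

/-- `z` lies in the layer. -/
theorem Hyp.z_mem_layer (h : Hyp Q z) (hF : fittingSubgroup G = ⊥) : z ∈ layer G := by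
  have : Fact (Nat.Prime 2) := ⟨Nat.prime_two⟩
  have hE : (layer G).Normal := layer_normal
  have hFs : generalizedFittingSubgroup G = layer G := by
    rw [generalizedFittingSubgroup, hF, sup_bot_eq]
  have hEne : layer G ≠ ⊥ := by
    intro hbot
    have h1 := Cfsg.Agent.Lib.Components.FStar.centralizer_generalizedFitting_le (G := G)
    rw [hFs, hbot] at h1
    have h2 : z ∈ centralizer ((⊥ : Subgroup G) : Set G) := by
      rw [mem_centralizer_iff]
      intro x hx
      have : x = 1 := by simpa using hx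
      simp [this]
    exact h.z1 (by simpa using h1 h2)
  have hev : 2 ∣ Nat.card (layer G) := by
    by_contra hodd
    have : Odd (Nat.card (layer G)) := by
      rwa [← Nat.not_even_iff_odd, even_iff_two_dvd]
    exact hEne (h.odd _ this (by rw [normalizer_eq_top_iff.mpr hE]; exact le_top))
  obtain ⟨T, hT⟩ := h.pg.exists_le_sylow
  obtain ⟨R, hR⟩ := Cfsg.Agent.Lib.Basic.SylowUtil.exists_sylow_inf_normal T (layer G)
  have hRne : (R : Subgroup (layer G)) ≠ ⊥ := R.ne_bot_of_dvd_card hev
  have hinf : (T : Subgroup G) ⊓ layer G ≠ ⊥ := by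
    rw [← hR]
    intro hbot
    apply hRne
    rw [Subgroup.map_eq_bot_iff_of_injective _ (layer G).subtype_injective] at hbot
    exact hbot
  have := h.z_mem T hT (N := (T : Subgroup G) ⊓ layer G) inf_le_left
    (fun t ht n hn => Subgroup.mem_inf.mpr ⟨mul_mem (mul_mem ht (Subgroup.mem_inf.mp hn).1) (inv_mem ht),
      hE.conj_mem n (Subgroup.mem_inf.mp hn).2 t⟩) hinf
  exact this.2

/-- The centre of the layer is trivial. -/
theorem layer_inf_centralizer (hF : fittingSubgroup G = ⊥) :
    layer G ⊓ centralizer (layer G : Set G) = ⊥ := by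
  rw [← map_center_eq, Cfsg.Agent.Lib.Components.FStar2.center_layer_eq, hF, bot_inf_eq]

/-- `Q` is transitive on the components. -/
theorem Hyp.transitive (h : Hyp Q z) (hF : fittingSubgroup G = ⊥) {L K : Subgroup G}
    (hL : IsComponent L) (hK : IsComponent K) : ∃ u ∈ Q, K = cj u L := by
  by_contra hno
  push Not at hno
  set O : Set (Subgroup G) := {X | ∃ u ∈ Q, X = cj u L} with hO
  set B : Set (Subgroup G) := {X | IsComponent X ∧ X ∉ O} with hB
  have hOc : ∀ X ∈ O, IsComponent X := by
    rintro X ⟨u, _, rfl⟩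
    exact isComponent_conj u hL
  have hLO : L ∈ O := by
    show ∃ u ∈ Q, L = cj u L
    exact ⟨1, one_mem _, (cj_one L).symm⟩
  have hKB : K ∈ B := by
    refine ⟨hK, fun hcon => ?_⟩
    obtain ⟨u, hu, hKu⟩ := hcon
    exact hno u hu hKu
  have hAB : ∀ a ∈ sSup O, ∀ b ∈ sSup B, a * b = b * a := by
    apply sSup_commute
    intro X hX Y hY a ha b hb
    exact comps_commute (hOc X hX) hY.1 (fun hXY => hY.2 (hXY ▸ hX)) a ha b hb
  have hAE : sSup O ≤ layer G := sSup_le fun X hX => le_layer (hOc X hX)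
  have hBE : sSup B ≤ layer G := sSup_le fun X hX => le_layer hX.1
  have hEAB : layer G ≤ sSup O ⊔ sSup B := by
    apply sSup_le
    intro X hX
    by_cases hXO : X ∈ O
    · exact le_trans (le_sSup hXO) le_sup_left
    · exact le_trans (le_sSup (show X ∈ B from ⟨hX, hXO⟩)) le_sup_right
  obtain ⟨a, ha, b, hb, hzab⟩ := mem_sup_of_commute hAB (hEAB (h.z_mem_layer hF))
  have hinv : ∀ q ∈ Q, a * q = q * a := by
    intro q hq
    have hqa : q * a * q⁻¹ ∈ sSup O := map_sSup_le (fun X hX => by
      obtain ⟨u, hu, rfl⟩ := hX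
      show ∃ v ∈ Q, cj q (cj u L) = cj v L
      exact ⟨q * u, mul_mem hq hu, cj_cj q u L⟩) ha
    have hqb : q * b * q⁻¹ ∈ sSup B := map_sSup_le (fun X hX => by
      refine ⟨isComponent_conj q hX.1, fun hcon => hX.2 ?_⟩
      obtain ⟨u, hu, hXu⟩ := hcon
      show ∃ v ∈ Q, X = cj v L
      refine ⟨q⁻¹ * u, mul_mem (inv_mem hq) hu, ?_⟩
      rw [← cj_cj, ← hXu, cj_inv_cj]) hb
    have hz' : (q * a * q⁻¹) * (q * b * q⁻¹) = a * b := by
      rw [← hzab]
      calc (q * a * q⁻¹) * (q * b * q⁻¹) = q * (a * b) * q⁻¹ := by group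
        _ = q * z * q⁻¹ := by rw [hzab]
        _ = z := by rw [h.zc q hq]; group
    -- the intersection of the two parts is trivial
    have h1 : a⁻¹ * (q * a * q⁻¹) = b * (q * b * q⁻¹)⁻¹ := by
      calc a⁻¹ * (q * a * q⁻¹) = a⁻¹ * ((q * a * q⁻¹) * (q * b * q⁻¹)) * (q * b * q⁻¹)⁻¹ := by group
        _ = a⁻¹ * (a * b) * (q * b * q⁻¹)⁻¹ := by rw [hz']
        _ = b * (q * b * q⁻¹)⁻¹ := by group
    have hvA : a⁻¹ * (q * a * q⁻¹) ∈ sSup O := mul_mem (inv_mem ha) hqa
    have hvB : a⁻¹ * (q * a * q⁻¹) ∈ sSup B := h1 ▸ mul_mem hb (inv_mem hqb)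
    have hv : a⁻¹ * (q * a * q⁻¹) = 1 := by
      have hmem : a⁻¹ * (q * a * q⁻¹) ∈ layer G ⊓ centralizer (layer G : Set G) := by
        refine Subgroup.mem_inf.mpr ⟨hAE hvA, ?_⟩
        rw [mem_centralizer_iff]
        have hc : sSup O ⊔ sSup B ≤ centralizer ({a⁻¹ * (q * a * q⁻¹)} : Set G) := by
          apply sup_le
          · intro y hy
            rw [mem_centralizer_singleton_iff]
            exact (hAB y hy _ hvB)
          · intro y hy
            rw [mem_centralizer_singleton_iff]
            exact (hAB _ hvA y hy).symm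
        intro y hy
        have := hc (hEAB hy)
        rw [mem_centralizer_singleton_iff] at this
        exact this
      rw [layer_inf_centralizer hF, mem_bot] at hmem
      exact hmem
    have h2 : q * a * q⁻¹ = a := by
      calc q * a * q⁻¹ = a * (a⁻¹ * (q * a * q⁻¹)) := by group
        _ = a := by rw [hv, mul_one]
    calc a * q = (q * a * q⁻¹) * q := by rw [h2]
      _ = q * a := by group
  rcases h.cent a hinv with rfl | rfl
  · -- `z` lies in the part of the other components
    rw [one_mul] at hzab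
    subst hzab
    exact h.not_cent hL fun x hx => hAB x (le_sSup hLO hx) _ hb
  · -- `z` lies in the part of the orbit
    exact h.not_cent hK fun x hx => (hAB _ ha x (le_sSup hKB hx)).symm

/-- Decomposition of `z` along a component. -/
structure Dec (L : Subgroup G) (z a w : G) : Prop where
  ha : a ∈ L
  hw : w ∈ centralizer (L : Set G)
  eq : z = a * w

theorem Dec.comm {L : Subgroup G} {a w : G} (d : Dec L z a w) : a * w = w * a :=
  mem_centralizer_iff.mp d.hw a d.ha

theorem Dec.a_ne_one (d : Dec L z a w) (h : Hyp Q z) (hL : IsComponent L) : a ≠ 1 := by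
  rintro rfl
  apply h.not_cent hL
  intro x hx
  have hzw : z = w := by rw [d.eq, one_mul]
  rw [hzw]
  exact mem_centralizer_iff.mp d.hw x hx

theorem Dec.aa (d : Dec L z a w) (h : Hyp Q z) (hF : fittingSubgroup G = ⊥) (hL : IsComponent L) :
    a * a = 1 := by
  have h1 : (a * a) * (w * w) = 1 * 1 := by
    rw [one_mul, ← h.zz, d.eq]
    have := d.comm
    calc a * a * (w * w) = a * (a * w) * w := by group
      _ = a * (w * a) * w := by rw [this]
      _ = a * w * (a * w) := by group
  exact (dec_unique hF hL (mul_mem d.ha d.ha) (one_mem _) (mul_mem d.hw d.hw) (one_mem _) h1).1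

theorem Dec.commute_z (d : Dec L z a w) {x : G} (hx : x ∈ L) (hxa : x * a = a * x) : x * z = z * x := by
  have hxw : x * w = w * x := mem_centralizer_iff.mp d.hw x hx
  rw [d.eq]
  calc x * (a * w) = (x * a) * w := by group
    _ = a * (x * w) := by rw [hxa]; group
    _ = a * w * x := by rw [hxw]; group

theorem Dec.c_mem (d : Dec L z a w) (h : Hyp Q z) {x u : G} (hx : x ∈ L) (hxa : x * a = a * x)
    (hu : u ∈ Q) : x * (u * x⁻¹ * u⁻¹) ∈ Q := by
  have h1 := h.norm x (d.commute_z hx hxa) u hu
  have h2 : x * (u * x⁻¹ * u⁻¹) = x * u * x⁻¹ * u⁻¹ := by group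
  rw [h2]
  exact mul_mem h1 (inv_mem hu)

theorem Dec.key (d : Dec L z a w) (hF : fittingSubgroup G = ⊥) (hL : IsComponent L) {x t : G}
    (hx : x ∈ L) (ht : t ∈ centralizer (L : Set G)) (h : x * t = 1 ∨ x * t = z) : x = 1 ∨ x = a := by
  rcases h with h | h
  · left
    exact (dec_unique hF hL hx (one_mem _) ht (one_mem _) (by rw [h, one_mul])).1
  · right
    exact (dec_unique hF hL hx d.ha ht d.hw (by rw [h, d.eq])).1

/-- The normality of a conjugate by `z`. -/
theorem cj_z_eq (h : Hyp Q z) (hF : fittingSubgroup G = ⊥) {L : Subgroup G} (hL : IsComponent L) :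
    cj z L = L :=
  cj_eq_of_mem_normalizer (Cfsg.Agent.Lib.Components.Balance.layer_le_normalizer hL (h.z_mem_layer hF))

theorem cj_sq_eq (h : Hyp Q z) (hF : fittingSubgroup G = ⊥) {L : Subgroup G} (hL : IsComponent L)
    {v : G} (hv : v ∈ Q) : cj (v * v) L = L := by
  rcases h.sq v hv with h1 | h1
  · rw [h1, cj_one]
  · rw [h1, cj_z_eq h hF hL]

theorem cj_inv_eq (h : Hyp Q z) (hF : fittingSubgroup G = ⊥) {L : Subgroup G} (hL : IsComponent L)
    {v : G} (hv : v ∈ Q) : cj v⁻¹ L = cj v L := by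
  have h1 : cj v L = cj v⁻¹ (cj (v * v) L) := by
    rw [cj_cj]
    congr 1
    group
  rw [h1, cj_sq_eq h hF hL hv]

/-- Cayley's lemma in the form used. -/
theorem no_small_centralizer {L : Subgroup G} (hL : IsComponent L)
    (hS : IsSimpleGroup ↥L) {a : G} (ha : a ∈ L) (ha1 : a ≠ 1) (haa : a * a = 1)
    (hC : ∀ x ∈ L, x * a = a * x → x = 1 ∨ x = a) : False := by
  have hnc : ¬ IsMulCommutative ↥L := Cfsg.Agent.Lib.Components.Quasisimple.not_isMulCommutative_of_isQuasisimple hL.2
  have := hS
  refine cayley (X := ↥L) hnc (a := ⟨a, ha⟩) (fun h1 => ha1 (congrArg Subtype.val h1)) (Subtype.ext haa) ?_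
  intro x hx
  rcases hC x x.2 (congrArg Subtype.val hx) with h1 | h1
  · left; exact Subtype.ext h1
  · right; exact Subtype.ext h1

/-- A component is simple when the Fitting subgroup is trivial. -/
theorem isSimple_of_component (hF : fittingSubgroup G = ⊥) {L : Subgroup G} (hL : IsComponent L) :
    IsSimpleGroup ↥L := by
  have hc : center ↥L = ⊥ := by
    have h1 := inf_centralizer_eq_bot hF hL
    rw [← map_center_eq, Subgroup.map_eq_bot_iff_of_injective _ L.subtype_injective] at h1
    exact h1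
  have := hL.2.2
  exact ((QuotientGroup.quotientMulEquivOfEq hc).trans QuotientGroup.quotientBot).symm.isSimpleGroup

/-- There are at most two components. -/
theorem Hyp.no_three (h : Hyp Q z) (hF : fittingSubgroup G = ⊥) {L : Subgroup G} (hL : IsComponent L)
    {u v : G} (hu : u ∈ Q) (hv : v ∈ Q) (h1 : cj u L ≠ L) (h2 : cj v L ≠ L) (h12 : cj u L ≠ cj v L) :
    False := by
  obtain ⟨a, ha, w, hw, heq⟩ := exists_dec_of_mem hL (h.z_mem_layer hF)
  have d : Dec L z a w := ⟨ha, hw, heq⟩
  have hK1 := isComponent_conj u hL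
  have hK2 := isComponent_conj v hL
  have hK3 : cj (v * u) L ≠ L := by
    intro h3
    apply h12
    have h4 : cj v⁻¹ (cj (v * u) L) = cj u L := by
      rw [cj_cj]
      congr 1
      group
    rw [← h4, h3, cj_inv_eq h hF hL hv]
  have hK3c := isComponent_conj (v * u) hL
  refine no_small_centralizer hL (isSimple_of_component hF hL) d.ha (d.a_ne_one h hL) (d.aa h hF hL) ?_
  intro x hx hxa
  set y : G := u * x⁻¹ * u⁻¹ with hy
  have hyK : y ∈ cj u L := conj_mem_cj (inv_mem hx)
  have hyc : y ∈ centralizer (L : Set G) := mem_centralizer_of_ne hL hK1 h1 hyK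
  have hc := d.c_mem h hx hxa hu
  have hcomm := h.comm _ (inv_mem hc) v hv
  simp only [inv_inv] at hcomm
  have hxy : x * y = y * x := mem_centralizer_iff.mp hyc x hx
  -- the commutator, as an element of `L` times an element of `C(L)`
  set t : G := y⁻¹ * ((v * x * v⁻¹) * (v * y * v⁻¹)) with ht
  have htc : t ∈ centralizer (L : Set G) := by
    refine mul_mem (inv_mem hyc) (mul_mem ?_ ?_)
    · exact mem_centralizer_of_ne hL hK2 h2 (conj_mem_cj hx)
    · refine mem_centralizer_of_ne hL hK3c hK3 ?_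
      have : v * y * v⁻¹ = (v * u) * x⁻¹ * (v * u)⁻¹ := by
        rw [hy]; group
      rw [this]
      exact conj_mem_cj (inv_mem hx)
  have hval : (x * y)⁻¹ * v * (x * y) * v⁻¹ = x⁻¹ * t := by
    have h5 : (x * y)⁻¹ = x⁻¹ * y⁻¹ := by
      rw [hxy]; group
    rw [h5, ht]
    group
  rw [hval] at hcomm
  have := d.key hF hL (inv_mem hx) htc hcomm
  rcases this with h6 | h6
  · left
    exact inv_eq_one.mp h6
  · right
    have haa := d.aa h hF hL
    have h7 : a⁻¹ = a := inv_eq_of_mul_eq_one_left haa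
    rw [← h7, ← h6, inv_inv]

/-- Every component lies in the normal closure of `z`. -/
theorem Hyp.closure_eq_layer (h : Hyp Q z) (hF : fittingSubgroup G = ⊥) :
    normalClosure ({z} : Set G) = layer G := by
  have hE : (layer G).Normal := layer_normal
  apply le_antisymm
  · apply normalClosure_le_normal
    simpa using h.z_mem_layer hF
  · apply sSup_le
    intro L hL
    by_contra hno
    have hS := isSimple_of_component hF hL
    set M : Subgroup G := normalClosure ({z} : Set G) with hM
    have hMn : M.Normal := normalClosure_normal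
    have hzM : z ∈ M := subset_normalClosure (Set.mem_singleton z)
    have hsub : (M.subgroupOf L).Normal := by
      exact hMn.subgroupOf L
    rcases hsub.eq_bot_or_eq_top with h1 | h1
    · apply h.not_cent hL
      intro x hx
      have hzN := Cfsg.Agent.Lib.Components.Balance.layer_le_normalizer hL (h.z_mem_layer hF)
      -- the commutator `[x, z]` lies in `L ∩ M`
      have h2 : x * (z * x⁻¹ * z⁻¹) ∈ L := mul_mem hx ((mem_normalizer_iff.mp hzN _).mp (inv_mem hx))
      have h3 : x * (z * x⁻¹ * z⁻¹) ∈ M := by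
        have h4 : x * (z * x⁻¹ * z⁻¹) = (x * z * x⁻¹) * z⁻¹ := by group
        rw [h4]
        exact mul_mem (hMn.conj_mem z hzM x) (inv_mem hzM)
      have h5 : (⟨_, h2⟩ : ↥L) ∈ M.subgroupOf L := by
        rw [mem_subgroupOf]
        exact h3
      rw [h1, mem_bot] at h5
      have h6 : x * (z * x⁻¹ * z⁻¹) = 1 := congrArg Subtype.val h5
      calc x * z = x * (z * x⁻¹ * z⁻¹) * (z * x) := by group
        _ = z * x := by rw [h6, one_mul]
    · exact hno ((Subgroup.subgroupOf_eq_top).mp h1)

/-- A Sylow subgroup meets a normal subgroup in a subgroup of odd relative index. -/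
theorem odd_relIndex_inf {T L H : Subgroup G} (hT : Odd (T.relIndex L)) (hHL : H ≤ L)
    (hn : ∀ l ∈ L, ∀ h ∈ H, l * h * l⁻¹ ∈ H) : Odd ((T ⊓ H).relIndex H) := by
  rw [Subgroup.inf_relIndex_right, ← Subgroup.relIndex_subgroupOf hHL]
  set T' := T.subgroupOf L with hT'
  set H' := H.subgroupOf L with hH'
  have hnorm : H'.Normal := by
    constructor
    intro n hn' c
    rw [hH', Subgroup.mem_subgroupOf] at hn' ⊢
    exact hn c c.2 n hn'
  have a := Subgroup.relIndex_mul_relIndex (T' ⊓ H') T' (T' ⊔ H') inf_le_left le_sup_left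
  have b := Subgroup.relIndex_mul_relIndex (T' ⊓ H') H' (T' ⊔ H') inf_le_right le_sup_right
  have c : H'.relIndex (T' ⊔ H') = H'.relIndex T' := Subgroup.relIndex_sup_right _ _
  have d : (T' ⊓ H').relIndex T' = H'.relIndex T' := Subgroup.inf_relIndex_left _ _
  have e : (T' ⊓ H').relIndex H' = T'.relIndex H' := Subgroup.inf_relIndex_right _ _
  rw [c, e] at b
  rw [d, ← b, mul_comm] at a
  have hpos : H'.relIndex T' ≠ 0 := (Nat.card_pos (α := T' ⧸ H'.subgroupOf T')).ne'
  have f : T'.relIndex (T' ⊔ H') = T'.relIndex H' := Nat.eq_of_mul_eq_mul_right (Nat.pos_of_ne_zero hpos) a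
  rw [← f]
  have g : T'.relIndex (T' ⊔ H') ∣ T'.index := Subgroup.relIndex_dvd_index_of_le le_sup_left
  exact Odd.of_dvd_nat hT g

/-- `T ∩ L` has odd index in a component `L` whenever `T` is Sylow in `G`. -/
theorem odd_relIndex_component (hF : fittingSubgroup G = ⊥) (T : Sylow 2 G) {L : Subgroup G}
    (hL : IsComponent L) : Odd ((((T : Subgroup G) ⊓ layer G) ⊓ L).relIndex L) := by
  have : Fact (Nat.Prime 2) := ⟨Nat.prime_two⟩
  have hE : (layer G).Normal := layer_normal
  have h0 : Odd ((T : Subgroup G).relIndex (⊤ : Subgroup G)) := by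
    rw [Subgroup.relIndex_top_right, ← Nat.not_even_iff_odd, even_iff_two_dvd]
    exact T.not_dvd_index
  have h1 : Odd (((T : Subgroup G) ⊓ layer G).relIndex (layer G)) :=
    odd_relIndex_inf h0 le_top (fun l _ h hh => hE.conj_mem h hh l)
  exact odd_relIndex_inf h1 (le_layer hL)
    (fun l hl y hy => (mem_normalizer_iff.mp (Cfsg.Agent.Lib.Components.Balance.layer_le_normalizer hL hl) y).mp hy)

/-- Squares of elements of the centralizer, in the two-component situation. -/
theorem Dec.sq (d : Dec L z a w) (h : Hyp Q z) (hF : fittingSubgroup G = ⊥) (hL : IsComponent L)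
    {u : G} (hu : u ∈ Q) (h1 : cj u L ≠ L) {x : G} (hx : x ∈ L) (hxa : x * a = a * x) :
    x * x = 1 ∨ x * x = a := by
  have hK1 := isComponent_conj u hL
  set y : G := u * x⁻¹ * u⁻¹ with hy
  have hyc : y ∈ centralizer (L : Set G) :=
    mem_centralizer_of_ne hL hK1 h1 (conj_mem_cj (inv_mem hx))
  have hxy : x * y = y * x := mem_centralizer_iff.mp hyc x hx
  have hc := d.c_mem h hx hxa hu
  have h2 : (x * y) * (x * y) = (x * x) * (y * y) := by
    calc (x * y) * (x * y) = x * (y * x) * y := by group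
      _ = x * (x * y) * y := by rw [hxy]
      _ = (x * x) * (y * y) := by group
  have h3 := h.sq _ hc
  rw [h2] at h3
  exact d.key hF hL (mul_mem hx hx) (mul_mem hyc hyc) h3

/-- Elements of `Q` in `C_L(a)` are trivial or `a`. -/
theorem Dec.mem_Q (d : Dec L z a w) (h : Hyp Q z) (hF : fittingSubgroup G = ⊥) (hL : IsComponent L)
    {u : G} (hu : u ∈ Q) (h1 : cj u L ≠ L) {x : G} (hx : x ∈ L) (hxQ : x ∈ Q) : x = 1 ∨ x = a := by
  have hK1 := isComponent_conj u hL
  have hyc : u * x⁻¹ * u⁻¹ ∈ centralizer (L : Set G) :=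
    mem_centralizer_of_ne hL hK1 h1 (conj_mem_cj (inv_mem hx))
  have h2 := h.comm x hxQ u hu
  have h3 : x * u * x⁻¹ * u⁻¹ = x * (u * x⁻¹ * u⁻¹) := by group
  rw [h3] at h2
  exact d.key hF hL hx hyc h2

/-- The fine structure in the two-component case. -/
theorem Hyp.two_components (h : Hyp Q z) (hF : fittingSubgroup G = ⊥) {L : Subgroup G}
    (hL : IsComponent L) {u : G} (hu : u ∈ Q) (hne : cj u L ≠ L)
    (hall : ∀ K : Subgroup G, IsComponent K → K = L ∨ K = cj u L) :
    L ⊔ cj u L = layer G ∧ ∃ z₁ ∈ L, z = z₁ * (u * z₁ * u⁻¹) ∧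
      (∃ R : Sylow 2 ↥L, (R : Subgroup ↥L) = (centralizer ({z₁} : Set G)).subgroupOf L ∧
        (frattini ↥(R : Subgroup ↥L)).map ((L.subtype).comp (R : Subgroup ↥L).subtype) ≤ zpowers z₁) ∧
      Q ≠ (pCore 2 ↥(centralizer ({z} : Set G))).map (centralizer ({z} : Set G)).subtype := by
  have : Fact (Nat.Prime 2) := ⟨Nat.prime_two⟩
  have hK := isComponent_conj u hL
  have hsup : L ⊔ cj u L = layer G := by
    apply le_antisymm
    · exact sup_le (le_layer hL) (le_layer hK)
    · apply sSup_le
      intro K hKc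
      rcases hall K hKc with rfl | rfl
      · exact le_sup_left
      · exact le_sup_right
  have hLK : ∀ x ∈ L, ∀ y ∈ cj u L, x * y = y * x := comps_commute hL hK hne.symm
  have hKc : ∀ y ∈ cj u L, y ∈ centralizer (L : Set G) := fun y hy =>
    mem_centralizer_of_ne hL hK hne hy
  have hzmem : z ∈ L ⊔ cj u L := hsup ▸ h.z_mem_layer hF
  obtain ⟨a, ha, w, hwK, heq⟩ := mem_sup_of_commute hLK hzmem
  have d : Dec L z a w := ⟨ha, hKc w hwK, heq⟩
  have haa := d.aa h hF hL
  have ha1 := d.a_ne_one h hL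
  -- `u` swaps the two components
  have huu : cj u (cj u L) = L := by
    rw [cj_cj]
    exact cj_sq_eq h hF hL hu
  have hwu : w = u * a * u⁻¹ := by
    have h1 : (u * w * u⁻¹) * (u * a * u⁻¹) = a * w := by
      calc (u * w * u⁻¹) * (u * a * u⁻¹) = u * (w * a) * u⁻¹ := by group
        _ = u * (a * w) * u⁻¹ := by rw [d.comm]
        _ = u * z * u⁻¹ := by rw [← heq]
        _ = z := by rw [h.zc u hu]; group
        _ = a * w := heq
    have h2 : u * w * u⁻¹ ∈ L := by
      have h3 : u * w * u⁻¹ ∈ cj u (cj u L) := conj_mem_cj hwK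
      rwa [huu] at h3
    exact ((dec_unique hF hL h2 ha (hKc _ (conj_mem_cj ha)) d.hw h1).2).symm
  have hsq : ∀ x ∈ L, x * a = a * x → x * x = 1 ∨ x * x = a := fun x hx hxa =>
    d.sq h hF hL hu hne hx hxa
  have hfour : ∀ x ∈ L, x * a = a * x → x ^ 2 ^ 2 = 1 := by
    intro x hx hxa
    have h2 : x ^ 2 ^ 2 = (x * x) * (x * x) := by
      rw [show (2 : ℕ) ^ 2 = 2 * 2 from rfl, pow_mul, pow_two, pow_two]
    rw [h2]
    rcases hsq x hx hxa with h3 | h3
    · rw [h3, one_mul]
    · rw [h3, haa]
  have hamem : ∀ x : G, x ∈ centralizer ({a} : Set G) ↔ x * a = a * x := by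
    intro x
    rw [mem_centralizer_singleton_iff]
  refine ⟨hsup, a, ha, ?_, ?_, ?_⟩
  · rw [← hwu]; exact heq
  · -- the Sylow subgroup
    set X : Subgroup ↥L := (centralizer ({a} : Set G)).subgroupOf L with hX
    have hXp : IsPGroup 2 ↥X := by
      intro x
      refine ⟨2, ?_⟩
      apply Subtype.ext
      apply Subtype.ext
      have hx1 : ((x : ↥L) : G) ∈ centralizer ({a} : Set G) := Subgroup.mem_subgroupOf.mp x.2
      rw [hamem] at hx1
      exact hfour _ (x : ↥L).2 hx1
    obtain ⟨T, hT⟩ := h.pg.exists_le_sylow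
    have hTc := h.z_central T hT
    have hodd := odd_relIndex_component hF T hL
    have hle : (((T : Subgroup G) ⊓ layer G) ⊓ L).subgroupOf L ≤ X := by
      intro t ht
      rw [mem_subgroupOf] at ht
      rw [hX, mem_subgroupOf, hamem]
      obtain ⟨ht1, _⟩ := Subgroup.mem_inf.mp ht
      obtain ⟨ht2, _⟩ := Subgroup.mem_inf.mp ht1
      have h1 := hTc _ ht2
      have h2 : (t : G) * w = w * t := mem_centralizer_iff.mp d.hw t t.2
      rw [heq] at h1
      have h3 : (t : G) * a * w = a * t * w := by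
        calc (t : G) * a * w = t * (a * w) := by group
          _ = a * w * t := h1
          _ = a * (w * t) := by group
          _ = a * (t * w) := by rw [h2]
          _ = a * t * w := by group
      exact mul_right_cancel h3
    have hnd : ¬ 2 ∣ X.index := by
      have h1 : X.index ∣ ((((T : Subgroup G) ⊓ layer G) ⊓ L).subgroupOf L).index :=
        Subgroup.index_dvd_of_le hle
      have h2 : Odd ((((T : Subgroup G) ⊓ layer G) ⊓ L).subgroupOf L).index := hodd
      have h3 : Odd X.index := Odd.of_dvd_nat h2 h1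
      rwa [← even_iff_two_dvd, Nat.not_even_iff_odd]
    refine ⟨hXp.toSylow hnd, rfl, ?_⟩
    rw [map_le_iff_le_comap]
    apply frattini_le_of_sq
    intro r
    rw [mem_comap]
    have hr : ((r : ↥L) : G) * a = a * ((r : ↥L) : G) := by
      have : ((r : ↥L) : G) ∈ centralizer ({a} : Set G) := Subgroup.mem_subgroupOf.mp r.2
      rwa [hamem] at this
    have h2 := hsq _ (r : ↥L).2 hr
    simp only [MonoidHom.comp_apply, Subgroup.coe_subtype, map_mul]
    rw [Cfsg.Agent.Lib.PGroup.LargeFz.mem_zpowers_iff_invol haa]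
    exact h2
  · -- `Q` is not `O₂(C(z))`
    intro hQeq
    refine no_small_centralizer hL (isSimple_of_component hF hL) ha ha1 haa ?_
    intro x hx hxa
    have hxz : x * z = z * x := d.commute_z hx hxa
    -- `E ∩ C(z)` is a normal 2-subgroup of `C(z)`
    set C : Subgroup G := centralizer ({z} : Set G) with hC
    have hCm : ∀ y : G, y ∈ C ↔ y * z = z * y := fun y => by
      rw [hC, mem_centralizer_singleton_iff]
    set W : Subgroup ↥C := (layer G).subgroupOf C with hW
    have hWn : W.Normal := (layer_normal (G := G)).subgroupOf C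
    have hWp : IsPGroup 2 ↥W := by
      intro e
      refine ⟨2, ?_⟩
      apply Subtype.ext
      apply Subtype.ext
      have he : (((e : ↥C) : G)) ∈ layer G := Subgroup.mem_subgroupOf.mp e.2
      have hez : ((e : ↥C) : G) * z = z * ((e : ↥C) : G) := (hCm _).mp (e : ↥C).2
      rw [← hsup] at he
      obtain ⟨l, hl, k, hk, hlk⟩ := mem_sup_of_commute hLK he
      rw [hlk, heq] at hez
      have hwl : w * l = l * w := (mem_centralizer_iff.mp d.hw l hl).symm
      have hka : k * a = a * k := (hLK a ha k hk).symm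
      have h1 : (l * a) * (k * w) = (a * l) * (w * k) := by
        calc (l * a) * (k * w) = l * (a * k) * w := by group
          _ = l * (k * a) * w := by rw [hka]
          _ = l * k * (a * w) := by group
          _ = a * w * (l * k) := hez
          _ = a * (w * l) * k := by group
          _ = a * (l * w) * k := by rw [hwl]
          _ = (a * l) * (w * k) := by group
      have h2 := dec_unique hF hL (mul_mem hl ha) (mul_mem ha hl) (hKc _ (mul_mem hk hwK))
        (hKc _ (mul_mem hwK hk)) h1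
      have hl4 := hfour l hl h2.1
      -- transport `k` back to `L`
      have hk' : u⁻¹ * k * u ∈ L := by
        have := mem_cj.mp hk
        exact this
      have hk'a : (u⁻¹ * k * u) * a = a * (u⁻¹ * k * u) := by
        have h3 : k * (u * a * u⁻¹) = (u * a * u⁻¹) * k := by
          rw [← hwu]; exact h2.2
        calc (u⁻¹ * k * u) * a = u⁻¹ * (k * (u * a * u⁻¹)) * u := by group
          _ = u⁻¹ * ((u * a * u⁻¹) * k) * u := by rw [h3]
          _ = a * (u⁻¹ * k * u) := by group
      have hk4' := hfour _ hk' hk'a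
      have hk4 : k ^ 2 ^ 2 = 1 := by
        have h3 : k = u * (u⁻¹ * k * u) * u⁻¹ := by group
        rw [h3, conj_pow, hk4']
        group
      have hcomm : Commute l k := hLK l hl k hk
      show ((e : ↥C) : G) ^ 2 ^ 2 = 1
      rw [hlk, hcomm.mul_pow, hl4, hk4, one_mul]
    have hle := Cfsg.Agent.Lib.Basic.PCore.le_pCore hWn hWp
    have hxC : x ∈ C := (hCm x).mpr hxz
    have hxW : (⟨x, hxC⟩ : ↥C) ∈ W := by
      rw [hW, mem_subgroupOf]
      exact le_layer hL hx
    have hxQ : x ∈ Q := by
      rw [hQeq]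
      exact ⟨⟨x, hxC⟩, hle hxW, rfl⟩
    exact d.mem_Q h hF hL hu hne hx hxQ

/-- **The structure theorem.** -/
theorem main (hQ : IsLargeExtraspecial Q) (hz : (center ↥Q).map Q.subtype = zpowers z) :
    (IsMulCommutative ↥(normalClosure ({z} : Set G)) ∧ generalizedFittingSubgroup G = pCore 2 G) ∨
    (normalClosure ({z} : Set G) = generalizedFittingSubgroup G ∧
      IsSimpleGroup ↥(normalClosure ({z} : Set G)) ∧ ¬ IsMulCommutative ↥(normalClosure ({z} : Set G))) ∨
    (normalClosure ({z} : Set G) = generalizedFittingSubgroup G ∧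
      ∃ (L : Subgroup G) (u : G), u ∈ Q ∧ IsSimpleGroup ↥L ∧ ¬ IsMulCommutative ↥L ∧
        L ⊓ (L).map (MulAut.conj u).toMonoidHom = ⊥ ∧
        (∀ x ∈ L, ∀ y ∈ (L).map (MulAut.conj u).toMonoidHom, x * y = y * x) ∧
        L ⊔ (L).map (MulAut.conj u).toMonoidHom = normalClosure ({z} : Set G) ∧
        ∃ z₁ ∈ L, z = z₁ * (u * z₁ * u⁻¹) ∧
          (∃ R : Sylow 2 ↥L, (R : Subgroup ↥L) = (centralizer ({z₁} : Set G)).subgroupOf L ∧
            (frattini ↥(R : Subgroup ↥L)).map ((L.subtype).comp (R : Subgroup ↥L).subtype) ≤ zpowers z₁) ∧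
          Q ≠ (pCore 2 ↥(centralizer ({z} : Set G))).map (centralizer ({z} : Set G)).subtype) := by
  have h := hyp_of_large hQ hz
  have : Fact (Nat.Prime 2) := ⟨Nat.prime_two⟩
  by_cases hO : pCore 2 G = ⊥
  swap
  · exact Or.inl (h.case_core hO)
  have hF : fittingSubgroup G = ⊥ := by rw [h.fitting_eq, hO]
  have hFs : generalizedFittingSubgroup G = layer G := by
    rw [generalizedFittingSubgroup, hF, sup_bot_eq]
  have hM := h.closure_eq_layer hF
  right
  rw [hFs, hM]
  -- a component exists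
  have hEne : ∃ L : Subgroup G, IsComponent L := by
    by_contra hno
    push Not at hno
    have hbot : layer G = ⊥ := by
      rw [layer, sSup_eq_bot]
      intro L hL
      exact absurd hL (hno L)
    have := h.z_mem_layer hF
    rw [hbot, mem_bot] at this
    exact h.z1 this
  obtain ⟨L, hL⟩ := hEne
  have hS := isSimple_of_component hF hL
  have hnc : ¬ IsMulCommutative ↥L :=
    Cfsg.Agent.Lib.Components.Quasisimple.not_isMulCommutative_of_isQuasisimple hL.2
  by_cases hone : ∀ K : Subgroup G, IsComponent K → K = L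
  · -- one component
    have hE : layer G = L := by
      apply le_antisymm
      · apply sSup_le
        intro K hK
        rw [hone K hK]
      · exact le_layer hL
    left
    rw [hE]
    exact ⟨rfl, hS, hnc⟩
  · push Not at hone
    obtain ⟨K, hK, hKL⟩ := hone
    obtain ⟨u, hu, hKu⟩ := h.transitive hF hL hK
    subst hKu
    have hall : ∀ K : Subgroup G, IsComponent K → K = L ∨ K = cj u L := by
      intro K' hK'
      obtain ⟨v, hv, rfl⟩ := h.transitive hF hL hK'
      by_contra hno
      push Not at hno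
      exact h.no_three hF hL hu hv hKL hno.1 (fun hc => hno.2 hc.symm)
    obtain ⟨hsup, z₁, hz₁, hzz, hR, hQne⟩ := h.two_components hF hL hu hKL hall
    right
    refine ⟨rfl, L, u, hu, hS, hnc, ?_, ?_, hsup, z₁, hz₁, hzz, hR, hQne⟩
    · rw [eq_bot_iff]
      intro x hx
      obtain ⟨hx1, hx2⟩ := Subgroup.mem_inf.mp hx
      exact eq_one_of_mem_of_mem hF hL hx1 (mem_centralizer_of_ne hL hK hKL hx2)
    · exact comps_commute hL hK hKL.symm

end

end Cfsg.Agent.Lib.PGroup.LargeStructure
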