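import Mathlib
import Cfsg.Prelude.Def_MonsterType
import Cfsg.Agent.Lib.PGroup.LargeStructure
import Cfsg.Agent.Lib.PGroup.LargeExtraspecial
import Cfsg.Agent.Lib.PGroup.LargePair
import Cfsg.Agent.Lib.PGroup.Basic
import Cfsg.Agent.Lib.Coprime.Coset
import Cfsg.Agent.Lib.Coprime.Generation
import Cfsg.Agent.Lib.PGroup.LargeFz

/-!
# Large extraspecial subgroups in quotients

A criterion for the image of a subgroup `R ≤ M` in `M / N` to be a large extraspecial subgroup,
in terms of elements of the ambient group, and the coprime tools used to check it.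
-/

set_option autoImplicit false

namespace Cfsg.Agent.Lib.PGroup.LargeQuot

open Cfsg Subgroup
open Cfsg.Agent.Lib.PGroup.LargeExtraspecial
open Cfsg.Agent.Lib.PGroup.LargeStructure (frattini_le_of_sq)
open scoped commutatorElement

variable {G : Type*} [Group G]

/-- A criterion for being extraspecial. -/
theorem isExtraspecial_of {X : Type*} [Group X] [Finite X] (hp : IsPGroup 2 X) {ζ : X} (hζ : ζ ≠ 1)
    (hc : ∀ x, x ∈ center X ↔ x = 1 ∨ x = ζ) (hs : ∀ x : X, x * x = 1 ∨ x * x = ζ)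
    (hnc : ∃ a b : X, a * b ≠ b * a) : IsExtraspecial 2 X := by
  have : Fact (Nat.Prime 2) := ⟨Nat.prime_two⟩
  have hζc : ζ ∈ center X := (hc ζ).2 (Or.inr rfl)
  have hsq : ∀ x : X, x * x ∈ center X := fun x => (hc _).2 (hs x)
  have hf : frattini X ≤ center X := frattini_le_of_sq _ hsq
  have hcomm : commutator X ≤ center X := by
    rw [commutator_def, Subgroup.commutator_le]
    intro a _ b _
    have h1 : ⁅a, b⁆ = (a * b) * (a * b) * (b⁻¹ * (a⁻¹ * a⁻¹) * b⁻¹) := by
      rw [commutatorElement_def]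
      group
    have h2 : (a⁻¹ * a⁻¹) ∈ center X := hsq _
    have h3 : b⁻¹ * (a⁻¹ * a⁻¹) * b⁻¹ = (a⁻¹ * a⁻¹) * (b⁻¹ * b⁻¹) := by
      have := (mem_center_iff.mp h2) b⁻¹
      calc b⁻¹ * (a⁻¹ * a⁻¹) * b⁻¹ = (b⁻¹ * (a⁻¹ * a⁻¹)) * b⁻¹ := rfl
        _ = ((a⁻¹ * a⁻¹) * b⁻¹) * b⁻¹ := by rw [this]
        _ = _ := by group
    rw [h1, h3]
    exact mul_mem (hsq _) (mul_mem h2 (hsq _))
  have hcf : commutator X ≤ frattini X := Cfsg.Agent.Lib.PGroup.Basic.commutator_le_frattini hp
  have hcζ : ζ ∈ commutator X := by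
    obtain ⟨a, b, hab⟩ := hnc
    have h1 : ⁅a, b⁆ ∈ commutator X := by
      rw [commutator_def]
      exact Subgroup.commutator_mem_commutator (mem_top a) (mem_top b)
    have h2 : ⁅a, b⁆ ≠ 1 := by
      intro h3
      rw [commutatorElement_eq_one_iff_mul_comm] at h3
      exact hab h3
    rcases (hc _).1 (hcomm h1) with h3 | h3
    · exact absurd h3 h2
    · rwa [← h3]
  have hZ : center X ≤ commutator X := by
    intro x hx
    rcases (hc x).1 hx with rfl | rfl
    · exact one_mem _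
    · exact hcζ
  refine ⟨⟨hp, le_antisymm hf (hZ.trans hcf), le_antisymm hcomm hZ⟩, ?_⟩
  rw [Nat.card_eq_two_iff' (1 : center X)]
  refine ⟨⟨ζ, hζc⟩, fun h => hζ (congrArg Subtype.val h), ?_⟩
  rintro ⟨y, hy⟩ hy1
  apply Subtype.ext
  rcases (hc y).1 hy with rfl | h
  · exact absurd rfl hy1
  · exact h

/-- The criterion for the image of `R` in `M / N` to be large extraspecial. -/
theorem large_quot [Finite G] (M N R : Subgroup G) [hn : (N.subgroupOf M).Normal] (hNM : N ≤ M) (hRM : R ≤ M)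
    (hRp : IsPGroup 2 R) {z : G} (hzR : z ∈ R) (hzN : z ∉ N)
    (hcen : ∀ y ∈ R, (∀ x ∈ R, y * x * y⁻¹ * x⁻¹ ∈ N) → y ∈ N ∨ z⁻¹ * y ∈ N)
    (hzc : ∀ x ∈ R, z * x * z⁻¹ * x⁻¹ ∈ N)
    (hsq : ∀ x ∈ R, x * x ∈ N ∨ z⁻¹ * (x * x) ∈ N)
    (hnc : ∃ a ∈ R, ∃ b ∈ R, a * b * a⁻¹ * b⁻¹ ∉ N)
    (h2 : ∀ m ∈ M, (∀ x ∈ R, m * x * m⁻¹ * x⁻¹ ∈ N) → m ∈ N ∨ z⁻¹ * m ∈ N)
    (h3 : ∀ m ∈ M, m * z * m⁻¹ * z⁻¹ ∈ N → ∀ x ∈ R, ∃ x' ∈ R, x'⁻¹ * (m * x * m⁻¹) ∈ N)
    (h4 : ∀ K : Subgroup G, N ≤ K → K ≤ M → Odd (N.relIndex K) →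
      (∀ r ∈ R, ∀ k ∈ K, r * k * r⁻¹ ∈ K) → K ≤ N) :
    IsLargeExtraspecial ((R.subgroupOf M).map (QuotientGroup.mk' (N.subgroupOf M))) := by
  have : Fact (Nat.Prime 2) := ⟨Nat.prime_two⟩
  set π := QuotientGroup.mk' (N.subgroupOf M) with hπ
  have he1 : ∀ m : ↥M, π m = 1 ↔ (m : G) ∈ N := by
    intro m
    rw [hπ, QuotientGroup.mk'_apply, QuotientGroup.eq_one_iff, mem_subgroupOf]
  have hcomm : ∀ a b : ↥M, π a * π b = π b * π a ↔ (a : G) * b * (a : G)⁻¹ * (b : G)⁻¹ ∈ N := by
    intro a b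
    have h1 : (a : G) * b * (a : G)⁻¹ * (b : G)⁻¹ = ((a * b * a⁻¹ * b⁻¹ : ↥M) : G) := by
      simp
    rw [h1, ← he1]
    simp only [map_mul, map_inv]
    constructor
    · intro h
      rw [h]
      group
    · intro h
      have := congrArg (· * (π b * π a)) h
      simp only [one_mul] at this
      rw [← this]
      group
  have hsurj : ∀ b : ↥M ⧸ N.subgroupOf M, ∃ m : ↥M, π m = b := QuotientGroup.mk'_surjective _
  set Rb : Subgroup (↥M ⧸ N.subgroupOf M) := (R.subgroupOf M).map π with hRb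
  have hmem : ∀ r (hr : r ∈ R), π ⟨r, hRM hr⟩ ∈ Rb := fun r hr =>
    ⟨⟨r, hRM hr⟩, by rwa [SetLike.mem_coe, mem_subgroupOf], rfl⟩
  have hRbmem : ∀ b ∈ Rb, ∃ r, ∃ hr : r ∈ R, π ⟨r, hRM hr⟩ = b := by
    rintro _ ⟨m, hm, rfl⟩
    rw [SetLike.mem_coe, mem_subgroupOf] at hm
    exact ⟨m, hm, rfl⟩
  set zb : ↥M ⧸ N.subgroupOf M := π ⟨z, hRM hzR⟩ with hzb
  have hzb1 : zb ≠ 1 := fun h => hzN ((he1 _).mp h)
  -- elements of the form `m` with `m ∈ N ∨ z⁻¹ m ∈ N` map to `1` or `zb`
  have hval : ∀ m : ↥M, ((m : G) ∈ N ∨ z⁻¹ * m ∈ N) → π m = 1 ∨ π m = zb := by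
    intro m hm
    rcases hm with hm | hm
    · exact Or.inl ((he1 m).mpr hm)
    · right
      have : π (⟨z, hRM hzR⟩⁻¹ * m) = 1 := (he1 _).mpr (by simpa using hm)
      rw [map_mul, map_inv] at this
      rw [hzb]
      exact (inv_mul_eq_one.mp this).symm
  have hzbc : ∀ b ∈ Rb, b * zb = zb * b := by
    intro b hb
    obtain ⟨r, hr, rfl⟩ := hRbmem b hb
    exact ((hcomm _ _).mpr (hzc r hr)).symm
  have hRbp : IsPGroup 2 Rb := by
    have h5 : IsPGroup 2 (R.subgroupOf M) := hRp.comap_subtype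
    exact h5.map π
  have hzbR : zb ∈ Rb := hmem z hzR
  -- the centre of `Rb`
  have hcenb : ∀ x : Rb, x ∈ center Rb ↔ x = 1 ∨ x = ⟨zb, hzbR⟩ := by
    rintro ⟨b, hb⟩
    constructor
    · intro hx
      obtain ⟨r, hr, rfl⟩ := hRbmem b hb
      have h5 : ∀ x ∈ R, r * x * r⁻¹ * x⁻¹ ∈ N := by
        intro x hx'
        have h6 := (mem_center_iff.mp hx) ⟨_, hmem x hx'⟩
        have h7 : π ⟨x, hRM hx'⟩ * π ⟨r, hRM hr⟩ = π ⟨r, hRM hr⟩ * π ⟨x, hRM hx'⟩ :=
          congrArg Subtype.val h6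
        exact (hcomm ⟨r, hRM hr⟩ ⟨x, hRM hx'⟩).mp h7.symm
      rcases hval ⟨r, hRM hr⟩ (hcen r hr h5) with h6 | h6
      · left; exact Subtype.ext h6
      · right; exact Subtype.ext h6
    · rintro (h | h)
      · rw [h]; exact one_mem _
      · rw [h, mem_center_iff]
        rintro ⟨c, hc⟩
        exact Subtype.ext (hzbc c hc)
  have hE : IsExtraspecial 2 Rb := by
    refine isExtraspecial_of hRbp (ζ := ⟨zb, hzbR⟩) (fun h => hzb1 (congrArg Subtype.val h)) hcenb ?_ ?_
    · rintro ⟨b, hb⟩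
      obtain ⟨r, hr, rfl⟩ := hRbmem b hb
      rcases hval ⟨r * r, hRM (mul_mem hr hr)⟩ (hsq r hr) with h5 | h5
      · left
        apply Subtype.ext
        show π ⟨r, hRM hr⟩ * π ⟨r, hRM hr⟩ = 1
        rw [← map_mul]
        exact h5
      · right
        apply Subtype.ext
        show π ⟨r, hRM hr⟩ * π ⟨r, hRM hr⟩ = zb
        rw [← map_mul]
        exact h5
    · obtain ⟨a, ha, b, hb, hab⟩ := hnc
      refine ⟨⟨_, hmem a ha⟩, ⟨_, hmem b hb⟩, fun h => hab ?_⟩
      exact (hcomm ⟨a, hRM ha⟩ ⟨b, hRM hb⟩).mp (congrArg Subtype.val h)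
  have hcenter : ∀ b, b ∈ (center Rb).map Rb.subtype ↔ b = 1 ∨ b = zb := by
    intro b
    constructor
    · rintro ⟨x, hx, rfl⟩
      rcases (hcenb x).mp hx with rfl | rfl
      · left; rfl
      · right; rfl
    · rintro (rfl | rfl)
      · exact one_mem _
      · exact ⟨⟨zb, hzbR⟩, (hcenb _).mpr (Or.inr rfl), rfl⟩
  refine ⟨hE, ?_, ?_, ?_⟩
  · -- the centralizer
    ext b
    rw [hcenter, mem_centralizer_iff]
    constructor
    · intro hb
      obtain ⟨m, rfl⟩ := hsurj b
      apply hval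
      apply h2 m m.2
      intro x hx
      exact (hcomm m ⟨x, hRM hx⟩).mp (hb _ (hmem x hx)).symm
    · rintro (rfl | rfl) h hh
      · simp
      · exact hzbc h hh
  · -- the normalizer
    intro b hb
    have hbz : b * zb = zb * b := by
      rw [mem_centralizer_iff] at hb
      exact (hb zb ((hcenter zb).mpr (Or.inr rfl))).symm
    have key : ∀ b : ↥M ⧸ N.subgroupOf M, b * zb = zb * b → ∀ y ∈ Rb, b * y * b⁻¹ ∈ Rb := by
      intro b hbz y hy
      obtain ⟨m, rfl⟩ := hsurj b
      obtain ⟨r, hr, rfl⟩ := hRbmem y hy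
      have h5 := (hcomm m ⟨z, hRM hzR⟩).mp hbz
      obtain ⟨x', hx', hx'e⟩ := h3 m m.2 h5 r hr
      have h6 : π (⟨x', hRM hx'⟩⁻¹ * (m * ⟨r, hRM hr⟩ * m⁻¹)) = 1 := (he1 _).mpr (by simpa using hx'e)
      simp only [map_mul, map_inv] at h6
      rw [inv_mul_eq_one] at h6
      rw [← h6]
      exact hmem x' hx'
    rw [mem_normalizer_iff]
    intro y
    constructor
    · exact key b hbz y
    · intro hy
      have hbz' : b⁻¹ * zb = zb * b⁻¹ := by
        calc b⁻¹ * zb = b⁻¹ * (zb * b) * b⁻¹ := by group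
          _ = b⁻¹ * (b * zb) * b⁻¹ := by rw [hbz]
          _ = zb * b⁻¹ := by group
      have := key b⁻¹ hbz' _ hy
      simpa [mul_assoc] using this
  · -- odd subgroups
    intro K hodd hK
    set K0 : Subgroup ↥M := K.comap π with hK0
    set K1 : Subgroup G := K0.map M.subtype with hK1
    have hKM : K1 ≤ M := map_subtype_le _
    have hNK : N ≤ K1 := by
      intro n hn'
      refine ⟨⟨n, hNM hn'⟩, ?_, rfl⟩
      rw [SetLike.mem_coe, hK0, mem_comap, (he1 _).mpr hn']
      exact one_mem _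
    have hkey : N.relIndex K1 = Nat.card K := by
      have h5 : (N.subgroupOf M).map M.subtype = N := Subgroup.map_subgroupOf_eq_of_le hNM
      have h6 : N.relIndex K1 = (N.subgroupOf M).relIndex K0 := by
        calc N.relIndex K1 = ((N.subgroupOf M).map M.subtype).relIndex (K0.map M.subtype) := by
              rw [h5]
          _ = _ := Subgroup.relIndex_map_map_of_injective _ _ M.subtype_injective
      rw [h6]
      have h7 : (⊥ : Subgroup (↥M ⧸ N.subgroupOf M)).comap π = N.subgroupOf M := by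
        ext x
        simp only [mem_comap, mem_bot]
        rw [he1, mem_subgroupOf]
      calc (N.subgroupOf M).relIndex K0
          = ((⊥ : Subgroup (↥M ⧸ N.subgroupOf M)).comap π).relIndex K0 := by rw [h7]
        _ = Nat.card K := by
          rw [Subgroup.relIndex_comap, Subgroup.map_comap_eq_self_of_surjective hsurj,
            Subgroup.relIndex_bot_left]
    have h5 : K1 ≤ N := by
      apply h4 K1 hNK hKM (by rw [hkey]; exact hodd)
      rintro r hr _ ⟨k, hk, rfl⟩
      have hk' : π k ∈ K := hk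
      have h6 := (mem_normalizer_iff.mp (hK (hmem r hr)) (π k)).mp hk'
      refine ⟨⟨r, hRM hr⟩ * k * ⟨r, hRM hr⟩⁻¹, ?_, by simp⟩
      rw [SetLike.mem_coe, hK0, mem_comap]
      simpa using h6
    rw [eq_bot_iff]
    intro b hb
    obtain ⟨m, rfl⟩ := hsurj b
    have h6 : (m : G) ∈ K1 := ⟨m, hb, rfl⟩
    rw [mem_bot]
    exact (he1 m).mpr (h5 h6)

/-! ### Tools -/

/-- A group with a central involution and order twice an odd number has a normal odd complement. -/
theorem exists_odd_part_aux {X : Type*} [Group X] [Finite X] {t : X} (ht1 : t ≠ 1) (htt : t * t = 1)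
    (hc : ∀ x : X, x * t = t * x) (h4 : ¬ 4 ∣ Nat.card X) :
    ∃ L : Subgroup X, L.Normal ∧ Nat.card L * 2 = Nat.card X ∧ t ∉ L ∧ ∀ x : X, x ∈ L ∨ x * t ∈ L := by
  have : Fact (Nat.Prime 2) := ⟨Nat.prime_two⟩
  have ho : orderOf t = 2 := orderOf_eq_prime (by rw [pow_two]; exact htt) ht1
  have hcardS : Nat.card (zpowers t) = 2 := by rw [Nat.card_zpowers, ho]
  have hpS : IsPGroup 2 (zpowers t) := by
    rw [IsPGroup.iff_card, hcardS]
    exact ⟨1, rfl⟩
  have hidx := Subgroup.card_mul_index (zpowers t)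
  rw [hcardS] at hidx
  have hodd : ¬ 2 ∣ (zpowers t).index := by
    rintro ⟨k, hk⟩
    apply h4
    refine ⟨k, ?_⟩
    rw [← hidx, hk]
    ring
  let S : Sylow 2 X := hpS.toSylow hodd
  have hScoe : (S : Subgroup X) = zpowers t := rfl
  have hN : Subgroup.normalizer ((S : Subgroup X) : Set X) ≤ centralizer ((S : Subgroup X) : Set X) := by
    intro g _
    rw [mem_centralizer_iff]
    intro s hs
    rw [SetLike.mem_coe, hScoe] at hs
    obtain ⟨k, rfl⟩ := mem_zpowers_iff.mp hs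
    exact ((Commute.zpow_left (a := t) (b := g) (hc g).symm k)).eq
  have hcomp := MonoidHom.ker_transferSylow_isComplement' S hN
  refine ⟨(MonoidHom.transferSylow S hN).ker, MonoidHom.normal_ker _, ?_, ?_, ?_⟩
  · have h5 := hcomp.card_mul_card
    have h6 : Nat.card (S : Subgroup X) = 2 := hcardS
    rwa [h6] at h5
  · intro h
    have h1 := hcomp.disjoint
    rw [disjoint_iff] at h1
    have h2 : t ∈ (MonoidHom.transferSylow S hN).ker ⊓ (S : Subgroup X) :=
      ⟨h, by rw [hScoe]; exact mem_zpowers t⟩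
    rw [h1, mem_bot] at h2
    exact ht1 h2
  · intro x
    obtain ⟨⟨⟨l, hl⟩, ⟨y, hy⟩⟩, hly⟩ := (hcomp.existsUnique x).exists
    have hly' : l * y = x := hly
    have hy' : y ∈ zpowers t := hy
    rw [Cfsg.Agent.Lib.PGroup.LargeFz.mem_zpowers_iff_invol htt] at hy'
    rcases hy' with rfl | rfl
    · left
      rw [mul_one] at hly'
      rwa [← hly']
    · right
      rw [← hly', mul_assoc, htt, mul_one]
      exact hl

/-- An odd part of a subgroup with a central involution and order twice an odd number. -/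
theorem exists_odd_part [Finite G] {D : Subgroup G} {t : G} (htD : t ∈ D) (ht1 : t ≠ 1) (htt : t * t = 1)
    (hc : ∀ x ∈ D, x * t = t * x) (h4 : ¬ 4 ∣ Nat.card D) :
    ∃ L : Subgroup G, L ≤ D ∧ Odd (Nat.card L) ∧ (∀ d ∈ D, ∀ x ∈ L, d * x * d⁻¹ ∈ L) ∧
      (∀ x ∈ D, x ∈ L ∨ x * t ∈ L) ∧ (∀ y ∈ D, Odd (orderOf y) → y ∈ L) := by
  have ht'1 : (⟨t, htD⟩ : ↥D) ≠ 1 := fun h => ht1 (congrArg Subtype.val h)
  have htt' : (⟨t, htD⟩ : ↥D) * ⟨t, htD⟩ = 1 := Subtype.ext htt
  have hc' : ∀ x : ↥D, x * ⟨t, htD⟩ = ⟨t, htD⟩ * x := fun x => Subtype.ext (hc x x.2)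
  obtain ⟨L0, hL0n, hcard, htL, hstr⟩ := exists_odd_part_aux ht'1 htt' hc' h4
  refine ⟨L0.map D.subtype, map_subtype_le _, ?_, ?_, ?_, ?_⟩
  · have h1 : Nat.card (L0.map D.subtype) = Nat.card L0 :=
      (Nat.card_congr (L0.equivMapOfInjective D.subtype D.subtype_injective).toEquiv).symm
    rw [h1, ← Nat.not_even_iff_odd, even_iff_two_dvd]
    rintro ⟨k, hk⟩
    apply h4
    refine ⟨k, ?_⟩
    rw [← hcard, hk]
    ring
  · rintro d hd _ ⟨x, hx, rfl⟩
    exact ⟨⟨d, hd⟩ * x * ⟨d, hd⟩⁻¹, hL0n.conj_mem x hx _, by simp⟩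
  · intro x hx
    rcases hstr ⟨x, hx⟩ with h | h
    · exact Or.inl ⟨_, h, rfl⟩
    · exact Or.inr ⟨_, h, rfl⟩
  · intro y hy hoy
    rcases hstr ⟨y, hy⟩ with h | h
    · exact ⟨_, h, rfl⟩
    · exfalso
      apply htL
      have h1 : (⟨y, hy⟩ : ↥D) ^ orderOf y = 1 := by
        apply Subtype.ext
        simp [pow_orderOf_eq_one]
      have hcm : Commute (⟨y, hy⟩ : ↥D) ⟨t, htD⟩ := hc' _
      have h2 := L0.pow_mem h (orderOf y)
      rw [hcm.mul_pow, h1, one_mul] at h2
      obtain ⟨m, hm⟩ := hoy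
      rw [hm, pow_succ, pow_mul, pow_two, htt', one_pow, one_mul] at h2
      exact h2

/-- Generation by the fixed points of a four-group. -/
theorem gen_four [Finite G] {a b : G} (haa : a * a = 1) (hbb : b * b = 1) (hab : b * a = a * b)
    (ha1 : a ≠ 1) (hb1 : b ≠ 1) (hne : a ≠ b) {K T : Subgroup G} (hK : Odd (Nat.card K))
    (haK : ∀ k ∈ K, a * k * a⁻¹ ∈ K) (hbK : ∀ k ∈ K, b * k * b⁻¹ ∈ K)
    (h1 : ∀ k ∈ K, k * a = a * k → k ∈ T) (h2 : ∀ k ∈ K, k * b = b * k → k ∈ T)
    (h3 : ∀ k ∈ K, k * (b * a) = (b * a) * k → k ∈ T) : K ≤ T := by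
  classical
  have : Fact (Nat.Prime 2) := ⟨Nat.prime_two⟩
  set V : Subgroup G := Cfsg.Agent.Lib.PGroup.LargeQ.four haa hbb hab with hV
  have hmemV : ∀ x, x ∈ V ↔ x = 1 ∨ x = a ∨ x = b ∨ x = b * a := fun x => Iff.rfl
  have hVsq : ∀ x ∈ V, x * x = 1 := by
    intro x hx
    rcases (hmemV x).mp hx with rfl | rfl | rfl | rfl
    · simp
    · exact haa
    · exact hbb
    · calc b * a * (b * a) = b * (a * b) * a := by group
        _ = b * (b * a) * a := by rw [hab]
        _ = (b * b) * (a * a) := by group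
        _ = 1 := by rw [haa, hbb, one_mul]
  have hVc : IsMulCommutative V := by
    refine ⟨⟨fun x y => ?_⟩⟩
    apply Subtype.ext
    obtain ⟨x, hx⟩ := x
    obtain ⟨y, hy⟩ := y
    have h4 := hVsq _ (mul_mem hx hy)
    have hxi : x⁻¹ = x := inv_eq_of_mul_eq_one_left (hVsq x hx)
    have hyi : y⁻¹ = y := inv_eq_of_mul_eq_one_left (hVsq y hy)
    have h5 : (x * y)⁻¹ = x * y := inv_eq_of_mul_eq_one_left h4
    rw [mul_inv_rev, hxi, hyi] at h5
    exact h5.symm
  have hVn : V ≤ normalizer (K : Set G) := by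
    have hall : ∀ x ∈ V, ∀ k ∈ K, x * k * x⁻¹ ∈ K := by
      intro x hx k hk
      rcases (hmemV x).mp hx with rfl | rfl | rfl | rfl
      · simpa using hk
      · exact haK k hk
      · exact hbK k hk
      · have := hbK _ (haK k hk)
        have h6 : b * a * k * (b * a)⁻¹ = b * (a * k * a⁻¹) * b⁻¹ := by group
        rw [h6]
        exact this
    intro x hx
    rw [mem_normalizer_iff]
    intro k
    refine ⟨hall x hx k, fun hk => ?_⟩
    have := hall x⁻¹ (inv_mem hx) _ hk
    simpa [mul_assoc] using this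
  have hVp : IsPGroup 2 V := by
    intro x
    refine ⟨1, ?_⟩
    apply Subtype.ext
    simp [pow_two, hVsq x x.2]
  have hcop : (Nat.card V).Coprime (Nat.card K) := by
    obtain ⟨n, hn⟩ := IsPGroup.iff_card.mp hVp
    rw [hn]
    exact Nat.Coprime.pow_left n (Nat.coprime_two_left.mpr hK)
  have hgen := Cfsg.Agent.Lib.Coprime.Generation.le_iSup_cocyclic V K hVc hVn hcop
  refine hgen.trans (iSup₂_le fun B hB => ?_)
  obtain ⟨hBV, c, hc, hBc⟩ := hB
  -- `B` is nontrivial
  have hBne : ∃ e ∈ B, e ≠ 1 := by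
    by_contra hcon
    push Not at hcon
    have hB0 : B = ⊥ := by
      rw [eq_bot_iff]
      intro x hx
      rw [mem_bot]
      exact hcon x hx
    rw [hB0, bot_sup_eq] at hBc
    have hca : a ∈ zpowers c := hBc ▸ (hmemV a).mpr (Or.inr (Or.inl rfl))
    have hcb : b ∈ zpowers c := hBc ▸ (hmemV b).mpr (Or.inr (Or.inr (Or.inl rfl)))
    have hcc := hVsq c hc
    rw [Cfsg.Agent.Lib.PGroup.LargeFz.mem_zpowers_iff_invol hcc] at hca hcb
    rcases hca with h | h
    · exact ha1 h
    · rcases hcb with h' | h'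
      · exact hb1 h'
      · exact hne (h.trans h'.symm)
  obtain ⟨e, heB, he1⟩ := hBne
  intro k hk
  obtain ⟨hkK, hkc⟩ := Subgroup.mem_inf.mp hk
  have hke : k * e = e * k := (mem_centralizer_iff.mp hkc e heB).symm
  rcases (hmemV e).mp (hBV heB) with rfl | rfl | rfl | rfl
  · exact absurd rfl he1
  · exact h1 k hkK hke
  · exact h2 k hkK hke
  · exact h3 k hkK hke

/-- If `x` is a `2`-element commuting with an odd subgroup `A` and `[c, x] ∈ A` then `[c, x] = 1`. -/
theorem comm_eq_one_of_mem [Finite G] {A : Subgroup G} (hA : Odd (Nat.card A)) {c x : G} {k : ℕ}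
    (hx : x ^ 2 ^ k = 1) (hxA : ∀ a ∈ A, a * x = x * a) (he : c * x * c⁻¹ * x⁻¹ ∈ A) :
    c * x * c⁻¹ * x⁻¹ = 1 := by
  set e := c * x * c⁻¹ * x⁻¹ with hedef
  have h1 : c * x * c⁻¹ = e * x := by rw [hedef]; group
  have hcm : Commute e x := hxA e he
  have h2 : c * x ^ 2 ^ k * c⁻¹ = (e * x) ^ 2 ^ k := by
    rw [← h1, conj_pow]
  rw [hx, hcm.mul_pow, hx, mul_one, mul_one, mul_inv_cancel] at h2
  have h3 : e ^ 2 ^ k = 1 := h2.symm
  have h4 : orderOf e ∣ 2 ^ k := orderOf_dvd_of_pow_eq_one h3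
  have h5 : orderOf e ∣ Nat.card A := by
    have := Subgroup.orderOf_dvd_natCard A he
    exact this
  have h6 : Nat.Coprime (2 ^ k) (Nat.card A) := Nat.Coprime.pow_left k (Nat.coprime_two_left.mpr hA)
  have h7 : orderOf e = 1 := Nat.eq_one_of_dvd_coprimes h6 h4 h5
  exact orderOf_eq_one_iff.mp h7

/-- A `2`-subgroup and an odd subgroup meet trivially, elementwise. -/
theorem eq_one_of_mem_of_mem [Finite G] {P K : Subgroup G} (hP : IsPGroup 2 P) (hK : Odd (Nat.card K))
    {x : G} (hxP : x ∈ P) (hxK : x ∈ K) : x = 1 := by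
  have : Fact (Nat.Prime 2) := ⟨Nat.prime_two⟩
  obtain ⟨k, hk⟩ := (IsPGroup.iff_orderOf.mp hP) ⟨x, hxP⟩
  have h1 : orderOf x = 2 ^ k := by
    rw [← hk]; exact (Subgroup.orderOf_mk x hxP).symm
  have h2 : orderOf x ∣ Nat.card K := Subgroup.orderOf_dvd_natCard K hxK
  have h6 : Nat.Coprime (2 ^ k) (Nat.card K) := Nat.Coprime.pow_left k (Nat.coprime_two_left.mpr hK)
  have h7 : orderOf x = 1 := Nat.eq_one_of_dvd_coprimes h6 (by rw [h1]) h2
  exact orderOf_eq_one_iff.mp h7

/-- Double centralizer in a large extraspecial group. -/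
theorem exists_comm_not_comm {Q : Subgroup G} {z t s : G} (L : Large Q z) (htQ : t ∈ Q) (hsQ : s ∈ Q)
    (htt : t * t = 1) (ht1 : t ≠ 1) (htz : t ≠ z) (hs1 : s ≠ 1) (hsz : s ≠ z) (hst : s ≠ t)
    (hszt : s ≠ z * t) : ∃ u ∈ Q, u * t = t * u ∧ u * s = z * (s * u) := by
  obtain ⟨v, hv, hvt⟩ := L.exists_noncomm htQ ht1 htz
  by_contra hcon
  push Not at hcon
  have hcomm : ∀ u ∈ Q, u * t = t * u → u * s = s * u := by
    intro u hu hut
    rcases L.comm u hu s hsQ with h | h
    · exact h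
    · exact absurd h (hcon u hu hut)
  have hzc : ∀ x : G, x ∈ Q → x * z = z * x := L.z_comm
  have hzz := L.z_sq
  -- for `x` not commuting with `t`, `x v` commutes with `t`
  have hxv : ∀ x ∈ Q, x * t = z * (t * x) → (x * v) * t = t * (x * v) := by
    intro x hx hxt
    calc (x * v) * t = x * (v * t) := by group
      _ = x * (z * (t * v)) := by rw [hvt]
      _ = (x * z) * (t * v) := by group
      _ = z * (x * t) * v := by rw [hzc x hx]; group
      _ = z * (z * (t * x)) * v := by rw [hxt]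
      _ = (z * z) * (t * (x * v)) := by group
      _ = t * (x * v) := by rw [hzz, one_mul]
  rcases L.comm v hv s hsQ with hvs | hvs
  · -- `s` is central
    have hcen : ∀ x ∈ Q, x * s = s * x := by
      intro x hx
      rcases L.comm x hx t htQ with h | h
      · exact hcomm x hx h
      · have h1 := hcomm _ (mul_mem hx hv) (hxv x hx h)
        have h2 : x * s * v = s * x * v := by
          calc x * s * v = x * (s * v) := by group
            _ = x * (v * s) := by rw [hvs]
            _ = (x * v) * s := by group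
            _ = s * (x * v) := h1
            _ = s * x * v := by group
        exact mul_right_cancel h2
    rcases L.center s hsQ hcen with h | h
    · exact hs1 h
    · exact hsz h
  · -- `s t` is central
    have hcen : ∀ x ∈ Q, x * (s * t) = (s * t) * x := by
      intro x hx
      rcases L.comm x hx t htQ with h | h
      · have h1 := hcomm x hx h
        calc x * (s * t) = (x * s) * t := by group
          _ = s * (x * t) := by rw [h1]; group
          _ = s * (t * x) := by rw [h]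
          _ = (s * t) * x := by group
      · have h1 := hcomm _ (mul_mem hx hv) (hxv x hx h)
        have h2 : x * s = z * (s * x) := by
          have h3 : x * (z * (s * v)) = s * (x * v) := by
            calc x * (z * (s * v)) = x * (v * s) := by rw [hvs]
              _ = (x * v) * s := by group
              _ = s * (x * v) := h1
          have h4 : (x * s) * (z * v) = (s * x) * v := by
            calc (x * s) * (z * v) = x * (s * z) * v := by group
              _ = x * (z * s) * v := by rw [← hzc s hsQ]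
              _ = x * (z * (s * v)) := by group
              _ = s * (x * v) := h3
              _ = (s * x) * v := by group
          have h5 : (x * s) * z = s * x := by
            have : (x * s) * z * v = (s * x) * v := by rw [← h4]; group
            exact mul_right_cancel this
          calc x * s = (x * s) * z * z := by rw [mul_assoc, hzz, mul_one]
            _ = (s * x) * z := by rw [h5]
            _ = s * (x * z) := by group
            _ = s * (z * x) := by rw [hzc x hx]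
            _ = (s * z) * x := by group
            _ = (z * s) * x := by rw [← hzc s hsQ]
            _ = z * (s * x) := by group
        calc x * (s * t) = (x * s) * t := by group
          _ = (z * (s * x)) * t := by rw [h2]
          _ = z * s * (x * t) := by group
          _ = z * s * (z * (t * x)) := by rw [h]
          _ = (z * s) * z * (t * x) := by group
          _ = (s * z) * z * (t * x) := by rw [hzc s hsQ]
          _ = s * (z * z) * (t * x) := by group
          _ = (s * t) * x := by rw [hzz]; group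
    have hti : t⁻¹ = t := inv_eq_of_mul_eq_one_left htt
    rcases L.center _ (mul_mem hsQ htQ) hcen with h | h
    · apply hst
      calc s = (s * t) * t⁻¹ := by group
        _ = t := by rw [h, one_mul, hti]
    · apply hszt
      calc s = (s * t) * t⁻¹ := by group
        _ = z * t := by rw [h, hti]

/-- Fixed points of a coprime group: a noncentral fixed element is moved by a fixed element. -/
theorem exists_fixed_noncomm [Finite G] {Q A : Subgroup G} {z y : G} (L : Large Q z) (hQp : IsPGroup 2 Q)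
    (hAodd : Odd (Nat.card A)) (hAQ : ∀ a ∈ A, ∀ q ∈ Q, a * q * a⁻¹ ∈ Q) (hAz : ∀ a ∈ A, a * z = z * a)
    (hyQ : y ∈ Q) (hyA : ∀ a ∈ A, a * y = y * a) (hy1 : y ≠ 1) (hyz : y ≠ z) :
    ∃ u ∈ Q, (∀ a ∈ A, a * u = u * a) ∧ u * y = z * (y * u) := by
  have : Fact (Nat.Prime 2) := ⟨Nat.prime_two⟩
  obtain ⟨v, hv, hvy⟩ := L.exists_noncomm hyQ hy1 hyz
  have hsolv : Group.IsSolvable Q := by
    have := hQp.isNilpotent
    infer_instance
  have hcop : (Nat.card A).Coprime (Nat.card Q) := by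
    obtain ⟨n, hn⟩ := IsPGroup.iff_card.mp hQp
    rw [hn]
    exact Nat.Coprime.pow_right n (Nat.coprime_two_right.mpr hAodd)
  have hnorm : A ≤ normalizer (Q : Set G) := by
    intro a ha
    rw [mem_normalizer_iff]
    intro q
    refine ⟨hAQ a ha q, fun hq => ?_⟩
    have := hAQ a⁻¹ (inv_mem ha) _ hq
    simpa [mul_assoc] using this
  set T : Subgroup G := Q ⊓ centralizer ({y} : Set G) with hT
  have hTA : A ≤ normalizer (T : Set G) := by
    intro a ha
    rw [mem_normalizer_iff]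
    have hkey : ∀ a ∈ A, ∀ q ∈ T, a * q * a⁻¹ ∈ T := by
      intro a ha q hq
      obtain ⟨hq1, hq2⟩ := Subgroup.mem_inf.mp hq
      rw [mem_centralizer_singleton_iff] at hq2
      refine Subgroup.mem_inf.mpr ⟨hAQ a ha q hq1, ?_⟩
      rw [mem_centralizer_singleton_iff]
      have hay := hyA a ha
      calc a * q * a⁻¹ * y = a * q * (a⁻¹ * y * a) * a⁻¹ := by group
        _ = a * q * y * a⁻¹ := by
            have : a⁻¹ * y * a = y := by
              calc a⁻¹ * y * a = a⁻¹ * (y * a) := by group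
                _ = a⁻¹ * (a * y) := by rw [hay]
                _ = y := by group
            rw [this]
        _ = a * (q * y) * a⁻¹ := by group
        _ = a * (y * q) * a⁻¹ := by rw [hq2]
        _ = (a * y) * q * a⁻¹ := by group
        _ = y * (a * q * a⁻¹) := by rw [hay]; group
    intro q
    refine ⟨hkey a ha q, fun hq => ?_⟩
    have := hkey a⁻¹ (inv_mem ha) _ hq
    simpa [mul_assoc] using this
  have hfix : ∀ a ∈ A, v⁻¹ * (a * v * a⁻¹) ∈ T := by
    intro a ha
    have hav := hAQ a ha v hv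
    refine Subgroup.mem_inf.mpr ⟨mul_mem (inv_mem hv) hav, ?_⟩
    rw [mem_centralizer_singleton_iff]
    have hay := hyA a ha
    have haz := hAz a ha
    have h1 : (a * v * a⁻¹) * y = z * (y * (a * v * a⁻¹)) := by
      calc (a * v * a⁻¹) * y = a * v * (a⁻¹ * y) := by group
        _ = a * v * (y * a⁻¹) := by
            have : a⁻¹ * y = y * a⁻¹ := by
              calc a⁻¹ * y = a⁻¹ * (y * a) * a⁻¹ := by group
                _ = a⁻¹ * (a * y) * a⁻¹ := by rw [hay]
                _ = y * a⁻¹ := by group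
            rw [this]
        _ = a * (v * y) * a⁻¹ := by group
        _ = a * (z * (y * v)) * a⁻¹ := by rw [hvy]
        _ = (a * z) * (y * v) * a⁻¹ := by group
        _ = z * (a * y) * v * a⁻¹ := by rw [haz]; group
        _ = z * (y * a) * v * a⁻¹ := by rw [hay]
        _ = z * (y * (a * v * a⁻¹)) := by group
    have h2 : v * y = z * (y * v) := hvy
    have hzc := L.z_comm
    have h3 : v⁻¹ * y = z * (y * v⁻¹) := by
      have hz' : z * v = v * z := (hzc v hv).symm
      have hzz := L.z_sq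
      calc v⁻¹ * y = v⁻¹ * (z * z * y) := by rw [hzz, one_mul]
        _ = v⁻¹ * z * (z * y * v) * v⁻¹ := by group
        _ = v⁻¹ * z * (v * y) * v⁻¹ := by rw [hvy]; group
        _ = v⁻¹ * (z * v) * y * v⁻¹ := by group
        _ = v⁻¹ * (v * z) * y * v⁻¹ := by rw [hz']
        _ = z * (y * v⁻¹) := by group
    have hzx : ∀ q ∈ Q, q * z = z * q := hzc
    calc v⁻¹ * (a * v * a⁻¹) * y = v⁻¹ * ((a * v * a⁻¹) * y) := by group
      _ = v⁻¹ * (z * (y * (a * v * a⁻¹))) := by rw [h1]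
      _ = (v⁻¹ * z) * y * (a * v * a⁻¹) := by group
      _ = (z * v⁻¹) * y * (a * v * a⁻¹) := by rw [hzx _ (inv_mem hv)]
      _ = z * (v⁻¹ * y) * (a * v * a⁻¹) := by group
      _ = z * (z * (y * v⁻¹)) * (a * v * a⁻¹) := by rw [h3]
      _ = (z * z) * (y * (v⁻¹ * (a * v * a⁻¹))) := by group
      _ = y * (v⁻¹ * (a * v * a⁻¹)) := by rw [L.z_sq, one_mul]
  obtain ⟨u, hu, hvu⟩ := Cfsg.Agent.Lib.Coprime.Coset.exists_centralizer_mem_coset hnorm hcop (Or.inr hsolv)
    (inf_le_left : T ≤ Q) hTA v hv hfix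
  obtain ⟨huQ, huA⟩ := Subgroup.mem_inf.mp hu
  refine ⟨u, huQ, fun a ha => (mem_centralizer_iff.mp huA a ha), ?_⟩
  obtain ⟨_, hvu2⟩ := Subgroup.mem_inf.mp hvu
  rw [mem_centralizer_singleton_iff] at hvu2
  -- `u = v (v⁻¹ u)` with `v⁻¹ u` commuting with `y`
  calc u * y = v * (v⁻¹ * u * y) := by group
    _ = v * (y * (v⁻¹ * u)) := by rw [hvu2]
    _ = (v * y) * (v⁻¹ * u) := by group
    _ = z * (y * v) * (v⁻¹ * u) := by rw [hvy]
    _ = z * (y * u) := by group

end Cfsg.Agent.Lib.PGroup.LargeQuot
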