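import Mathlib
import Cfsg.Agent.Lib.PGroup.LargeQuot
import Cfsg.Agent.Lib.PGroup.LargePair

/-!
# Large extraspecial subgroups in the centralizer of an involution modulo the involution
-/

set_option autoImplicit false

namespace Cfsg.Agent.Lib.PGroup.LargeQuotInv

open Cfsg Subgroup
open Cfsg.Agent.Lib.PGroup.LargeExtraspecial
open Cfsg.Agent.Lib.PGroup.LargeQuot
open Cfsg.Agent.Lib.PGroup.LargePair

variable {G : Type*} [Group G]

/-- The main computation. -/
theorem core [Finite G] {Q : Subgroup G} {z g t : G} (L : Large Q z) (hQp : IsPGroup 2 Q)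
    (hN : ∀ c : G, c * z = z * c → ∀ y ∈ Q, c * y * c⁻¹ ∈ Q)
    (hgQ : g * z * g⁻¹ ∈ Q) (hgne : g * z * g⁻¹ ≠ z)
    (htt : t * t = 1) (ht1 : t ≠ 1) (htQ : t ∈ Q) (htQ' : t ∈ Q.map (MulAut.conj g).toMonoidHom)
    (htz : ¬ IsConj z t)
    (hCP : ∀ c : G, c * z = z * c →
      (∀ x ∈ Q ⊓ centralizer ({t} : Set G), ∃ y ∈ Subgroup.closure ({t, z} : Set G), c * x * c⁻¹ = x * y) → c ∈ Q)
    [hn : ((zpowers t).subgroupOf (centralizer ({t} : Set G))).Normal] :
    IsLargeExtraspecial (((Q ⊓ centralizer ({t} : Set G)).subgroupOf (centralizer ({t} : Set G))).map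
      (QuotientGroup.mk' ((zpowers t).subgroupOf (centralizer ({t} : Set G))))) ∧
    ∃ x ∈ (Q ⊓ centralizer ({t} : Set G)) ⊔ (Q.map (MulAut.conj g).toMonoidHom ⊓ centralizer ({t} : Set G)),
      x * (g * z * g⁻¹) * x⁻¹ = z := by
  have : Fact (Nat.Prime 2) := ⟨Nat.prime_two⟩
  set Q' := Q.map (MulAut.conj g).toMonoidHom with hQ'
  set s := g * z * g⁻¹ with hs
  set P := Q ⊓ centralizer ({t} : Set G) with hP
  have hzz := L.z_sq
  have hss : s * s = 1 := by
    rw [hs]
    calc g * z * g⁻¹ * (g * z * g⁻¹) = g * (z * z) * g⁻¹ := by group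
      _ = 1 := by rw [hzz]; group
  have hz1 := L.z_ne
  have hs1 : s ≠ 1 := by
    intro h
    apply hz1
    calc z = g⁻¹ * (g * z * g⁻¹) * g := by group
      _ = 1 := by rw [← hs, h]; group
  have hPair : Pair Q Q' z s := pair_of_conj L hQp hN hgQ hgne
  have L' : Large Q' s := hPair.L'
  have hzQ' : z ∈ Q' := hPair.z_mem'
  have hsz : s * z = z * s := L.z_comm s hgQ
  have hzs : z ≠ s := hgne.symm
  have hmemP : ∀ x, x ∈ P ↔ x ∈ Q ∧ x * t = t * x := by
    intro x
    rw [hP, mem_inf, mem_centralizer_singleton_iff]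
  have hzP : z ∈ P := (hmemP z).2 ⟨L.z_mem, (L.z_comm t htQ).symm⟩
  have hsP : s ∈ P := (hmemP s).2 ⟨hgQ, (L'.z_comm t htQ').symm⟩
  have hPp : IsPGroup 2 P := hQp.to_le inf_le_left
  have hzconj : IsConj s z := by
    rw [isConj_comm, isConj_iff]
    exact ⟨g, rfl⟩
  have htz' : t ≠ z := by
    rintro rfl
    exact htz (IsConj.refl _)
  have htzz : z * t ≠ z ∧ ¬ IsConj z (z * t) := by
    obtain ⟨v, hv, hvt⟩ := L.exists_noncomm htQ ht1 htz'
    refine ⟨fun h => ht1 (by simpa using h), ?_⟩
    intro h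
    apply htz
    refine h.trans ?_
    rw [isConj_comm, isConj_iff]
    exact ⟨v, by rw [hvt]; group⟩
  have hst : s ≠ t := by
    intro h
    apply htz
    rw [← h]
    exact hzconj.symm
  have hszt : s ≠ z * t := by
    intro h
    apply htzz.2
    rw [← h]
    exact hzconj.symm
  obtain ⟨u, hu, hut, hus⟩ := exists_comm_not_comm L htQ hgQ htt ht1 htz' hs1 hgne hst hszt
  -- `s z` is conjugate to `z`
  have hszconj : IsConj z (s * z) := by
    refine hzconj.symm.trans ?_
    rw [isConj_iff]
    refine ⟨u, ?_⟩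
    rw [hus, hsz]
    group
  have hts : t ≠ s := hst.symm
  have hzst : z ≠ s * t := by
    intro h
    apply htz
    have h1 : t = s * z := by
      have hsi : s⁻¹ = s := inv_eq_of_mul_eq_one_left hss
      calc t = s⁻¹ * (s * t) := by group
        _ = s * z := by rw [← h, hsi]
    rw [h1]
    exact hszconj
  obtain ⟨u', hu', hu't, hu'z⟩ := exists_comm_not_comm L' htQ' hzQ' htt ht1 hts hz1 hzs htz'.symm hzst
  have huP : u ∈ P := (hmemP u).2 ⟨hu, hut⟩
  have hgood : ∀ m : G, m * t = t * m → m * z * m⁻¹ * z⁻¹ ∈ zpowers t → m * z = z * m := by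
    intro m hmt hm
    rw [Cfsg.Agent.Lib.PGroup.LargeFz.mem_zpowers_iff_invol htt] at hm
    rcases hm with hm | hm
    · have h1 : m * z * m⁻¹ = z := by
        calc m * z * m⁻¹ = (m * z * m⁻¹ * z⁻¹) * z := by group
          _ = z := by rw [hm, one_mul]
      calc m * z = (m * z * m⁻¹) * m := by group
        _ = z * m := by rw [h1]
    · exfalso
      apply htzz.2
      have h1 : m * z * m⁻¹ = t * z := by
        calc m * z * m⁻¹ = (m * z * m⁻¹ * z⁻¹) * z := by group
          _ = t * z := by rw [hm]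
      rw [isConj_iff]
      refine ⟨m, ?_⟩
      rw [h1, ← L.z_comm t htQ]
  have hconjP : ∀ c : G, c * z = z * c → c * t = t * c → ∀ x ∈ P, c * x * c⁻¹ ∈ P := by
    intro c hcz hct x hx
    obtain ⟨hxQ, hxt⟩ := (hmemP x).1 hx
    refine (hmemP _).2 ⟨hN c hcz x hxQ, ?_⟩
    calc c * x * c⁻¹ * t = c * x * (c⁻¹ * t * c) * c⁻¹ := by group
      _ = c * x * t * c⁻¹ := by
          have : c⁻¹ * t * c = t := by
            calc c⁻¹ * t * c = c⁻¹ * (t * c) := by group
              _ = c⁻¹ * (c * t) := by rw [hct]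
              _ = t := by group
          rw [this]
      _ = c * (x * t) * c⁻¹ := by group
      _ = c * (t * x) * c⁻¹ := by rw [hxt]
      _ = (c * t) * x * c⁻¹ := by group
      _ = t * (c * x * c⁻¹) := by rw [hct]; group
  have hzN : z ∉ zpowers t := by
    rw [Cfsg.Agent.Lib.PGroup.LargeFz.mem_zpowers_iff_invol htt]
    rintro (h | h)
    · exact hz1 h
    · exact htz' h.symm
  have hNM : zpowers t ≤ centralizer ({t} : Set G) :=
    zpowers_le.2 (mem_centralizer_singleton_iff.2 rfl)
  have htti : t⁻¹ = t := inv_eq_of_mul_eq_one_left htt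
  have h2 : ∀ m ∈ centralizer ({t} : Set G), (∀ x ∈ P, m * x * m⁻¹ * x⁻¹ ∈ zpowers t) →
      m ∈ zpowers t ∨ z⁻¹ * m ∈ zpowers t := by
    intro m hm hx
    have hmt : m * t = t * m := mem_centralizer_singleton_iff.1 hm
    have hmz := hgood m hmt (hx z hzP)
    have hmQ : m ∈ Q := by
      refine hCP m hmz (fun x hxP => ?_)
      have h3 := hx x hxP
      rw [Cfsg.Agent.Lib.PGroup.LargeFz.mem_zpowers_iff_invol htt] at h3
      rcases h3 with h3 | h3
      · refine ⟨1, one_mem _, ?_⟩
        calc m * x * m⁻¹ = (m * x * m⁻¹ * x⁻¹) * x := by group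
          _ = x * 1 := by rw [h3]; group
      · refine ⟨t, subset_closure (Set.mem_insert _ _), ?_⟩
        calc m * x * m⁻¹ = (m * x * m⁻¹ * x⁻¹) * x := by group
          _ = t * x := by rw [h3]
          _ = x * t := ((hmemP x).1 hxP).2.symm
    have hcomm : ∀ x ∈ P, m * x = x * m := by
      intro x hxP
      rcases L.comm m hmQ x ((hmemP x).1 hxP).1 with h3 | h3
      · exact h3
      · exfalso
        have h4 := hx x hxP
        have h5 : m * x * m⁻¹ * x⁻¹ = z := by
          calc m * x * m⁻¹ * x⁻¹ = (m * x) * m⁻¹ * x⁻¹ := by group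
            _ = (z * (x * m)) * m⁻¹ * x⁻¹ := by rw [h3]
            _ = z := by group
        rw [h5] at h4
        exact hzN h4
    by_contra hcon
    push Not at hcon
    obtain ⟨hc1, hc2⟩ := hcon
    rw [Cfsg.Agent.Lib.PGroup.LargeFz.mem_zpowers_iff_invol htt] at hc1 hc2
    push Not at hc1 hc2
    have hmzt : m ≠ z * t := by
      rintro rfl
      exact hc2.2 (by group)
    have hmz' : m ≠ z := by
      rintro rfl
      exact hc2.1 (by group)
    obtain ⟨v, hv, hvt, hvm⟩ := exists_comm_not_comm L htQ hmQ htt ht1 htz' hc1.1 hmz' hc1.2 hmzt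
    have h3 := hcomm v ((hmemP v).2 ⟨hv, hvt⟩)
    rw [hvm] at h3
    apply hz1
    simpa using h3.symm
  refine ⟨?_, ?_⟩
  · refine large_quot (centralizer ({t} : Set G)) (zpowers t) P hNM inf_le_right hPp hzP hzN ?_ ?_ ?_ ?_ h2 ?_ ?_
    · intro y hy h
      exact h2 y (mem_inf.1 hy).2 h
    · intro x hx
      have h3 := L.z_comm x ((hmemP x).1 hx).1
      have : z * x * z⁻¹ * x⁻¹ = 1 := by
        calc z * x * z⁻¹ * x⁻¹ = (z * x) * z⁻¹ * x⁻¹ := by group
          _ = (x * z) * z⁻¹ * x⁻¹ := by rw [h3]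
          _ = 1 := by group
      rw [this]
      exact one_mem _
    · intro x hx
      rcases L.sq x ((hmemP x).1 hx).1 with h3 | h3
      · left
        rw [h3]
        exact one_mem _
      · right
        rw [h3, inv_mul_cancel]
        exact one_mem _
    · refine ⟨u, huP, s, hsP, ?_⟩
      have h3 : u * s * u⁻¹ * s⁻¹ = z := by
        calc u * s * u⁻¹ * s⁻¹ = (u * s) * u⁻¹ * s⁻¹ := by group
          _ = (z * (s * u)) * u⁻¹ * s⁻¹ := by rw [hus]
          _ = z := by group
      rw [h3]
      exact hzN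
    · intro m hm he x hx
      have hmt : m * t = t * m := mem_centralizer_singleton_iff.1 hm
      have hmz := hgood m hmt he
      refine ⟨m * x * m⁻¹, hconjP m hmz hmt x hx, ?_⟩
      rw [inv_mul_cancel]
      exact one_mem _
    · intro K hNK hKM hodd hRK
      have h4K : ¬ 4 ∣ Nat.card K := by
        have h3 := Subgroup.relIndex_mul_relIndex ⊥ (zpowers t) K bot_le hNK
        rw [Subgroup.relIndex_bot_left, Subgroup.relIndex_bot_left, Nat.card_zpowers,
          orderOf_eq_prime (p := 2) (by rw [pow_two]; exact htt) ht1] at h3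
        rw [← h3]
        rintro ⟨k, hk⟩
        obtain ⟨j, hj⟩ := hodd
        omega
      obtain ⟨L0, hL0K, hL0odd, hL0norm, hstr, hoddmem⟩ := exists_odd_part (D := K) (t := t)
        (hNK (mem_zpowers t)) ht1 htt
        (fun x hx => mem_centralizer_singleton_iff.1 (hKM hx)) h4K
      have hPL0 : ∀ r ∈ P, ∀ k ∈ L0, r * k * r⁻¹ ∈ L0 := by
        intro r hr k hk
        apply hoddmem _ (hRK r hr k (hL0K hk))
        have h3 : orderOf (r * k * r⁻¹) = orderOf k :=
          orderOf_injective (MulAut.conj r).toMonoidHom (MulAut.conj r).injective k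
        rw [h3]
        exact Odd.of_dvd_nat hL0odd (Subgroup.orderOf_dvd_natCard L0 hk)
      have hfix1 : ∀ c ∈ L0, c * z = z * c → c ∈ (⊥ : Subgroup G) := by
        intro c hc hcz
        have hct : c * t = t * c := mem_centralizer_singleton_iff.1 (hKM (hL0K hc))
        have hcP : ∀ x ∈ P, c * x = x * c := by
          intro x hx
          have h5 : c * x * c⁻¹ * x⁻¹ ∈ P := mul_mem (hconjP c hcz hct x hx) (inv_mem hx)
          have h6 : c * x * c⁻¹ * x⁻¹ ∈ L0 := by
            have h7 := mul_mem hc (hPL0 x hx c⁻¹ (inv_mem hc))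
            have h8 : c * (x * c⁻¹ * x⁻¹) = c * x * c⁻¹ * x⁻¹ := by group
            rwa [h8] at h7
          have h7 := eq_one_of_mem_of_mem hPp hL0odd h5 h6
          calc c * x = (c * x * c⁻¹ * x⁻¹) * (x * c) := by group
            _ = x * c := by rw [h7, one_mul]
        have hcQ : c ∈ Q := by
          refine hCP c hcz (fun x hx => ⟨1, one_mem _, ?_⟩)
          rw [hcP x hx]
          group
        exact (mem_bot).2 (eq_one_of_mem_of_mem hQp hL0odd hcQ hc)
      have hfix2 : ∀ y ∈ L0, y * s = s * y → y ∈ (⊥ : Subgroup G) := by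
        intro y hy hys
        apply hfix1 y hy
        have h5 : y * z * y⁻¹ * z⁻¹ ∈ Q' := mul_mem (hPair.N' y hys z hzQ') (inv_mem hzQ')
        have h6 : y * z * y⁻¹ * z⁻¹ ∈ L0 := by
          have h7 := mul_mem hy (hPL0 z hzP y⁻¹ (inv_mem hy))
          have h8 : y * (z * y⁻¹ * z⁻¹) = y * z * y⁻¹ * z⁻¹ := by group
          rwa [h8] at h7
        have h7 := eq_one_of_mem_of_mem hPair.p' hL0odd h5 h6
        calc y * z = (y * z * y⁻¹ * z⁻¹) * (z * y) := by group
          _ = z * y := by rw [h7, one_mul]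
      have hfix3 : ∀ k ∈ L0, k * (s * z) = (s * z) * k → k ∈ (⊥ : Subgroup G) := by
        intro k hk hksz
        have hk' : u⁻¹ * k * u ∈ L0 := by
          have h7 := hPL0 u⁻¹ (inv_mem huP) k hk
          rwa [inv_inv] at h7
        have hus' : u * s = (s * z) * u := by rw [hus, hsz]; group
        have h5 : (u⁻¹ * k * u) * s = s * (u⁻¹ * k * u) := by
          calc (u⁻¹ * k * u) * s = u⁻¹ * k * (u * s) := by group
            _ = u⁻¹ * k * ((s * z) * u) := by rw [hus']
            _ = u⁻¹ * (k * (s * z)) * u := by group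
            _ = u⁻¹ * ((s * z) * k) * u := by rw [hksz]
            _ = (u⁻¹ * (s * z) * u) * (u⁻¹ * k * u) := by group
            _ = (u⁻¹ * (u * s)) * (u⁻¹ * k * u) := by
                have : u⁻¹ * (s * z) * u = u⁻¹ * (u * s) := by
                  rw [hus']; group
                rw [this]
            _ = s * (u⁻¹ * k * u) := by group
        have h6 := hfix2 _ hk' h5
        rw [mem_bot] at h6 ⊢
        calc k = u * (u⁻¹ * k * u) * u⁻¹ := by group
          _ = 1 := by rw [h6]; group
      have hL0bot : L0 ≤ ⊥ := gen_four hzz hss hsz hz1 hs1 hzs hL0odd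
        (fun k hk => hPL0 z hzP k hk) (fun k hk => hPL0 s hsP k hk) hfix1 hfix2 hfix3
      intro x hx
      rcases hstr x hx with h3 | h3
      · rw [mem_bot.1 (hL0bot h3)]
        exact one_mem _
      · have h4 := mem_bot.1 (hL0bot h3)
        have h5 : x = t := by
          calc x = (x * t) * t⁻¹ := by group
            _ = t := by rw [h4, one_mul, htti]
        rw [h5]
        exact mem_zpowers t
  · refine ⟨u' * u, mul_mem (mem_sup_right ?_) (mem_sup_left huP), ?_⟩
    · exact mem_inf.2 ⟨hu', mem_centralizer_singleton_iff.2 hu't⟩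
    · have h3 : u' * s = s * u' := L'.z_comm u' hu'
      have h4 : u * s * u⁻¹ = s * z := by
        rw [hus, hsz]; group
      have h5 : u' * z * u'⁻¹ = s * z := by
        rw [hu'z]; group
      have h6 : u' * s * u'⁻¹ = s := by
        rw [h3]; group
      calc u' * u * s * (u' * u)⁻¹ = u' * (u * s * u⁻¹) * u'⁻¹ := by group
        _ = u' * (s * z) * u'⁻¹ := by rw [h4]
        _ = (u' * s * u'⁻¹) * (u' * z * u'⁻¹) := by group
        _ = s * (s * z) := by rw [h5, h6]
        _ = (s * s) * z := by group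
        _ = z := by rw [hss, one_mul]

end Cfsg.Agent.Lib.PGroup.LargeQuotInv
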