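import Mathlib
import Cfsg.Agent.Lib.PGroup.LargeQuot
import Cfsg.Agent.Lib.PGroup.LargePair
import Cfsg.Agent.Lib.Basic.PCore
import Cfsg.Agent.Lib.Components.LayerProduct

/-!
# Large extraspecial subgroups in the centralizer of an odd subgroup modulo that subgroup
-/

set_option autoImplicit false

namespace Cfsg.Agent.Lib.PGroup.LargeQuotOdd

open Cfsg Subgroup
open Cfsg.Agent.Lib.PGroup.LargeExtraspecial
open Cfsg.Agent.Lib.PGroup.LargeQuot
open Cfsg.Agent.Lib.PGroup.LargePair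

variable {G : Type*} [Group G]

/-- The main computation. -/
theorem core [Finite G] {Q A : Subgroup G} {z g : G} (L : Large Q z) (hQp : IsPGroup 2 Q)
    (hN : ∀ c : G, c * z = z * c → ∀ y ∈ Q, c * y * c⁻¹ ∈ Q)
    (hAz : ∀ a ∈ A, a * z = z * a) (hAodd : Odd (Nat.card A))
    (hO : (Cfsg.oddCore ↥(centralizer ((A ⊔ (Q ⊓ centralizer (A : Set G)) : Subgroup G) : Set G))).map
      (centralizer ((A ⊔ (Q ⊓ centralizer (A : Set G)) : Subgroup G) : Set G)).subtype ≤ A)
    (h4 : ¬ 4 ∣ Nat.card ↥(centralizer ((A ⊔ (Q ⊓ centralizer (A : Set G)) : Subgroup G) : Set G)))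
    (hgR : g * z * g⁻¹ ∈ Q ⊓ centralizer (A : Set G)) (hgne : g * z * g⁻¹ ≠ z)
    [hn : (A.subgroupOf (centralizer (A : Set G) ⊔ A)).Normal] :
    ((centralizer (A : Set G) ⊔ A) ⊓ centralizer (((Q ⊓ centralizer (A : Set G)) ⊔ A : Subgroup G) : Set G)) ⊔ A
        = A ⊔ zpowers z ∧
    IsLargeExtraspecial (((Q ⊓ centralizer (A : Set G)).subgroupOf (centralizer (A : Set G) ⊔ A)).map
      (QuotientGroup.mk' (A.subgroupOf (centralizer (A : Set G) ⊔ A)))) ∧
    ∃ x ∈ (Q ⊓ centralizer (A : Set G)) ⊔ (Q.map (MulAut.conj g).toMonoidHom ⊓ centralizer (A : Set G)),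
      x * (g * z * g⁻¹) * x⁻¹ = z := by
  have : Fact (Nat.Prime 2) := ⟨Nat.prime_two⟩
  set Q' := Q.map (MulAut.conj g).toMonoidHom with hQ'
  set t := g * z * g⁻¹ with ht
  set R := Q ⊓ centralizer (A : Set G) with hR
  set D := centralizer ((A ⊔ R : Subgroup G) : Set G) with hD
  set M := centralizer (A : Set G) ⊔ A with hM
  have hzz := L.z_sq
  have hz1 := L.z_ne
  have htt : t * t = 1 := by
    rw [ht]
    calc g * z * g⁻¹ * (g * z * g⁻¹) = g * (z * z) * g⁻¹ := by group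
      _ = 1 := by rw [hzz]; group
  have ht1 : t ≠ 1 := by
    intro h
    apply hz1
    calc z = g⁻¹ * (g * z * g⁻¹) * g := by group
      _ = 1 := by rw [← ht, h]; group
  have hmemR : ∀ x, x ∈ R ↔ x ∈ Q ∧ ∀ a ∈ A, a * x = x * a := by
    intro x
    rw [hR, mem_inf, mem_centralizer_iff]
    rfl
  have hmemD : ∀ x, x ∈ D ↔ (∀ a ∈ A, a * x = x * a) ∧ (∀ r ∈ R, r * x = x * r) := by
    intro x
    rw [hD, mem_centralizer_iff]
    constructor
    · intro h
      exact ⟨fun a ha => h a (SetLike.mem_coe.2 (mem_sup_left ha)),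
        fun r hr => h r (SetLike.mem_coe.2 (mem_sup_right hr))⟩
    · rintro ⟨h1, h2⟩ y hy
      have h3 : A ⊔ R ≤ centralizer ({x} : Set G) := by
        refine sup_le (fun a ha => ?_) (fun r hr => ?_)
        · exact mem_centralizer_singleton_iff.2 (h1 a ha)
        · exact mem_centralizer_singleton_iff.2 (h2 r hr)
      exact mem_centralizer_singleton_iff.1 (h3 hy)
  have htQ : t ∈ Q := ((hmemR t).1 hgR).1
  have htA : ∀ a ∈ A, a * t = t * a := ((hmemR t).1 hgR).2
  have hzR : z ∈ R := (hmemR z).2 ⟨L.z_mem, hAz⟩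
  have hRp : IsPGroup 2 R := hQp.to_le inf_le_left
  have hAN : ∀ a ∈ A, ∀ y ∈ Q, a * y * a⁻¹ ∈ Q := fun a ha y hy => hN a (hAz a ha) y hy
  have hPair : Pair Q Q' z t := pair_of_conj L hQp hN htQ hgne
  have L' : Large Q' t := hPair.L'
  have hzQ' : z ∈ Q' := hPair.z_mem'
  have hzt : z ≠ t := hgne.symm
  have htz : t * z = z * t := L.z_comm t htQ
  have hzD : z ∈ D := (hmemD z).2 ⟨hAz, fun r hr => L.z_comm r ((hmemR r).1 hr).1⟩
  have hDz : ∀ x ∈ D, x * z = z * x := fun x hx => (((hmemD x).1 hx).2 z hzR).symm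
  obtain ⟨LD, hLDD, hLDodd, hLDnorm, hstr, hoddmem⟩ := exists_odd_part hzD hz1 hzz hDz h4
  have hLDA : LD ≤ A := by
    refine le_trans ?_ hO
    intro x hx
    refine ⟨⟨x, hLDD hx⟩, ?_, rfl⟩
    have hNorm : (LD.subgroupOf D).Normal := by
      refine ⟨fun n hn' d => ?_⟩
      rw [mem_subgroupOf] at hn' ⊢
      simpa using hLDnorm d d.2 n hn'
    have hcop : (Nat.card (LD.subgroupOf D)).Coprime 2 := by
      rw [Nat.card_congr (subgroupOfEquivOfLe hLDD).toEquiv, Nat.coprime_two_right]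
      exact hLDodd
    exact Cfsg.Agent.Lib.Basic.PCore.le_pPrimeCore hNorm hcop (by rwa [mem_subgroupOf])
  have hDstr : ∀ x ∈ D, x ∈ A ∨ x * z ∈ A := by
    intro x hx
    rcases hstr x hx with h | h
    · exact Or.inl (hLDA h)
    · exact Or.inr (hLDA h)
  have hzA : z ∉ A := fun h => hz1 (eq_one_of_mem_of_mem hQp hAodd L.z_mem h)
  have hRM : R ≤ M := fun x hx => mem_sup_left (mem_inf.1 hx).2
  have hAM : A ≤ M := le_sup_right
  have hdec : ∀ m ∈ M, ∃ c ∈ centralizer (A : Set G), ∃ a ∈ A, m = c * a := by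
    intro m hm
    refine Cfsg.Agent.Lib.Components.LayerProduct.mem_sup_of_commute ?_ hm
    intro c hc a ha
    exact ((mem_centralizer_iff.1 hc) a ha).symm
  have hcomm2 : ∀ c : G, ∀ x ∈ R, c * x * c⁻¹ * x⁻¹ ∈ A → c * x = x * c := by
    intro c x hx he
    obtain ⟨k, hk⟩ := hRp ⟨x, hx⟩
    have hk' : x ^ 2 ^ k = 1 := by
      have := congrArg Subtype.val hk
      simpa using this
    have h1 := comm_eq_one_of_mem hAodd hk' ((hmemR x).1 hx).2 he
    calc c * x = (c * x * c⁻¹ * x⁻¹) * (x * c) := by group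
      _ = x * c := by rw [h1, one_mul]
  have hmconj : ∀ c a x : G, a ∈ A → x ∈ R → (c * a) * x * (c * a)⁻¹ = c * x * c⁻¹ := by
    intro c a x ha hx
    have h1 : a * x = x * a := ((hmemR x).1 hx).2 a ha
    calc (c * a) * x * (c * a)⁻¹ = c * (a * x) * a⁻¹ * c⁻¹ := by group
      _ = c * (x * a) * a⁻¹ * c⁻¹ := by rw [h1]
      _ = c * x * c⁻¹ := by group
  have hconjA : ∀ c ∈ centralizer (A : Set G), ∀ x : G, (∀ a ∈ A, a * x = x * a) →
      ∀ a ∈ A, a * (c * x * c⁻¹) = (c * x * c⁻¹) * a := by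
    intro c hc x hx a ha
    have h1 : a * c = c * a := (mem_centralizer_iff.1 hc) a ha
    have h2 : c⁻¹ * a = a * c⁻¹ := by
      calc c⁻¹ * a = c⁻¹ * (a * c) * c⁻¹ := by group
        _ = c⁻¹ * (c * a) * c⁻¹ := by rw [h1]
        _ = a * c⁻¹ := by group
    calc a * (c * x * c⁻¹) = (a * c) * x * c⁻¹ := by group
      _ = c * (a * x) * c⁻¹ := by rw [h1]; group
      _ = c * (x * a) * c⁻¹ := by rw [hx a ha]
      _ = c * x * (a * c⁻¹) := by group
      _ = c * x * (c⁻¹ * a) := by rw [h2]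
      _ = (c * x * c⁻¹) * a := by group
  obtain ⟨u, hu, huA, hut⟩ := exists_fixed_noncomm L hQp hAodd hAN hAz htQ htA ht1 hgne
  have huR : u ∈ R := (hmemR u).2 ⟨hu, huA⟩
  obtain ⟨u', hu', hu'A, hu'z⟩ := exists_fixed_noncomm L' hPair.p' hAodd
    (fun a ha q hq => hPair.N' a (htA a ha) q hq) htA hzQ' hAz hz1 hzt
  have h2 : ∀ m ∈ M, (∀ x ∈ R, m * x * m⁻¹ * x⁻¹ ∈ A) → m ∈ A ∨ z⁻¹ * m ∈ A := by
    intro m hm hx
    obtain ⟨c, hc, a, ha, rfl⟩ := hdec m hm
    have hcR : ∀ r ∈ R, r * c = c * r := by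
      intro r hr
      have h3 := hx r hr
      rw [hmconj c a r ha hr] at h3
      exact (hcomm2 c r hr h3).symm
    have hcD : c ∈ D := (hmemD c).2 ⟨fun a ha => (mem_centralizer_iff.1 hc) a ha, hcR⟩
    rcases hDstr c hcD with h3 | h3
    · exact Or.inl (mul_mem h3 ha)
    · right
      have h5 : z⁻¹ * (c * a) = (c * z) * a := by
        have h6 := hDz c hcD
        have h7 : z⁻¹ * c = c * z⁻¹ := by
          calc z⁻¹ * c = z⁻¹ * (c * z) * z⁻¹ := by group
            _ = z⁻¹ * (z * c) * z⁻¹ := by rw [h6]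
            _ = c * z⁻¹ := by group
        have hzi : z⁻¹ = z := inv_eq_of_mul_eq_one_left hzz
        calc z⁻¹ * (c * a) = (z⁻¹ * c) * a := by group
          _ = (c * z⁻¹) * a := by rw [h7]
          _ = (c * z) * a := by rw [hzi]
      rw [h5]
      exact mul_mem h3 ha
  refine ⟨?_, ?_, ?_⟩
  · have hsw : R ⊔ A = A ⊔ R := sup_comm R A
    rw [hsw]
    refine le_antisymm (sup_le (fun y hy => ?_) le_sup_left) (sup_le le_sup_right (zpowers_le.2 ?_))
    · have hyD : y ∈ D := (mem_inf.1 hy).2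
      rcases hDstr y hyD with h3 | h3
      · exact mem_sup_left h3
      · have h5 : y = (y * z) * z⁻¹ := by group
        rw [h5]
        exact mul_mem (mem_sup_left h3) (inv_mem (mem_sup_right (mem_zpowers z)))
    · exact mem_sup_left (mem_inf.2 ⟨hRM hzR, hzD⟩)
  · refine large_quot M A R hAM hRM hRp hzR hzA ?_ ?_ ?_ ?_ h2 ?_ ?_
    · intro y hy h
      exact h2 y (hRM hy) h
    · intro x hx
      have h3 := L.z_comm x ((hmemR x).1 hx).1
      have : z * x * z⁻¹ * x⁻¹ = 1 := by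
        calc z * x * z⁻¹ * x⁻¹ = (z * x) * z⁻¹ * x⁻¹ := by group
          _ = (x * z) * z⁻¹ * x⁻¹ := by rw [h3]
          _ = 1 := by group
      rw [this]
      exact one_mem _
    · intro x hx
      rcases L.sq x ((hmemR x).1 hx).1 with h3 | h3
      · left
        rw [h3]
        exact one_mem _
      · right
        rw [h3, inv_mul_cancel]
        exact one_mem _
    · refine ⟨u, huR, t, hgR, ?_⟩
      have h3 : u * t * u⁻¹ * t⁻¹ = z := by
        calc u * t * u⁻¹ * t⁻¹ = (u * t) * u⁻¹ * t⁻¹ := by group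
          _ = (z * (t * u)) * u⁻¹ * t⁻¹ := by rw [hut]
          _ = z := by group
      rw [h3]
      exact hzA
    · intro m hm he x hx
      obtain ⟨c, hc, a, ha, rfl⟩ := hdec m hm
      rw [hmconj c a z ha hzR] at he
      have hcz := hcomm2 c z hzR he
      refine ⟨c * x * c⁻¹, ?_, ?_⟩
      · exact (hmemR _).2 ⟨hN c hcz x ((hmemR x).1 hx).1, hconjA c hc x ((hmemR x).1 hx).2⟩
      · rw [hmconj c a x ha hx, inv_mul_cancel]
        exact one_mem _
    · intro K hAK hKM hodd hRK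
      have hKodd : Odd (Nat.card K) := by
        have h3 := Subgroup.relIndex_mul_relIndex ⊥ A K bot_le hAK
        rw [Subgroup.relIndex_bot_left, Subgroup.relIndex_bot_left] at h3
        rw [← h3]
        exact hAodd.mul hodd
      set L1 : Subgroup G := K ⊓ centralizer (A : Set G) with hL1
      have hL1odd : Odd (Nat.card L1) :=
        Odd.of_dvd_nat hKodd (Subgroup.card_dvd_of_le inf_le_left)
      have hRL1 : ∀ r ∈ R, ∀ k ∈ L1, r * k * r⁻¹ ∈ L1 := by
        intro r hr k hk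
        obtain ⟨hk1, hk2⟩ := mem_inf.1 hk
        refine mem_inf.2 ⟨hRK r hr k hk1, mem_centralizer_iff.2 ?_⟩
        exact hconjA r (mem_inf.1 hr).2 k (fun a ha => (mem_centralizer_iff.1 hk2) a ha)
      have hfix1 : ∀ c ∈ L1, c * z = z * c → c ∈ A := by
        intro c hc hcz
        obtain ⟨hcK, hcA⟩ := mem_inf.1 hc
        have hcR : ∀ r ∈ R, r * c = c * r := by
          intro x hx
          have h5 : c * x * c⁻¹ * x⁻¹ ∈ R := mul_mem
            ((hmemR _).2 ⟨hN c hcz x ((hmemR x).1 hx).1, hconjA c hcA x ((hmemR x).1 hx).2⟩) (inv_mem hx)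
          have h6 : c * x * c⁻¹ * x⁻¹ ∈ K := by
            have h7 := mul_mem hcK (hRK x hx c⁻¹ (inv_mem hcK))
            have h8 : c * (x * c⁻¹ * x⁻¹) = c * x * c⁻¹ * x⁻¹ := by group
            rwa [h8] at h7
          have h7 := eq_one_of_mem_of_mem hRp hKodd h5 h6
          calc x * c = (c * x * c⁻¹ * x⁻¹)⁻¹ * (c * x) := by group
            _ = c * x := by rw [h7, inv_one, one_mul]
        have hcD : c ∈ D := (hmemD c).2 ⟨fun a ha => (mem_centralizer_iff.1 hcA) a ha, hcR⟩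
        exact hLDA (hoddmem c hcD (Odd.of_dvd_nat hKodd (Subgroup.orderOf_dvd_natCard K hcK)))
      have hfix2 : ∀ y ∈ L1, y * t = t * y → y ∈ A := by
        intro y hy hyt
        obtain ⟨hyK, hyA⟩ := mem_inf.1 hy
        apply hfix1 y hy
        have h5 : y * z * y⁻¹ * z⁻¹ ∈ Q' := mul_mem (hPair.N' y hyt z hzQ') (inv_mem hzQ')
        have h6 : y * z * y⁻¹ * z⁻¹ ∈ K := by
          have h7 := mul_mem hyK (hRK z hzR y⁻¹ (inv_mem hyK))
          have h8 : y * (z * y⁻¹ * z⁻¹) = y * z * y⁻¹ * z⁻¹ := by group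
          rwa [h8] at h7
        have h7 := eq_one_of_mem_of_mem hPair.p' hKodd h5 h6
        calc y * z = (y * z * y⁻¹ * z⁻¹) * (z * y) := by group
          _ = z * y := by rw [h7, one_mul]
      have hfix3 : ∀ k ∈ L1, k * (t * z) = (t * z) * k → k ∈ A := by
        intro k hk hkt
        have hk' : u⁻¹ * k * u ∈ L1 := by
          have h7 := hRL1 u⁻¹ (inv_mem huR) k hk
          rwa [inv_inv] at h7
        have hut' : u * t = (t * z) * u := by rw [hut, htz]; group
        have h5 : (u⁻¹ * k * u) * t = t * (u⁻¹ * k * u) := by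
          calc (u⁻¹ * k * u) * t = u⁻¹ * k * (u * t) := by group
            _ = u⁻¹ * k * ((t * z) * u) := by rw [hut']
            _ = u⁻¹ * (k * (t * z)) * u := by group
            _ = u⁻¹ * ((t * z) * k) * u := by rw [hkt]
            _ = (u⁻¹ * (t * z) * u) * (u⁻¹ * k * u) := by group
            _ = (u⁻¹ * (u * t)) * (u⁻¹ * k * u) := by
                have : u⁻¹ * (t * z) * u = u⁻¹ * (u * t) := by
                  rw [hut']; group
                rw [this]
            _ = t * (u⁻¹ * k * u) := by group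
        have h6 := hfix2 _ hk' h5
        have h7 : k = u * (u⁻¹ * k * u) * u⁻¹ := by group
        rw [h7]
        have h8 : u * (u⁻¹ * k * u) = (u⁻¹ * k * u) * u := (huA _ h6).symm
        rw [h8]
        simpa using h6
      have hL1A : L1 ≤ A := gen_four hzz htt htz hz1 ht1 hzt hL1odd
        (fun k hk => hRL1 z hzR k hk) (fun k hk => hRL1 t hgR k hk) hfix1 hfix2 hfix3
      intro k hk
      obtain ⟨c, hc, a, ha, rfl⟩ := hdec k (hKM hk)
      have hcK : c ∈ K := by
        have h3 := mul_mem hk (inv_mem (hAK ha))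
        simpa using h3
      exact mul_mem (hL1A (mem_inf.2 ⟨hcK, hc⟩)) ha
  · refine ⟨u' * u, mul_mem (mem_sup_right ?_) (mem_sup_left huR), ?_⟩
    · exact mem_inf.2 ⟨hu', mem_centralizer_iff.2 hu'A⟩
    · have h3 : u' * t = t * u' := L'.z_comm u' hu'
      have h4 : u * t * u⁻¹ = t * z := by
        rw [hut, htz]; group
      have h5 : u' * z * u'⁻¹ = t * z := by
        rw [hu'z]; group
      have h6 : u' * t * u'⁻¹ = t := by
        rw [h3]; group
      calc u' * u * t * (u' * u)⁻¹ = u' * (u * t * u⁻¹) * u'⁻¹ := by group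
        _ = u' * (t * z) * u'⁻¹ := by rw [h4]
        _ = (u' * t * u'⁻¹) * (u' * z * u'⁻¹) := by group
        _ = t * (t * z) := by rw [h5, h6]
        _ = (t * t) * z := by group
        _ = z := by rw [htt, one_mul]

end Cfsg.Agent.Lib.PGroup.LargeQuotOdd
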