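import Mathlib
import Cfsg.Prelude.Def_Transfer
import Cfsg.Prelude.Def_ClassificationK
import Cfsg.Agent.Lib.PGroup.Basic
import Cfsg.Agent.Lib.PGroup.Critical

/-!
# `2`-groups of symplectic type and exponent dividing `4`

If `T` is such a group and `z` a central involution, all squares and commutators lie in `⟨z⟩`.
-/

namespace Cfsg.Agent.Lib.PGroup.SymplecticExp4

open Subgroup
open scoped commutatorElement

variable {T : Type*} [Group T]

theorem char_inf_centralizer {H : Subgroup T} (hH : H.Characteristic) :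
    (H ⊓ centralizer (H : Set T)).Characteristic := by
  rw [characteristic_iff_le_comap]
  rintro ϕ x ⟨hx1, hx2⟩
  have hcomap : H.comap ϕ.toMonoidHom = H := hH.fixed ϕ
  refine ⟨?_, ?_⟩
  · have : x ∈ H.comap ϕ.toMonoidHom := by rw [hcomap]; exact hx1
    exact this
  · rw [SetLike.mem_coe] at hx1
    refine mem_centralizer_iff.mpr ?_
    intro y hy
    have hy' : ϕ.symm y ∈ H := by
      rw [← hcomap]
      change ϕ (ϕ.symm y) ∈ H
      simpa using hy
    have h1 := mem_centralizer_iff.mp hx2 _ hy'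
    have h2 := congrArg ϕ h1
    simpa using h2

theorem eq_of_sq_of_isCyclic {A : Type*} [Group A] [Finite A] [IsCyclic A] {x y : A}
    (hx : x * x = 1) (hy : y * y = 1) (hx1 : x ≠ 1) (hy1 : y ≠ 1) : x = y := by
  classical
  haveI := Fintype.ofFinite A
  by_contra hne
  have h := IsCyclic.card_pow_eq_one_le (α := A) (n := 2) (by norm_num)
  have hsub : ({1, x, y} : Finset A) ⊆ Finset.univ.filter (fun a : A => a ^ 2 = 1) := by
    intro a ha
    simp only [Finset.mem_insert, Finset.mem_singleton] at ha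
    simp only [Finset.mem_filter, Finset.mem_univ, true_and, pow_two]
    rcases ha with rfl | rfl | rfl
    · simp
    · exact hx
    · exact hy
  have hcard : ({1, x, y} : Finset A).card = 3 := by
    rw [Finset.card_insert_of_notMem, Finset.card_insert_of_notMem, Finset.card_singleton]
    · simpa using hne
    · simp only [Finset.mem_insert, Finset.mem_singleton, not_or]
      exact ⟨hx1.symm, hy1.symm⟩
  have := Finset.card_le_card hsub
  omega

section Main

variable [Finite T] (hT : Cfsg.IsOfSymplecticType T) (h4 : ∀ x : T, x ^ 4 = 1) {z : T}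
  (hzc : z ∈ center T) (hz1 : z ≠ 1) (hz2 : z * z = 1)

include hT hzc hz1 hz2 in
/-- A central involution is the only central involution. -/
theorem center_sq {y : T} (hy : y ∈ center T) (hy2 : y * y = 1) : y = 1 ∨ y = z := by
  by_cases h1 : y = 1
  · exact Or.inl h1
  right
  have hchar : (center T).Characteristic := inferInstance
  have hcomm : IsMulCommutative ↥(center T) := by
    refine ⟨⟨fun a b => Subtype.ext ?_⟩⟩
    exact (mem_center_iff.mp a.2 (b : T)).symm
  have hcyc : IsCyclic ↥(center T) := hT.2 _ hchar hcomm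
  have := eq_of_sq_of_isCyclic (A := ↥(center T)) (x := ⟨y, hy⟩) (y := ⟨z, hzc⟩)
    (Subtype.ext hy2) (Subtype.ext hz2)
    (fun h => h1 (congrArg Subtype.val h)) (fun h => hz1 (congrArg Subtype.val h))
  exact congrArg Subtype.val this

include hT h4 hzc hz1 hz2 in
/-- All squares lie in `⟨z⟩`. -/
theorem sq_eq (x : T) : x * x = 1 ∨ x * x = z := by
  have hp : Fact (Nat.Prime 2) := ⟨Nat.prime_two⟩
  obtain ⟨H, hchar, hΦ, hcomm, hself⟩ := Critical.exists_critical hT.1
  set D := H ⊓ centralizer (H : Set T) with hD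
  have hDchar : D.Characteristic := char_inf_centralizer hchar
  have hDcomm : IsMulCommutative ↥D := by
    refine ⟨⟨fun a b => Subtype.ext ?_⟩⟩
    have := mem_centralizer_iff.mp a.2.2 (b : T) b.2.1
    exact this.symm
  have hDcyc : IsCyclic ↥D := hT.2 _ hDchar hDcomm
  have hzcent : z ∈ centralizer (H : Set T) := by
    refine mem_centralizer_iff.mpr ?_
    intro y _
    exact mem_center_iff.mp hzc y
  have hzH : z ∈ H := hself hzcent
  have hzD : z ∈ D := ⟨hzH, hzcent⟩
  -- the involutions of `D`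
  have hinv : ∀ y ∈ D, y * y = 1 → y = 1 ∨ y = z := by
    intro y hy hy2
    by_cases h1 : y = 1
    · exact Or.inl h1
    right
    have := eq_of_sq_of_isCyclic (A := ↥D) (x := ⟨y, hy⟩) (y := ⟨z, hzD⟩)
      (Subtype.ext hy2) (Subtype.ext hz2)
      (fun h => h1 (congrArg Subtype.val h)) (fun h => hz1 (congrArg Subtype.val h))
    exact congrArg Subtype.val this
  have h44 : ∀ y : T, y * y * (y * y) = 1 := by
    intro y
    have := h4 y
    rw [show (4 : ℕ) = 2 + 2 from rfl, pow_add, pow_two] at this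
    exact this
  -- squares of elements of `H`
  have hHp : IsPGroup 2 ↥H := by
    intro y
    obtain ⟨k, hk⟩ := hT.1 (y : T)
    exact ⟨k, Subtype.ext hk⟩
  have hHsq : ∀ h ∈ H, h * h = 1 ∨ h * h = z := by
    intro h hh
    have h1 : (⟨h, hh⟩ : ↥H) ^ 2 ∈ frattini ↥H := Basic.pow_mem_frattini hHp _
    have h2 : h * h ∈ centralizer (H : Set T) := by
      have := hΦ ⟨_, h1, rfl⟩
      simpa [pow_two] using this
    exact hinv _ ⟨mul_mem hh hh, h2⟩ (h44 h)
  -- commutators
  have hcD : ∀ h ∈ H, x * h * x⁻¹ * h⁻¹ ∈ D := by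
    intro h hh
    have h1 : ⁅h, x⁆ ∈ D := hcomm (commutator_mem_commutator hh (mem_top x))
    have h2 : x * h * x⁻¹ * h⁻¹ = ⁅h, x⁆⁻¹ := by
      rw [commutatorElement_def]; group
    rw [h2]
    exact inv_mem h1
  have hcz : ∀ h ∈ H, x * h * x⁻¹ * h⁻¹ = 1 ∨ x * h * x⁻¹ * h⁻¹ = z := by
    intro h hh
    set c := x * h * x⁻¹ * h⁻¹ with hc
    have hcm := hcD h hh
    have hch : c * h = h * c := (mem_centralizer_iff.mp hcm.2 h hh).symm
    have hxh : x * h * x⁻¹ = c * h := by rw [hc]; group
    have hsqc : x * (h * h) * x⁻¹ = h * h := by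
      rcases hHsq h hh with h5 | h5
      · rw [h5]; group
      · rw [h5]
        rw [mem_center_iff.mp hzc x]; group
    have h6 : (c * c) * (h * h) = h * h := by
      calc (c * c) * (h * h) = (c * h) * (c * h) := by
            calc (c * c) * (h * h) = c * (c * h) * h := by group
              _ = c * (h * c) * h := by rw [hch]
              _ = (c * h) * (c * h) := by group
        _ = (x * h * x⁻¹) * (x * h * x⁻¹) := by rw [hxh]
        _ = x * (h * h) * x⁻¹ := by group
        _ = h * h := hsqc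
    have h7 : c * c = 1 := by simpa using h6
    exact hinv c hcm h7
  -- `x²` centralizes `H`
  have hxx : x * x ∈ centralizer (H : Set T) := by
    refine mem_centralizer_iff.mpr ?_
    intro h hh
    have hh : h ∈ H := hh
    have hconj : x * h * x⁻¹ = h ∨ x * h * x⁻¹ = z * h := by
      rcases hcz h hh with h5 | h5
      · left
        calc x * h * x⁻¹ = (x * h * x⁻¹ * h⁻¹) * h := by group
          _ = h := by rw [h5, one_mul]
      · right
        calc x * h * x⁻¹ = (x * h * x⁻¹ * h⁻¹) * h := by group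
          _ = z * h := by rw [h5]
    have h8 : (x * x) * h * (x * x)⁻¹ = h := by
      have h9 : (x * x) * h * (x * x)⁻¹ = x * (x * h * x⁻¹) * x⁻¹ := by group
      rw [h9]
      rcases hconj with h5 | h5
      · rw [h5]
        exact h5
      · rw [h5]
        have h10 : x * (z * h) * x⁻¹ = (x * z * x⁻¹) * (x * h * x⁻¹) := by group
        have h11 : x * z * x⁻¹ = z := by
          rw [mem_center_iff.mp hzc x]; group
        rw [h10, h11, h5, ← mul_assoc, hz2, one_mul]
    calc h * (x * x) = (x * x) * h * (x * x)⁻¹ * (x * x) := by rw [h8]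
      _ = (x * x) * h := by group
  exact hinv _ ⟨hself hxx, hxx⟩ (h44 x)

include hT h4 hzc hz1 hz2 in
/-- All commutators lie in `⟨z⟩`. -/
theorem comm_eq (x y : T) : x * y = y * x ∨ x * y = z * (y * x) := by
  have hsq := sq_eq hT h4 hzc hz1 hz2
  have hzcen : ∀ t : T, t * z = z * t := fun t => mem_center_iff.mp hzc t
  -- `S` central
  have hcentral : ∀ t : T, ∀ s : T, (t * t) * s = s * (t * t) := by
    intro t s
    rcases hsq t with h | h
    · rw [h]; group
    · rw [h]; exact (hzcen s).symm
  have hinvx : x⁻¹ = x * (x * x)⁻¹ := by group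
  have hinvy : y⁻¹ = y * (y * y)⁻¹ := by group
  have hform : x * y * x⁻¹ * y⁻¹ = (x * y) * (x * y) * (x * x)⁻¹ * (y * y)⁻¹ := by
    have hcx : ∀ s : T, (x * x)⁻¹ * s = s * (x * x)⁻¹ := fun s =>
      (show Commute (x * x) s from hcentral x s).inv_left
    calc x * y * x⁻¹ * y⁻¹ = x * y * (x * (x * x)⁻¹) * (y * (y * y)⁻¹) := by rw [← hinvx, ← hinvy]
      _ = x * y * x * ((x * x)⁻¹ * y) * (y * y)⁻¹ := by group
      _ = x * y * x * (y * (x * x)⁻¹) * (y * y)⁻¹ := by rw [hcx]
      _ = (x * y) * (x * y) * (x * x)⁻¹ * (y * y)⁻¹ := by group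
  have hzi : z⁻¹ = z := inv_eq_of_mul_eq_one_left hz2
  have hres : x * y * x⁻¹ * y⁻¹ = 1 ∨ x * y * x⁻¹ * y⁻¹ = z := by
    rw [hform]
    rcases hsq (x * y) with h1 | h1 <;> rcases hsq x with h2 | h2 <;> rcases hsq y with h3 | h3 <;>
      simp [h1, h2, h3, hzi, hz2]
  rcases hres with h | h
  · left
    calc x * y = (x * y * x⁻¹ * y⁻¹) * (y * x) := by group
      _ = y * x := by rw [h, one_mul]
  · right
    calc x * y = (x * y * x⁻¹ * y⁻¹) * (y * x) := by group
      _ = z * (y * x) := by rw [h]

end Main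

end Cfsg.Agent.Lib.PGroup.SymplecticExp4
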