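import Mathlib
import Cfsg.Prelude.Def_Transfer
import Cfsg.Prelude.Def_ClassificationK
import Cfsg.Agent.Lib.PGroup.SymplecticExp4
import Cfsg.Agent.Lib.PGroup.LargeQ
import Cfsg.Agent.Lib.PGroup.FStarCentralizer

/-!
# A weak form of the large extraspecial setting

`Q` has all squares and commutators in `⟨z⟩`, the only central involution of `Q` is `z`, and `Q`
contains its centralizer (e.g. `Q = F*(C(z))` of symplectic type and exponent dividing `4`).
-/

namespace Cfsg.Agent.Lib.PGroup.LargeWeak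

open Subgroup Cfsg.Agent.Lib.PGroup.LargeExtraspecial Cfsg.Agent.Lib.PGroup.LargeQ
open scoped commutatorElement

variable {G : Type*} [Group G]

/-- The facts on `Q` used. -/
structure LargeW (Q : Subgroup G) (z : G) : Prop where
  z_mem : z ∈ Q
  z_sq : z * z = 1
  z_ne : z ≠ 1
  z_comm : ∀ x ∈ Q, x * z = z * x
  center : ∀ y ∈ Q, (∀ x ∈ Q, x * y = y * x) → y * y = 1 → y = 1 ∨ y = z
  comm : ∀ x ∈ Q, ∀ y ∈ Q, x * y = y * x ∨ x * y = z * (y * x)
  sq : ∀ x ∈ Q, x * x = 1 ∨ x * x = z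
  self : ∀ c : G, (∀ x ∈ Q, c * x = x * c) → c ∈ Q

namespace LargeW

variable {Q : Subgroup G} {z a u : G}

theorem exists_noncomm (L : LargeW Q z) (ha : a ∈ Q) (ha2 : a * a = 1) (h1 : a ≠ 1) (hz : a ≠ z) :
    ∃ u ∈ Q, u * a = z * (a * u) := by
  by_contra hcon
  push Not at hcon
  rcases L.center a ha (fun x hx => ((L.comm x hx a ha).resolve_right (hcon x hx))) ha2 with h | h
  · exact h1 h
  · exact hz h

theorem inv_mul_of_comm (L : LargeW Q z) (hu : u ∈ Q) (hua : u * a = z * (a * u)) :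
    u⁻¹ * a = z * (a * u⁻¹) := by
  have hz := L.z_comm u hu
  rw [inv_mul_eq_iff_eq_mul]
  calc a = (z * z) * a := by rw [L.z_sq, one_mul]
    _ = z * (z * (a * u)) * u⁻¹ := by group
    _ = z * (u * a) * u⁻¹ := by rw [hua]
    _ = (z * u) * (a * u⁻¹) := by group
    _ = u * (z * (a * u⁻¹)) := by rw [← hz]; group

/-- An element commuting with `u` and with `C_Q(a)` centralizes `Q`. -/
theorem comm_of_comm (L : LargeW Q z) (ha : a ∈ Q) (hu : u ∈ Q) (hua : u * a = z * (a * u)) {c : G}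
    (hcA : ∀ b ∈ Q, b * a = a * b → c * b = b * c) (hcu : c * u = u * c) :
    ∀ y ∈ Q, c * y = y * c := by
  intro y hy
  rcases L.comm y hy a ha with h | h
  · exact hcA y hy h
  · have hb : y * u⁻¹ ∈ Q := mul_mem hy (inv_mem hu)
    have hba : (y * u⁻¹) * a = a * (y * u⁻¹) := by
      have h1 := inv_mul_of_comm L hu hua
      have hzy := L.z_comm y hy
      calc (y * u⁻¹) * a = y * (u⁻¹ * a) := by group
        _ = y * (z * (a * u⁻¹)) := by rw [h1]
        _ = (y * z) * (a * u⁻¹) := by group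
        _ = z * (y * a) * u⁻¹ := by rw [hzy]; group
        _ = z * (z * (a * y)) * u⁻¹ := by rw [h]
        _ = (z * z) * (a * y) * u⁻¹ := by group
        _ = a * (y * u⁻¹) := by rw [L.z_sq]; group
    have h3 := hcA _ hb hba
    calc c * y = c * (y * u⁻¹) * u := by group
      _ = (y * u⁻¹) * c * u := by rw [h3]
      _ = (y * u⁻¹) * (c * u) := by group
      _ = (y * u⁻¹) * (u * c) := by rw [hcu]
      _ = y * c := by group

/-- An involution commuting with `u` and with `C_Q(a)` is `1` or `z`. -/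
theorem eq_of_comm (L : LargeW Q z) (ha : a ∈ Q) (hu : u ∈ Q) (hua : u * a = z * (a * u)) {c : G}
    (hc2 : c * c = 1) (hcA : ∀ b ∈ Q, b * a = a * b → c * b = b * c) (hcu : c * u = u * c) :
    c = 1 ∨ c = z := by
  have hall := comm_of_comm L ha hu hua hcA hcu
  exact L.center c (L.self c hall) (fun x hx => (hall x hx).symm) hc2

/-- An involution of `C(z)`, normalizing `Q` and centralizing `C_Q(a)`, lies in `⟨a, z⟩`. -/
theorem eq_of_comm_of_normalizes (L : LargeW Q z) (ha : a ∈ Q) (ha2 : a * a = 1) (hu : u ∈ Q)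
    (hua : u * a = z * (a * u)) {c : G} (hc2 : c * c = 1) (hcz : c * z = z * c)
    (hcQ : ∀ y ∈ Q, c * y * c⁻¹ ∈ Q) (hcA : ∀ b ∈ Q, b * a = a * b → c * b = b * c) :
    c = 1 ∨ c = z ∨ c = a ∨ c = a * z := by
  have hzu := L.z_comm u hu
  have hza := L.z_comm a ha
  have hcu : c * u * c⁻¹ ∈ Q := hcQ u hu
  have hzcu := L.z_comm _ hcu
  set m := c * u * c⁻¹ * u⁻¹ with hmdef
  have hm : m ∈ Q := mul_mem hcu (inv_mem hu)
  have hmA : ∀ b ∈ Q, b * a = a * b → m * b = b * m := by
    intro b hb hba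
    have hcb := hcA b hb hba
    have hcb' : c⁻¹ * b = b * c⁻¹ := (show Commute c b from hcb).inv_left
    have hzb := L.z_comm b hb
    rcases L.comm u hu b hb with h | h
    · have hinv : u⁻¹ * b = b * u⁻¹ := (show Commute u b from h).inv_left
      calc (c * u * c⁻¹ * u⁻¹) * b = c * u * c⁻¹ * (u⁻¹ * b) := by group
        _ = c * u * c⁻¹ * (b * u⁻¹) := by rw [hinv]
        _ = c * u * (c⁻¹ * b) * u⁻¹ := by group
        _ = c * u * (b * c⁻¹) * u⁻¹ := by rw [hcb']
        _ = c * (u * b) * c⁻¹ * u⁻¹ := by group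
        _ = c * (b * u) * c⁻¹ * u⁻¹ := by rw [h]
        _ = (c * b) * u * c⁻¹ * u⁻¹ := by group
        _ = (b * c) * u * c⁻¹ * u⁻¹ := by rw [hcb]
        _ = b * (c * u * c⁻¹ * u⁻¹) := by group
    · have hinv : u⁻¹ * b = z * (b * u⁻¹) := inv_mul_of_comm L hu h
      calc (c * u * c⁻¹ * u⁻¹) * b = c * u * c⁻¹ * (u⁻¹ * b) := by group
        _ = c * u * c⁻¹ * (z * (b * u⁻¹)) := by rw [hinv]
        _ = (c * u * c⁻¹ * z) * (b * u⁻¹) := by group
        _ = z * (c * u * c⁻¹) * (b * u⁻¹) := by rw [hzcu]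
        _ = z * c * u * (c⁻¹ * b) * u⁻¹ := by group
        _ = z * c * u * (b * c⁻¹) * u⁻¹ := by rw [hcb']
        _ = z * c * (u * b) * c⁻¹ * u⁻¹ := by group
        _ = z * c * (z * (b * u)) * c⁻¹ * u⁻¹ := by rw [h]
        _ = (z * (c * z)) * b * u * c⁻¹ * u⁻¹ := by group
        _ = (z * (z * c)) * b * u * c⁻¹ * u⁻¹ := by rw [hcz]
        _ = (z * z) * (c * b) * u * c⁻¹ * u⁻¹ := by group
        _ = (c * b) * u * c⁻¹ * u⁻¹ := by rw [L.z_sq, one_mul]
        _ = (b * c) * u * c⁻¹ * u⁻¹ := by rw [hcb]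
        _ = b * (c * u * c⁻¹ * u⁻¹) := by group
  have hsq : (m * u) * (m * u) = u * u := by
    have h0 : m * u = c * u * c⁻¹ := by rw [hmdef]; group
    rw [h0]
    have h1 : (c * u * c⁻¹) * (c * u * c⁻¹) = c * (u * u) * c⁻¹ := by group
    rw [h1]
    rcases L.sq u hu with h | h
    · rw [h]; group
    · rw [h, hcz]; group
  have hauau : (a * u) * (a * u) = z * (u * u) := by
    calc (a * u) * (a * u) = a * (u * a) * u := by group
      _ = a * (z * (a * u)) * u := by rw [hua]
      _ = (a * z) * (a * u) * u := by group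
      _ = (z * a) * (a * u) * u := by rw [hza]
      _ = z * (a * a) * (u * u) := by group
      _ = z * (u * u) := by rw [ha2]; group
  have hau : a * u = z * (u * a) := by
    rw [hua, ← mul_assoc z z, L.z_sq, one_mul]
  -- two helper steps: from `c u = ε u c`
  have hcaA : ∀ b ∈ Q, b * a = a * b → (c * a) * b = b * (c * a) := by
    intro b hb hba
    calc (c * a) * b = c * (a * b) := by group
      _ = c * (b * a) := by rw [hba]
      _ = (c * b) * a := by group
      _ = (b * c) * a := by rw [hcA b hb hba]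
      _ = b * (c * a) := by group
  have hca : c * a = a * c := hcA a ha rfl
  have hcasq : (c * a) * (c * a) = 1 := by
    calc (c * a) * (c * a) = c * (a * c) * a := by group
      _ = c * (c * a) * a := by rw [hca]
      _ = (c * c) * (a * a) := by group
      _ = 1 := by rw [hc2, ha2, one_mul]
  -- `m` or `m a` is central
  rcases L.comm m hm u hu with h | h
  · -- `m` commutes with `u`: `m` is central
    have hmc := comm_of_comm L ha hu hua hmA h
    have hmsq : m * m = 1 := by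
      have h1 : (m * u) * (m * u) = (m * m) * (u * u) := by
        calc (m * u) * (m * u) = m * (u * m) * u := by group
          _ = m * (m * u) * u := by rw [h]
          _ = (m * m) * (u * u) := by group
      rw [h1] at hsq
      simpa using hsq
    rcases L.center m hm (fun x hx => (hmc x hx).symm) hmsq with h1 | h1
    · -- `m = 1`
      have h2 : c * u = u * c := by
        have h3 : c * u * c⁻¹ = m * u := by rw [hmdef]; group
        rw [h1, one_mul] at h3
        calc c * u = c * u * c⁻¹ * c := by group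
          _ = u * c := by rw [h3]
      rcases eq_of_comm L ha hu hua hc2 hcA h2 with h3 | h3
      · exact Or.inl h3
      · exact Or.inr (Or.inl h3)
    · -- `m = z`
      have h2 : c * u = z * (u * c) := by
        have h3 : c * u * c⁻¹ = m * u := by rw [hmdef]; group
        rw [h1] at h3
        calc c * u = c * u * c⁻¹ * c := by group
          _ = z * (u * c) := by rw [h3]; group
      have h4 : (c * a) * u = u * (c * a) := by
        calc (c * a) * u = c * (a * u) := by group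
          _ = c * (z * (u * a)) := by rw [hau]
          _ = (c * z) * (u * a) := by group
          _ = z * (c * u) * a := by rw [hcz]; group
          _ = z * (z * (u * c)) * a := by rw [h2]
          _ = (z * z) * (u * c) * a := by group
          _ = u * (c * a) := by rw [L.z_sq]; group
      rcases eq_of_comm L ha hu hua hcasq hcaA h4 with h5 | h5
      · right; right; left
        calc c = c * (a * a) := by rw [ha2, mul_one]
          _ = (c * a) * a := by group
          _ = a := by rw [h5, one_mul]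
      · right; right; right
        calc c = c * (a * a) := by rw [ha2, mul_one]
          _ = (c * a) * a := by group
          _ = z * a := by rw [h5]
          _ = a * z := hza.symm
  · -- `m u = z u m`: then `s = m a` is central
    exfalso
    have hs : (m * a) * u = u * (m * a) := by
      have hzm := L.z_comm m hm
      calc (m * a) * u = m * (a * u) := by group
        _ = m * (z * (u * a)) := by rw [hau]
        _ = (m * z) * (u * a) := by group
        _ = z * (m * u) * a := by rw [hzm]; group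
        _ = z * (z * (u * m)) * a := by rw [h]
        _ = (z * z) * (u * m) * a := by group
        _ = u * (m * a) := by rw [L.z_sq]; group
    have hsA : ∀ b ∈ Q, b * a = a * b → (m * a) * b = b * (m * a) := by
      intro b hb hba
      calc (m * a) * b = m * (a * b) := by group
        _ = m * (b * a) := by rw [hba]
        _ = (m * b) * a := by group
        _ = (b * m) * a := by rw [hmA b hb hba]
        _ = b * (m * a) := by group
    have hsc := comm_of_comm L ha hu hua hsA hs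
    set s := m * a with hsdef
    have hsQ : s ∈ Q := mul_mem hm ha
    have hm' : m = s * a := by rw [hsdef, mul_assoc, ha2, mul_one]
    -- `s` commutes with `a`, `u`
    have hsa : s * a = a * s := hsc a ha
    have hcs : c * s = s * c := hcA s hsQ (hsc a ha)
    -- the square
    have h1 : (s * (a * u)) * (s * (a * u)) = (s * s) * (z * (u * u)) := by
      have hsau : s * (a * u) = (a * u) * s := hsc _ (mul_mem ha hu)
      calc (s * (a * u)) * (s * (a * u)) = s * ((a * u) * s) * (a * u) := by group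
        _ = s * (s * (a * u)) * (a * u) := by rw [← hsau]
        _ = (s * s) * ((a * u) * (a * u)) := by group
        _ = (s * s) * (z * (u * u)) := by rw [hauau]
    have h2 : m * u = s * (a * u) := by rw [hm']; group
    rw [h2, h1] at hsq
    have hss : s * s * z = 1 := by
      have h3 : s * s * z * (u * u) = u * u := by rw [mul_assoc (s * s)]; exact hsq
      simpa using h3
    -- conjugation by `c`
    have hcu' : c * u * c⁻¹ = s * (a * u) := by
      rw [← h2, hmdef]; group
    have hci : c⁻¹ = c := inv_eq_of_mul_eq_one_left hc2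
    have h5 : c * (s * (a * u)) * c⁻¹ = s * a * (s * (a * u)) := by
      have hca' : c⁻¹ * a = a * c⁻¹ := (show Commute c a from hca).inv_left
      have hcs' : c⁻¹ * s = s * c⁻¹ := (show Commute c s from hcs).inv_left
      calc c * (s * (a * u)) * c⁻¹ = (c * s * c⁻¹) * (c * a * c⁻¹) * (c * u * c⁻¹) := by group
        _ = s * a * (c * u * c⁻¹) := by
            rw [hcs, hca]; group
        _ = s * a * (s * (a * u)) := by rw [hcu']
    have h6 : c * (c * u * c⁻¹) * c⁻¹ = u := by
      calc c * (c * u * c⁻¹) * c⁻¹ = (c * c) * u * c⁻¹ * c⁻¹ := by group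
        _ = u * (c⁻¹ * c⁻¹) := by rw [hc2]; group
        _ = u := by rw [hci, hc2, mul_one]
    rw [hcu', h5] at h6
    have h7 : s * a * (s * (a * u)) = (s * s) * u := by
      calc s * a * (s * (a * u)) = s * (a * s) * (a * u) := by group
        _ = s * (s * a) * (a * u) := by rw [hsa]
        _ = (s * s) * (a * a) * u := by group
        _ = (s * s) * u := by rw [ha2, mul_one]
    rw [h7] at h6
    have h8 : s * s = 1 := by simpa using h6
    rw [h8, one_mul] at hss
    exact L.z_ne hss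

end LargeW

section Main

variable [Finite G]

/-- Let `a` be a conjugate of `z` in `Q`, not equal to `z`, where `C(z)` normalizes `Q`. -/
theorem exists_u_w {Q : Subgroup G} {z a g : G} (L : LargeW Q z) (hQp : IsPGroup 2 Q)
    (hN : ∀ c : G, c * z = z * c → ∀ y ∈ Q, c * y * c⁻¹ ∈ Q)
    (hg : g * z * g⁻¹ = a) (ha : a ∈ Q) (haz : a ≠ z) :
    ∃ u ∈ Q, ∃ w : G, u * a = z * (a * u) ∧ w * a = a * w ∧ w * z * w⁻¹ = a * z := by
  have hp : Fact (Nat.Prime 2) := ⟨Nat.prime_two⟩
  have ha1 : a ≠ 1 := by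
    rintro rfl
    apply L.z_ne
    have : g * z * g⁻¹ * g = g := by rw [hg, one_mul]
    simpa using this
  have ha2 : a * a = 1 := by
    rw [← hg]
    calc g * z * g⁻¹ * (g * z * g⁻¹) = g * (z * z) * g⁻¹ := by group
      _ = 1 := by rw [L.z_sq]; group
  obtain ⟨u, hu, hua⟩ := L.exists_noncomm ha ha2 ha1 haz
  set Cz := centralizer ({z} : Set G) with hCz
  set Ca := centralizer ({a} : Set G) with hCa
  have hQCz : Q ≤ Cz := fun x hx => mem_centralizer_singleton_iff.mpr (L.z_comm x hx)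
  set A := Q ⊓ Ca with hA
  have hACzCa : A ≤ Ca ⊓ Cz := by
    refine le_inf inf_le_right (inf_le_left.trans hQCz)
  have hAp : IsPGroup 2 A := hQp.to_le inf_le_left
  obtain ⟨T₀, hAT₀, hT₀K, hT₀p, hT₀max⟩ := exists_maximal_pGroup hACzCa hAp
  obtain ⟨T, hT₀T, hTK, hTp, hTmax⟩ :=
    exists_maximal_pGroup (hT₀K.trans (inf_le_right : Ca ⊓ Cz ≤ Cz)) hT₀p
  have hQT : Q ≤ T := le_of_maximal_of_normalized hTp hTK hTmax hQCz
    hQp (fun c hc y hy => hN c (mem_centralizer_singleton_iff.mp (hTK hc)) y hy)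
  have hAT₀' : ∀ b ∈ Q, b * a = a * b → b ∈ T₀ := by
    intro b hb hba
    exact hAT₀ ⟨hb, mem_centralizer_singleton_iff.mpr hba⟩
  have huT₀ : u ∉ T₀ := by
    intro h
    have h1 : u * a = a * u := mem_centralizer_singleton_iff.mp (mem_inf.mp (hT₀K h)).1
    rw [h1] at hua
    exact L.z_ne (by simpa using hua.symm)
  have hltT : T₀ < T := lt_of_le_of_ne hT₀T (fun h => huT₀ (h ▸ hQT hu))
  have hcardT : Nat.card T₀ < Nat.card T :=
    lt_of_le_of_ne (Subgroup.card_le_of_le hT₀T)
      (fun h => hltT.ne (Subgroup.eq_of_le_of_card_ge hT₀T h.ge))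
  have hRK : T.map (MulAut.conj g).toMonoidHom ≤ Ca := by
    rintro _ ⟨t, ht, rfl⟩
    have := conj_mem_centralizer g (hTK ht)
    rw [hg] at this
    simpa using this
  have hRp : IsPGroup 2 ↥(T.map (MulAut.conj g).toMonoidHom) := hTp.map _
  have hRc : Nat.card ↥(T.map (MulAut.conj g).toMonoidHom) = Nat.card T :=
    Nat.card_congr (T.equivMapOfInjective _ (MulAut.conj g).injective).symm.toEquiv
  obtain ⟨P, hT₀P, hPK, hPp⟩ := exists_gt_of_card_lt (hT₀K.trans (inf_le_left : Ca ⊓ Cz ≤ Ca)) hRK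
    hT₀p hRp (by rw [hRc]; exact hcardT)
  obtain ⟨w, hwP, hwT₀, hwN⟩ := Basic.exists_mem_normalizer_of_lt hPp hT₀P
  have hwa : w * a = a * w := mem_centralizer_singleton_iff.mp (hPK hwP)
  refine ⟨u, hu, w, hua, hwa, ?_⟩
  have hzT₀ : z ∈ T₀ := hAT₀' z L.z_mem (L.z_comm a ha).symm
  have hcT₀ : w * z * w⁻¹ ∈ T₀ := (mem_normalizer_iff.mp hwN z).mp hzT₀
  have hT₀z : ∀ t ∈ T₀, t * z = z * t := fun t ht =>
    mem_centralizer_singleton_iff.mp (mem_inf.mp (hT₀K ht)).2
  have hcz : (w * z * w⁻¹) * z = z * (w * z * w⁻¹) := hT₀z _ hcT₀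
  have hcQ : ∀ y ∈ Q, (w * z * w⁻¹) * y * (w * z * w⁻¹)⁻¹ ∈ Q := fun y hy =>
    hN _ hcz y hy
  have hcA : ∀ b ∈ Q, b * a = a * b → (w * z * w⁻¹) * b = b * (w * z * w⁻¹) := by
    intro b hb hba
    have hbT := hAT₀' b hb hba
    have h1 : w⁻¹ * b * w ∈ T₀ := by
      have := (mem_normalizer_iff.mp hwN (w⁻¹ * b * w)).mpr (by simpa [mul_assoc] using hbT)
      exact this
    have h2 := hT₀z _ h1
    calc (w * z * w⁻¹) * b = w * (z * (w⁻¹ * b * w)) * w⁻¹ := by group
      _ = w * ((w⁻¹ * b * w) * z) * w⁻¹ := by rw [h2]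
      _ = b * (w * z * w⁻¹) := by group
  have hc2 : (w * z * w⁻¹) * (w * z * w⁻¹) = 1 := by
    calc (w * z * w⁻¹) * (w * z * w⁻¹) = w * (z * z) * w⁻¹ := by group
      _ = 1 := by rw [L.z_sq]; group
  rcases L.eq_of_comm_of_normalizes ha ha2 hu hua hc2 hcz hcQ hcA with h | h | h | h
  · exfalso
    apply L.z_ne
    have : z = w⁻¹ * (w * z * w⁻¹) * w := by group
    rw [this, h]; group
  · exfalso
    have hwz : w * z = z * w := by
      calc w * z = w * z * w⁻¹ * w := by group
        _ = z * w := by rw [h]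
    have hs : T₀ ⊔ zpowers w ≤ P := sup_le hT₀P.le (by
      rw [zpowers_le]; exact hwP)
    have hwK : zpowers w ≤ Ca ⊓ Cz := by
      rw [zpowers_le]
      exact ⟨hPK hwP, mem_centralizer_singleton_iff.mpr hwz⟩
    have := hT₀max _ le_sup_left (sup_le hT₀K hwK) (hPp.to_le hs)
    exact hwT₀ (this (mem_sup_right (mem_zpowers w)))
  · exfalso
    apply haz
    have : w * z = w * a := by
      calc w * z = w * z * w⁻¹ * w := by group
        _ = a * w := by rw [h]
        _ = w * a := hwa.symm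
    exact (mul_left_cancel this).symm
  · exact h

/-- Symmetry of orthogonality: `g⁻¹ z g ∈ Q` if `g z g⁻¹ ∈ Q`. -/
theorem mem_conj_of_conj_mem {Q : Subgroup G} {z g : G} (L : LargeW Q z) (hQp : IsPGroup 2 Q)
    (hN : ∀ c : G, c * z = z * c → ∀ y ∈ Q, c * y * c⁻¹ ∈ Q) (ha : g * z * g⁻¹ ∈ Q) :
    g⁻¹ * z * g ∈ Q := by
  by_cases haz : g * z * g⁻¹ = z
  · have : g⁻¹ * z * g = z := by
      calc g⁻¹ * z * g = g⁻¹ * (g * z * g⁻¹) * g := by rw [haz]
        _ = z := by group
    rw [this]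
    exact L.z_mem
  obtain ⟨u, hu, w, hua, hwa, hwz⟩ := exists_u_w L hQp hN rfl ha haz
  set a := g * z * g⁻¹ with hadef
  have ha2 : a * a = 1 := by
    rw [hadef]
    calc g * z * g⁻¹ * (g * z * g⁻¹) = g * (z * z) * g⁻¹ := by group
      _ = 1 := by rw [L.z_sq]; group
  obtain ⟨h1, h2⟩ := swap_of_u_w L.z_sq ha2 (L.z_comm a ha) (L.z_comm u hu) hua hwa hwz
  set h := u * w * u with hh
  have h3 : (g⁻¹ * h) * z = z * (g⁻¹ * h) := by
    calc (g⁻¹ * h) * z = g⁻¹ * (h * z * h⁻¹) * h := by group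
      _ = g⁻¹ * (g * z * g⁻¹) * h := by rw [h1]
      _ = z * (g⁻¹ * h) := by group
  have h4 := hN _ h3 a ha
  have h5 : (g⁻¹ * h) * a * (g⁻¹ * h)⁻¹ = g⁻¹ * z * g := by
    calc (g⁻¹ * h) * a * (g⁻¹ * h)⁻¹ = g⁻¹ * (h * a * h⁻¹) * g := by group
      _ = g⁻¹ * z * g := by rw [h2]
  rwa [h5] at h4

/-- `⟨Q, g Q g⁻¹⟩` induces the full automorphism group of `⟨z, a⟩`. -/
theorem exists_conj_of_pair {Q : Subgroup G} {z g : G} (L : LargeW Q z) (hQp : IsPGroup 2 Q)
    (hN : ∀ c : G, c * z = z * c → ∀ y ∈ Q, c * y * c⁻¹ ∈ Q) (ha : g * z * g⁻¹ ∈ Q)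
    (haz : g * z * g⁻¹ ≠ z) {s t : G}
    (hs : s ∈ closure ({z, g * z * g⁻¹} : Set G)) (ht : t ∈ closure ({z, g * z * g⁻¹} : Set G))
    (hs1 : s ≠ 1) (ht1 : t ≠ 1) (hst : s ≠ t) :
    ∃ x ∈ Q ⊔ Q.map (MulAut.conj g).toMonoidHom, x * z * x⁻¹ = s ∧ x * (g * z * g⁻¹) * x⁻¹ = t := by
  have hb := mem_conj_of_conj_mem L hQp hN ha
  set a := g * z * g⁻¹ with hadef
  have hz2 := L.z_sq
  have ha2 : a * a = 1 := by
    rw [hadef]
    calc g * z * g⁻¹ * (g * z * g⁻¹) = g * (z * z) * g⁻¹ := by group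
      _ = 1 := by rw [L.z_sq]; group
  have ha1 : a ≠ 1 := by
    intro h
    apply L.z_ne
    have : z = g⁻¹ * a * g := by rw [hadef]; group
    rw [this, h]; group
  have hza : a * z = z * a := L.z_comm a ha
  obtain ⟨u, hu, hua⟩ := L.exists_noncomm ha ha2 ha1 haz
  -- the element `v ∈ Q'`
  set b := g⁻¹ * z * g with hbdef
  have hb2 : b * b = 1 := by
    rw [hbdef]
    calc g⁻¹ * z * g * (g⁻¹ * z * g) = g⁻¹ * (z * z) * g := by group
      _ = 1 := by rw [L.z_sq]; group
  have hb1 : b ≠ 1 := by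
    intro h
    apply L.z_ne
    have : z = g * b * g⁻¹ := by rw [hbdef]; group
    rw [this, h]; group
  have hbz : b ≠ z := by
    intro h
    apply haz
    have : g * b * g⁻¹ = z := by rw [hbdef]; group
    rw [h] at this
    exact this
  obtain ⟨t₀, ht₀, ht₀b⟩ := L.exists_noncomm hb hb2 hb1 hbz
  set v := g * t₀ * g⁻¹ with hvdef
  have hvQ' : v ∈ Q.map (MulAut.conj g).toMonoidHom := ⟨t₀, ht₀, rfl⟩
  have hgb : g * b * g⁻¹ = z := by rw [hbdef]; group
  have hvz : v * z = a * (z * v) := by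
    calc v * z = g * (t₀ * b) * g⁻¹ := by
          rw [hvdef]; nth_rw 1 [← hgb]; group
      _ = g * (z * (b * t₀)) * g⁻¹ := by rw [ht₀b]
      _ = (g * z * g⁻¹) * (g * b * g⁻¹) * (g * t₀ * g⁻¹) := by group
      _ = a * (z * v) := by rw [hgb, mul_assoc]
  have hva : v * a = a * v := by
    have := L.z_comm t₀ ht₀
    calc v * a = g * (t₀ * z) * g⁻¹ := by rw [hvdef, hadef]; group
      _ = g * (z * t₀) * g⁻¹ := by rw [this]
      _ = a * v := by rw [hadef, hvdef]; group
  have hzu := L.z_comm u hu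
  have hu1 : u * a * u⁻¹ = z * a := by rw [hua]; group
  have hu2 : u * z * u⁻¹ = z := by rw [hzu]; group
  have hv1 : v * z * v⁻¹ = a * z := by rw [hvz]; group
  have hv2 : v * a * v⁻¹ = a := by rw [hva]; group
  have hzaV : z * a = a * z := hza.symm
  have hu3 : u * (a * z) * u⁻¹ = a := by
    calc u * (a * z) * u⁻¹ = (u * a * u⁻¹) * (u * z * u⁻¹) := by group
      _ = z * a * z := by rw [hu1, hu2]
      _ = (a * z) * z := by rw [hza]
      _ = a := by rw [mul_assoc, hz2, mul_one]
  have hv3 : v * (a * z) * v⁻¹ = z := by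
    calc v * (a * z) * v⁻¹ = (v * a * v⁻¹) * (v * z * v⁻¹) := by group
      _ = a * (a * z) := by rw [hv2, hv1]
      _ = z := by rw [← mul_assoc, ha2, one_mul]
  have huX : u ∈ Q ⊔ Q.map (MulAut.conj g).toMonoidHom := mem_sup_left hu
  have hvX : v ∈ Q ⊔ Q.map (MulAut.conj g).toMonoidHom := mem_sup_right hvQ'
  have hle : closure ({z, a} : Set G) ≤ four hz2 ha2 hza := by
    rw [closure_le]
    rintro x (rfl | rfl)
    · exact Or.inr (Or.inl rfl)
    · exact Or.inr (Or.inr (Or.inl rfl))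
  -- the six cases
  have huv1 : (u * v) * z * (u * v)⁻¹ = a := by
    calc (u * v) * z * (u * v)⁻¹ = u * (v * z * v⁻¹) * u⁻¹ := by group
      _ = a := by rw [hv1, hu3]
  have huv2 : (u * v) * a * (u * v)⁻¹ = a * z := by
    calc (u * v) * a * (u * v)⁻¹ = u * (v * a * v⁻¹) * u⁻¹ := by group
      _ = a * z := by rw [hv2, hu1, hzaV]
  have hvu1 : (v * u) * z * (v * u)⁻¹ = a * z := by
    calc (v * u) * z * (v * u)⁻¹ = v * (u * z * u⁻¹) * v⁻¹ := by group
      _ = a * z := by rw [hu2, hv1]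
  have hvu2 : (v * u) * a * (v * u)⁻¹ = z := by
    calc (v * u) * a * (v * u)⁻¹ = v * (u * a * u⁻¹) * v⁻¹ := by group
      _ = v * (a * z) * v⁻¹ := by rw [hu1, hzaV]
      _ = z := hv3
  obtain ⟨hw1, hw2⟩ := swap_of_u_w hz2 ha2 hza hzu hua hva hv1
  have hs' := hle hs
  have ht' := hle ht
  rcases hs' with rfl | rfl | rfl | rfl
  · exact absurd rfl hs1
  · rcases ht' with rfl | rfl | rfl | rfl
    · exact absurd rfl ht1
    · exact absurd rfl hst
    · exact ⟨1, one_mem _, by group, by group⟩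
    · exact ⟨u, huX, hu2, by rw [hu1, hzaV]⟩
  · rcases ht' with rfl | rfl | rfl | rfl
    · exact absurd rfl ht1
    · exact ⟨u * v * u, mul_mem (mul_mem huX hvX) huX, hw1, hw2⟩
    · exact absurd rfl hst
    · exact ⟨u * v, mul_mem huX hvX, huv1, huv2⟩
  · rcases ht' with rfl | rfl | rfl | rfl
    · exact absurd rfl ht1
    · exact ⟨v * u, mul_mem hvX huX, hvu1, hvu2⟩
    · exact ⟨v, hvX, hv1, hv2⟩
    · exact absurd rfl hst

open Cfsg.Agent.Lib.PGroup.FStarCentralizer in
theorem largeW_fz {z : G} (hz : orderOf z = 2)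
    (hQ : Cfsg.IsOfSymplecticType ↥(Cfsg.generalizedFittingSubgroup ↥(centralizer ({z} : Set G))))
    (h4 : ∀ q ∈ fz z, q ^ 4 = 1) : LargeW (fz z) z := by
  have hzsq : z * z = 1 := by
    rw [← pow_two, ← hz, pow_orderOf_eq_one]
  have hzne : z ≠ 1 := by
    rintro rfl
    simp at hz
  set F := Cfsg.generalizedFittingSubgroup ↥(centralizer ({z} : Set G)) with hF
  let ι : ↥F → G := fun t => ((t : ↥(centralizer ({z} : Set G))) : G)
  have hι : ∀ x, x ∈ fz z ↔ ∃ t : ↥F, ι t = x := by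
    intro x
    constructor
    · rintro ⟨y, hy, rfl⟩
      exact ⟨⟨y, hy⟩, rfl⟩
    · rintro ⟨t, rfl⟩
      exact ⟨t, t.2, rfl⟩
  have hιinj : ∀ s t : ↥F, ι s = ι t → s = t := fun s t h => Subtype.ext (Subtype.ext h)
  have hιmul : ∀ s t : ↥F, ι (s * t) = ι s * ι t := fun _ _ => rfl
  have hι1 : ι 1 = 1 := rfl
  obtain ⟨ez, hez⟩ := (hι z).mp (z_mem_fz z)
  have hezc : ez ∈ center ↥F := by
    rw [mem_center_iff]
    intro t
    apply hιinj
    rw [hιmul, hιmul, hez]
    exact comm_of_mem_fz ((hι _).mpr ⟨t, rfl⟩)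
  have hez1 : ez ≠ 1 := by
    rintro rfl
    exact hzne hez.symm
  have hez2 : ez * ez = 1 := by
    apply hιinj
    rw [hιmul, hez, hzsq]
    rfl
  have h4T : ∀ x : ↥F, x ^ 4 = 1 := by
    intro x
    apply hιinj
    have h5 := h4 _ ((hι _).mpr ⟨x, rfl⟩)
    rw [hι1, ← h5]
    rfl
  refine ⟨z_mem_fz z, hzsq, hzne, fun x hx => comm_of_mem_fz hx, ?_, ?_, ?_, ?_⟩
  · intro y hy hyc hy2
    obtain ⟨t, rfl⟩ := (hι y).mp hy
    have ht : t ∈ center ↥F := by
      rw [mem_center_iff]
      intro s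
      apply hιinj
      rw [hιmul, hιmul]
      exact hyc _ ((hι _).mpr ⟨s, rfl⟩)
    have ht2 : t * t = 1 := hιinj _ _ hy2
    rcases SymplecticExp4.center_sq hQ hezc hez1 hez2 ht ht2 with rfl | rfl
    · exact Or.inl rfl
    · exact Or.inr hez
  · intro x hx y hy
    obtain ⟨s, rfl⟩ := (hι x).mp hx
    obtain ⟨t, rfl⟩ := (hι y).mp hy
    rcases SymplecticExp4.comm_eq hQ h4T hezc hez1 hez2 s t with h | h
    · left
      rw [← hιmul, ← hιmul, h]
    · right
      rw [← hιmul, ← hιmul, h, hιmul, hez]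
  · intro x hx
    obtain ⟨s, rfl⟩ := (hι x).mp hx
    rcases SymplecticExp4.sq_eq hQ h4T hezc hez1 hez2 s with h | h
    · left
      rw [← hιmul, h]
      exact hι1
    · right
      rw [← hιmul, h, hez]
  · intro c hc
    exact mem_fz_of_comm hc

end Main

end Cfsg.Agent.Lib.PGroup.LargeWeak
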