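import Mathlib
import Cfsg.Agent.Lib.PSL2.Basic
import Cfsg.Agent.Lib.PGroup.PpdTwo

/-!
# Fixed points of elements of `SL₂(F)` in a module: the counting lemmas
-/

set_option autoImplicit false
set_option linter.unusedSectionVars false
set_option linter.unusedVariables false

namespace Cfsg.Agent.Lib.PGroup.NatBound

section Abstract

variable {Γ W : Type*} [Group Γ] [AddCommGroup W] [DistribMulAction Γ W]

/-- Fixed points of an element. -/
def fixS (W : Type*) [AddCommGroup W] [DistribMulAction Γ W] (b : Γ) : AddSubgroup W where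
  carrier := {v | b • v = v}
  zero_mem' := smul_zero _
  add_mem' := fun {u v} hu hv => by
    simp only [Set.mem_ofPred_eq] at *
    rw [smul_add, hu, hv]
  neg_mem' := fun {u} hu => by
    simp only [Set.mem_ofPred_eq] at *
    rw [smul_neg, hu]

@[simp] lemma mem_fixS {b : Γ} {v : W} : v ∈ fixS W b ↔ b • v = v := Iff.rfl

lemma pow_mem_of_stable {Y : AddSubgroup W} {g : Γ} (hY : ∀ v ∈ Y, g • v ∈ Y) (k : ℕ) :
    ∀ v ∈ Y, g ^ k • v ∈ Y := by
  induction k with
  | zero => intro v hv; simpa using hv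
  | succ k ih =>
    intro v hv
    rw [pow_succ, mul_smul]
    exact ih _ (hY v hv)

/-- Free action on nonzero vectors: `|Y| ≡ 1` modulo the order. -/
theorem dvd_card_sub_one [Finite W] (g : Γ) (Y : AddSubgroup W) (hY : ∀ v ∈ Y, g • v ∈ Y)
    (hg : IsOfFinOrder g)
    (hfree : ∀ k : ℕ, g ^ k ≠ 1 → ∀ v ∈ Y, g ^ k • v = v → v = 0) : orderOf g ∣ Nat.card Y - 1 := by
  classical
  have hmem : ∀ c ∈ Subgroup.zpowers g, ∃ k : ℕ, g ^ k = c := by
    intro c hc
    exact Submonoid.mem_powers_iff _ _ |>.1 ((hg.mem_powers_iff_mem_zpowers).2 hc)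
  let X : SubMulAction (Subgroup.zpowers g) W :=
    { carrier := {v | v ∈ Y ∧ v ≠ 0}
      smul_mem' := by
        rintro ⟨c, hc⟩ v ⟨hv, hv0⟩
        obtain ⟨k, rfl⟩ := hmem c hc
        refine ⟨pow_mem_of_stable hY k v hv, ?_⟩
        intro h
        apply hv0
        have : (g ^ k) • v = 0 := h
        have h2 : (g ^ k)⁻¹ • ((g ^ k) • v) = v := inv_smul_smul _ _
        rw [← h2, this, smul_zero] }
  have hstab : ∀ b : X, MulAction.stabilizer (Subgroup.zpowers g) b = ⊥ := by
    rintro ⟨v, hv, hv0⟩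
    rw [eq_bot_iff]
    rintro ⟨c, hc⟩ hcs
    obtain ⟨k, rfl⟩ := hmem c hc
    have h1 : (g ^ k) • v = v := congrArg Subtype.val hcs
    by_cases h : g ^ k = 1
    · exact (Subgroup.mem_bot).2 (Subtype.ext h)
    · exact absurd (hfree k h v hv h1) hv0
  have hequiv := MulAction.selfEquivOrbitsQuotientProd hstab
  have hfinX : Finite X := by
    apply Finite.of_injective (fun b : X => (b : W)) Subtype.val_injective
  have hcard : Nat.card X = Nat.card (Quotient (MulAction.orbitRel (Subgroup.zpowers g) X)) * orderOf g := by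
    rw [Nat.card_congr hequiv, Nat.card_prod, Nat.card_zpowers]
  have hXY : Nat.card X + 1 = Nat.card Y := by
    have e1 : X ≃ {b : Y // b ≠ 0} :=
      { toFun := fun b => ⟨⟨b.1, b.2.1⟩, fun h => b.2.2 (congrArg Subtype.val h)⟩
        invFun := fun b => ⟨b.1.1, b.1.2, fun h => b.2 (Subtype.ext h)⟩
        left_inv := fun b => rfl
        right_inv := fun b => rfl }
    have e2 : Option {b : Y // b ≠ 0} ≃ Y := Equiv.optionSubtypeNe 0
    rw [← Nat.card_congr e2, Finite.card_option, Nat.card_congr e1]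
  rw [← hXY, Nat.add_sub_cancel, hcard]
  exact dvd_mul_left _ _

/-- Existence of the free part. -/
theorem exists_free_sub [Finite W] {p r e : ℕ} (hp : p.Prime) (hW : ∀ v : W, p • v = 0) (M : AddSubgroup W)
    (g : Γ) (hM : ∀ v ∈ M, g • v ∈ M) (hr : r.Prime) (hrp : r ≠ p) (hord : orderOf g = r ^ (e + 1))
    (hnt : ∃ v ∈ M, g ^ (r ^ e) • v ≠ v) :
    ∃ Y : AddSubgroup W, Y ≤ M ∧ (∀ v ∈ Y, g • v ∈ Y) ∧ Y ≠ ⊥ ∧
      ∀ k : ℕ, g ^ k ≠ 1 → ∀ v ∈ Y, g ^ k • v = v → v = 0 := by
  classical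
  set h := g ^ (r ^ e) with hh
  have hhr : h ^ r = 1 := by
    rw [hh, ← pow_mul, ← pow_succ, ← hord, pow_orderOf_eq_one]
  let N : W →+ W := ∑ i ∈ Finset.range r, DistribSMul.toAddMonoidHom W (h ^ i)
  have hN : ∀ v, N v = ∑ i ∈ Finset.range r, h ^ i • v := by
    intro v
    simp [N, AddMonoidHom.finsetSum_apply]
  have hstableH : ∀ v ∈ M, h • v ∈ M := pow_mem_of_stable hM _
  have hmemY : ∀ v, v ∈ M ⊓ N.ker ↔ v ∈ M ∧ ∑ i ∈ Finset.range r, h ^ i • v = 0 := by
    intro v
    rw [AddSubgroup.mem_inf, AddMonoidHom.mem_ker, hN]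
  refine ⟨M ⊓ N.ker, inf_le_left, ?_, ?_, ?_⟩
  · intro v hv'
    obtain ⟨hv, hv2⟩ := (hmemY v).1 hv'
    refine (hmemY _).2 ⟨hM v hv, ?_⟩
    have : ∀ i, h ^ i • g • v = g • (h ^ i • v) := by
      intro i
      rw [smul_smul, smul_smul]
      congr 1
      rw [hh]
      exact ((Commute.refl g).pow_left _).pow_left _
    simp_rw [this]
    rw [← Finset.smul_sum, hv2, smul_zero]
  · obtain ⟨v, hv, hv2⟩ := hnt
    intro hbot
    have h1 : h • v - v ∈ M ⊓ N.ker := by
      refine (hmemY _).2 ⟨M.sub_mem (hstableH v hv) hv, ?_⟩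
      have h2 : ∀ i, h ^ i • (h • v - v) = h ^ (i + 1) • v - h ^ i • v := by
        intro i
        rw [smul_sub, pow_succ, mul_smul]
      simp_rw [h2]
      rw [Finset.sum_range_sub (fun i => h ^ i • v) r, hhr]
      simp
    rw [hbot, AddSubgroup.mem_bot, sub_eq_zero] at h1
    exact hv2 h1
  · intro k hk v hv' hfix
    obtain ⟨hv, hv2⟩ := (hmemY v).1 hv'
    -- `k = r ^ j * k'`
    have hk0 : k ≠ 0 := by
      rintro rfl
      exact hk (pow_zero g)
    obtain ⟨j, k', hk', rfl⟩ := Nat.exists_eq_pow_mul_and_not_dvd hk0 r hr.ne_one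
    have hje : j ≤ e := by
      by_contra hje
      apply hk
      have : r ^ (e + 1) ∣ r ^ j * k' := Dvd.dvd.mul_right (pow_dvd_pow r (by omega)) _
      rw [← hord] at this
      exact orderOf_dvd_iff_pow_eq_one.1 this
    set y := g ^ (r ^ j) with hy
    have hcop : k'.Coprime (orderOf y) := by
      have h1 : orderOf y ∣ r ^ (e + 1) := by
        rw [orderOf_dvd_iff_pow_eq_one, hy, ← pow_mul, mul_comm, pow_mul, ← hord, pow_orderOf_eq_one, one_pow]
      obtain ⟨l, -, hl⟩ := (Nat.dvd_prime_pow hr).1 h1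
      rw [hl]
      exact Nat.Coprime.pow_right _ ((Nat.Prime.coprime_iff_not_dvd hr).2 hk').symm
    obtain ⟨u, hu⟩ := exists_pow_eq_self_of_coprime hcop
    have hfix2 : y ^ k' • v = v := by
      rw [hy, ← pow_mul]
      exact hfix
    have hpowfix : ∀ (b : Γ) (m : ℕ), b • v = v → b ^ m • v = v := by
      intro b m hb
      induction m with
      | zero => simp
      | succ m ih => rw [pow_succ, mul_smul, hb, ih]
    have hyv : y • v = v := by
      have := hpowfix _ u hfix2
      rwa [hu] at this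
    have hhv : h • v = v := by
      have hh2 : h = y ^ (r ^ (e - j)) := by
        rw [hh, hy, ← pow_mul, ← pow_add]
        congr 2
        omega
      rw [hh2]
      exact hpowfix _ _ hyv
    have hsum : r • v = 0 := by
      have h1 : ∀ i, h ^ i • v = v := fun i => hpowfix _ i hhv
      simp_rw [h1] at hv2
      simpa using hv2
    have h1 : addOrderOf v ∣ r := addOrderOf_dvd_of_nsmul_eq_zero hsum
    have h2 : addOrderOf v ∣ p := addOrderOf_dvd_of_nsmul_eq_zero (hW v)
    have h3 : Nat.Coprime r p := (Nat.coprime_primes hr hp).2 hrp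
    have h4 := Nat.dvd_gcd h1 h2
    rw [h3] at h4
    exact AddMonoid.addOrderOf_eq_one_iff.1 (Nat.dvd_one.1 h4)

/-- A `p`-element fixes a nonzero vector of a nonzero subgroup. -/
theorem exists_fixed_of_pow [Finite W] {p : ℕ} (hp : p.Prime) (hW : ∀ v : W, p • v = 0) (M : AddSubgroup W)
    (b : Γ) (hb : b ^ p = 1) (hM : ∀ v ∈ M, b • v ∈ M) (hne : M ≠ ⊥) :
    ∃ u ∈ M, u ≠ 0 ∧ b • u = u := by
  classical
  have : Fact p.Prime := ⟨hp⟩
  have hpg : IsPGroup p (Subgroup.zpowers b) := by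
    rintro ⟨c, hc⟩
    obtain ⟨k, rfl⟩ := Subgroup.mem_zpowers_iff.1 hc
    refine ⟨1, Subtype.ext ?_⟩
    show (b ^ k) ^ p ^ 1 = 1
    rw [pow_one, ← zpow_natCast, ← zpow_mul, mul_comm, zpow_mul, zpow_natCast, hb, one_zpow]
  have hmem : ∀ c ∈ Subgroup.zpowers b, ∃ k : ℕ, b ^ k = c := by
    intro c hc
    exact Submonoid.mem_powers_iff _ _ |>.1 (((isOfFinOrder_iff_pow_eq_one.2 ⟨p, hp.pos, hb⟩).mem_powers_iff_mem_zpowers).2 hc)
  let X : SubMulAction (Subgroup.zpowers b) W :=
    { carrier := {v | v ∈ M}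
      smul_mem' := by
        rintro ⟨c, hc⟩ v hv
        obtain ⟨k, rfl⟩ := hmem c hc
        exact pow_mem_of_stable hM k v hv }
  have hfinX : Finite X := Finite.of_injective (fun b : X => (b : W)) Subtype.val_injective
  have hcard : p ∣ Nat.card X := by
    obtain ⟨⟨v, hv⟩, hv0'⟩ := (AddSubgroup.ne_bot_iff_exists_ne_zero).1 hne
    have hv0 : v ≠ 0 := fun h => hv0' (Subtype.ext h)
    have h1 : addOrderOf (⟨v, hv⟩ : M) ∣ p :=
      addOrderOf_dvd_of_nsmul_eq_zero (Subtype.ext (hW v))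
    have h2 : addOrderOf (⟨v, hv⟩ : M) ≠ 1 := by
      intro h
      have := AddMonoid.addOrderOf_eq_one_iff.1 h
      exact hv0' this
    have h3 : addOrderOf (⟨v, hv⟩ : M) = p := ((Nat.dvd_prime hp).1 h1).resolve_left h2
    have h4 : p ∣ Nat.card M := h3 ▸ addOrderOf_dvd_natCard _
    have h5 : Nat.card X = Nat.card M := rfl
    rw [h5]
    exact h4
  have h0 : (⟨0, M.zero_mem⟩ : X) ∈ MulAction.fixedPoints (Subgroup.zpowers b) X := by
    intro c
    exact Subtype.ext (smul_zero _)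
  obtain ⟨u, hu, hne'⟩ := hpg.exists_fixed_point_of_prime_dvd_card_of_fixed_point X hcard h0
  refine ⟨u.1, u.2, fun h => hne' (Subtype.ext h.symm), ?_⟩
  have := hu ⟨b, Subgroup.mem_zpowers b⟩
  exact congrArg Subtype.val this

/-- The two subgroups with trivial intersection. -/
theorem card_mul_le_of_inter [Finite W] {A B Y : AddSubgroup W} (hA : A ≤ Y) (hB : B ≤ Y)
    (h : ∀ v, v ∈ A → v ∈ B → v = 0) : Nat.card A * Nat.card B ≤ Nat.card Y := by
  rw [← Nat.card_prod]
  refine Nat.card_le_card_of_injective (fun ab : A × B => (⟨ab.1.1 + ab.2.1, Y.add_mem (hA ab.1.2) (hB ab.2.2)⟩ : Y)) ?_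
  rintro ⟨⟨a, ha⟩, ⟨b, hb⟩⟩ ⟨⟨c, hc⟩, ⟨d, hd⟩⟩ he
  have h1 : a + b = c + d := congrArg Subtype.val he
  have h2 : a - c = d - b := by
    rw [sub_eq_sub_iff_add_eq_add, h1, add_comm]
  have h3 : a - c = 0 := h _ (A.sub_mem ha hc) (h2 ▸ B.sub_mem hd hb)
  have h4 : a = c := sub_eq_zero.1 h3
  have h5 : b = d := by
    subst h4
    exact add_left_cancel h1
  subst h4 h5
  rfl

/-- The final counting step. -/
theorem index_bound [Finite W] (q : ℕ) (a a' c : Γ) (hc : a' = c * a * c⁻¹) (Y : AddSubgroup W)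
    (hY : ∀ v ∈ Y, c • v ∈ Y) (hq : q ^ 2 ≤ Nat.card Y)
    (hint : ∀ v ∈ Y, a • v = v → a' • v = v → v = 0) :
    q ≤ (fixS W a).index := by
  classical
  set C : AddSubgroup W := Y ⊓ fixS W a with hC
  set C' : AddSubgroup W := Y ⊓ fixS W a' with hC'
  have h1 : Nat.card C ≤ Nat.card C' := by
    refine Nat.card_le_card_of_injective (fun v : C => (⟨c • v.1, hY _ v.2.1, ?_⟩ : C')) ?_
    · show a' • c • v.1 = c • v.1
      rw [hc, smul_smul, mul_assoc, inv_mul_cancel, mul_one, mul_smul]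
      congr 1
      exact v.2.2
    · intro u v huv
      exact Subtype.ext (MulAction.injective c (congrArg Subtype.val huv))
  have h2 : Nat.card C * Nat.card C' ≤ Nat.card Y :=
    card_mul_le_of_inter inf_le_left inf_le_left fun v hv hv' => hint v hv.1 hv.2 hv'.2
  have h3 : Nat.card C * Nat.card C ≤ Nat.card Y := (Nat.mul_le_mul_left _ h1).trans h2
  have h4 : Nat.card Y = Nat.card C * (fixS W a).relIndex Y := by
    have h5 := AddSubgroup.relIndex_mul_relIndex (⊥ : AddSubgroup W) C Y bot_le inf_le_left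
    rw [AddSubgroup.relIndex_bot_left, AddSubgroup.relIndex_bot_left, hC, AddSubgroup.inf_relIndex_left] at h5
    exact h5.symm
  have h6 : (fixS W a).relIndex Y ≤ (fixS W a).index :=
    Nat.le_of_dvd (Nat.pos_of_ne_zero AddSubgroup.index_ne_zero_of_finite)
      (AddSubgroup.relIndex_dvd_index_of_normal _ _)
  set i := (fixS W a).relIndex Y
  have hCpos : 0 < Nat.card C := Nat.card_pos
  have h7 : Nat.card C ≤ i := by
    rw [h4] at h3
    exact Nat.le_of_mul_le_mul_left h3 hCpos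
  have h8 : q ^ 2 ≤ i ^ 2 := by
    rw [h4] at hq
    rw [pow_two i]
    exact hq.trans (Nat.mul_le_mul_right _ h7)
  exact ((Nat.pow_le_pow_iff_left (by norm_num)).1 h8).trans h6

end Abstract

section SL2

open Matrix
open scoped MatrixGroups
open Cfsg.Agent.Lib.PSL2.Basic

variable {F : Type*} [Field F]

/-- The powers of an element of `SL₂` are determined by its trace. -/
theorem pow_form (τ : F) (k : ℕ) :
    ∃ u v : F, ∀ A : SL(2, F), tr A = τ → (A ^ k).1 = u • A.1 + v • (1 : Matrix (Fin 2) (Fin 2) F) := by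
  induction k with
  | zero =>
    refine ⟨0, 1, fun A _ => ?_⟩
    simp
  | succ k ih =>
    obtain ⟨u, v, h⟩ := ih
    refine ⟨u * τ + v, -u, fun A hA => ?_⟩
    rw [pow_succ]
    show (A ^ k).1 * A.1 = _
    rw [h A hA, add_mul, smul_mul_assoc, smul_mul_assoc, cayley_hamilton, hA, one_mul]
    ext i j
    fin_cases i <;> fin_cases j <;> simp <;> ring

/-- A pair of non-scalar elements with the same trace has the same order. -/
theorem pow_eq_one_of_tr {A B : SL(2, F)} (htr : tr A = tr B)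
    (hA : A.1 0 1 ≠ 0 ∨ A.1 1 0 ≠ 0 ∨ A.1 0 0 - A.1 1 1 ≠ 0) {k : ℕ} (h : A ^ k = 1) : B ^ k = 1 := by
  obtain ⟨u, v, hf⟩ := pow_form (tr A) k
  have h1 := hf A rfl
  rw [h] at h1
  have h00 := congrFun (congrFun h1 0) 0
  have h01 := congrFun (congrFun h1 0) 1
  have h10 := congrFun (congrFun h1 1) 0
  have h11 := congrFun (congrFun h1 1) 1
  simp at h00 h01 h10 h11
  have hu : u = 0 := by
    rcases hA with hA | hA | hA
    · exact h01.resolve_right hA
    · exact h10.resolve_right hA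
    · have : u * (A.1 0 0 - A.1 1 1) = 0 := by
        linear_combination h11 - h00
      exact (mul_eq_zero.1 this).resolve_right hA
  subst hu
  have hv : v = 1 := by simpa using h00.symm
  subst hv
  apply Subtype.ext
  rw [hf B htr.symm]
  simp

theorem orderOf_eq_of_tr {A B : SL(2, F)} (htr : tr A = tr B)
    (hA : A.1 0 1 ≠ 0 ∨ A.1 1 0 ≠ 0 ∨ A.1 0 0 - A.1 1 1 ≠ 0)
    (hB : B.1 0 1 ≠ 0 ∨ B.1 1 0 ≠ 0 ∨ B.1 0 0 - B.1 1 1 ≠ 0) : orderOf A = orderOf B :=
  orderOf_eq_orderOf_iff.2 fun _ => ⟨pow_eq_one_of_tr htr hA, pow_eq_one_of_tr htr.symm hB⟩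

lemma tr_mul_self (f : SL(2, F)) : tr (f * f) = tr f ^ 2 - 2 := by
  have h := det_entries f
  simp [tr]
  linear_combination -2 * h

lemma mul_self_eq_neg_one_of_tr {f : SL(2, F)} (hf : tr f = 0) : f * f = -1 := by
  apply Subtype.ext
  show f.1 * f.1 = (-1 : SL(2, F)).1
  rw [cayley_hamilton, hf]
  ext i j
  fin_cases i <;> fin_cases j <;> simp

/-- The partner of a unipotent element. -/
theorem exists_partner {t : F} (ht : t ≠ 0) {d : SL(2, F)} {R : ℕ} (hord : orderOf d = R) (hodd : Odd R)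
    (hR3 : 3 ≤ R) :
    ∃ (s : F) (c : SL(2, F)), y s = c * x t * c⁻¹ ∧ orderOf (-(x t * y s)) = R := by
  obtain ⟨m, rfl⟩ := hodd
  set f := d ^ (m + 1) with hf
  have hff : f * f = d := by
    rw [hf, ← pow_add, show m + 1 + (m + 1) = (2 * m + 1) + 1 by ring, pow_succ, ← hord, pow_orderOf_eq_one, one_mul]
  have hd1 : d ≠ 1 := by
    rintro rfl
    rw [orderOf_one] at hord
    omega
  have hdsq : ∀ A : SL(2, F), A * A = 1 → orderOf A ≤ 2 := by
    intro A hA
    apply orderOf_le_of_pow_eq_one (by norm_num)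
    rw [pow_two, hA]
  have hd2 : d ≠ -1 := by
    rintro rfl
    have h1 := hdsq (-1) (by apply ext2 <;> simp)
    omega
  have hτ : tr f ≠ 0 := by
    intro h0
    exact hd2 (hff ▸ mul_self_eq_neg_one_of_tr h0)
  have hdn := nonscalar_of_ne ⟨hd1, hd2⟩
  set τ := tr f with hτdef
  let lam : F := t / τ
  have hlam : lam ≠ 0 := div_ne_zero ht hτ
  refine ⟨-(τ ^ 2 / t), Cfsg.Agent.Lib.PSL2.Basic.d lam hlam * w, ?_, ?_⟩
  · rw [_root_.mul_inv_rev]
    have h1 : Cfsg.Agent.Lib.PSL2.Basic.d lam hlam * w * x t * (w⁻¹ * (Cfsg.Agent.Lib.PSL2.Basic.d lam hlam)⁻¹) =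
        Cfsg.Agent.Lib.PSL2.Basic.d lam hlam * (w * x t * w⁻¹) * (Cfsg.Agent.Lib.PSL2.Basic.d lam hlam)⁻¹ := by group
    rw [h1, w_x_w_inv, d_y_d_inv]
    congr 1
    simp only [lam]
    field_simp
  · rw [← hord]
    symm
    apply orderOf_eq_of_tr
    · rw [← hff, tr_mul_self, ← hτdef]
      simp [tr]
      field_simp
      ring
    · exact hdn
    · left
      simp [ht]

section Ex

lemma mul_self_mul_self_of_tr_one {e : SL(2, F)} (htr : tr e = 1) : e * e * e = -1 := by
  have h := cayley_hamilton e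
  rw [htr, one_smul] at h
  apply Subtype.ext
  show e.1 * e.1 * e.1 = (-1 : SL(2, F)).1
  rw [h, sub_mul, one_mul, h]
  ext i j
  fin_cases i <;> fin_cases j <;> simp

variable [Fintype F]

/-- The element of order nine in `SL₂(8)`. -/
theorem exists_order_nine (hF : Fintype.card F = 8) (h2 : (2 : F) = 0) : ∃ d : SL(2, F), orderOf d = 3 ^ (1 + 1) := by
  classical
  -- a root of `X ^ 3 + X + 1`
  obtain ⟨τ, hτ⟩ : ∃ τ : F, τ ^ 3 + τ + 1 = 0 := by
    obtain ⟨g, -, hg⟩ := Finset.exists_mem_notMem_of_card_lt_card (s := ({0, 1} : Finset F))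
      (t := Finset.univ) (by
        rw [Finset.card_univ, hF]
        exact lt_of_le_of_lt (Finset.card_le_two) (by norm_num))
    simp only [Finset.mem_insert, Finset.mem_singleton, not_or] at hg
    have hg7 : g ^ 7 = 1 := by
      have := FiniteField.pow_card_sub_one_eq_one g hg.1
      rwa [hF] at this
    have hg1 : g - 1 ≠ 0 := sub_ne_zero.2 hg.2
    have hprod : (g - 1) * ((g ^ 3 + g + 1) * (g ^ 3 + g ^ 2 + 1)) = 0 := by
      linear_combination hg7 + (g - 1) * g ^ 3 * h2
    rcases mul_eq_zero.1 ((mul_eq_zero.1 hprod).resolve_left hg1) with h | h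
    · exact ⟨g, h⟩
    · refine ⟨g⁻¹, ?_⟩
      have hg0 := hg.1
      field_simp
      linear_combination h
  have hτ1 : τ ^ 2 + 1 ≠ 0 := by
    intro h
    have h1 : τ * (τ ^ 2 + 1) = 0 := by rw [h, mul_zero]
    have h3 : (1 : F) = 0 := by linear_combination hτ - h1
    exact one_ne_zero h3
  let d₀ : SL(2, F) := sl2 0 1 (-1) τ (by ring)
  have hd3 : d₀ ^ 3 = d₀ * d₀ * d₀ := by rw [pow_succ, pow_two]
  have h10 : (d₀ * d₀ * d₀).1 1 0 = 1 - τ ^ 2 := by
    simp [d₀]
    ring
  have htr : tr (d₀ * d₀ * d₀) = 1 := by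
    simp [d₀, tr]
    linear_combination hτ - (2 * τ + 1) * h2
  have : Fact (Nat.Prime 3) := ⟨by norm_num⟩
  refine ⟨d₀, orderOf_eq_prime_pow ?_ ?_⟩
  · rw [pow_one, hd3]
    intro h
    rw [h] at h10
    simp at h10
    apply hτ1
    linear_combination h10 + h2
  · rw [show 3 ^ (1 + 1) = 3 * 3 by norm_num, pow_mul, hd3]
    have h1 := mul_self_mul_self_of_tr_one htr
    rw [pow_succ, pow_two, h1]
    exact (neg_eq_self_of_two_eq_zero h2 _)

lemma zmod2_cases : ∀ a : ZMod 2, a = 0 ∨ a = 1 := by decide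

/-- The element whose order is a primitive (power of a) prime. -/
theorem exists_elt {p n : ℕ} (hp : p.Prime) (hn : 2 ≤ n) [CharP F p] (hF : Fintype.card F = p ^ n) :
    ∃ r e : ℕ, r.Prime ∧ r ≠ p ∧ r ≠ 2 ∧ (∃ d : SL(2, F), orderOf d = r ^ (e + 1)) ∧
      (∀ m : ℕ, r ^ (e + 1) ∣ p ^ m - 1 → 2 * n ∣ m) ∧ (p ≠ 2 → e = 0) := by
  classical
  by_cases hex : p = 2 ∧ n = 3
  · obtain ⟨rfl, rfl⟩ := hex
    have h2 : (2 : F) = 0 := by
      have := CharP.cast_eq_zero F 2
      simpa using this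
    refine ⟨3, 1, by norm_num, by norm_num, by norm_num, exists_order_nine (by rw [hF]; norm_num) h2, ?_, by simp⟩
    intro m hm
    have h1 : ((2 : ℕ) : ZMod 9) ^ m = 1 := by
      have h3 : 1 ≤ 2 ^ m := Nat.one_le_two_pow
      have h4 := (ZMod.natCast_eq_zero_iff (2 ^ m - 1) (3 ^ (1 + 1))).2 hm
      rw [Nat.cast_sub h3] at h4
      push_cast at h4
      have h5 : ((2 : ZMod (3 ^ (1 + 1)))) ^ m = 1 := sub_eq_zero.1 h4
      exact_mod_cast h5
    have h6 : orderOf ((2 : ℕ) : ZMod 9) = 6 := by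
      rw [orderOf_eq_iff (by norm_num)]
      exact ⟨by decide, by decide⟩
    rw [show 2 * 3 = 6 from rfl, ← h6]
    exact orderOf_dvd_of_pow_eq_one h1
  · obtain ⟨r, hr, hprim⟩ := PpdTwo.exists_ord hp hn hex
    have : Fact r.Prime := ⟨hr⟩
    have hrp : r ≠ p := by
      rintro rfl
      have h := hprim.pow_eq_one
      rw [ZMod.natCast_self, zero_pow (by omega)] at h
      exact zero_ne_one h
    have hr2 : r ≠ 2 := by
      rintro rfl
      rcases zmod2_cases (p : ZMod 2) with h0 | h0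
      · have h1 := hprim.pow_eq_one
        rw [h0, zero_pow (by omega)] at h1
        exact zero_ne_one h1
      · have h1 := hprim.dvd_of_pow_eq_one 1 (by rw [h0, one_pow])
        have := Nat.le_of_dvd (by norm_num) h1
        omega
    have hdvd : r ∣ Nat.card SL(2, F) := by
      rw [card_SL2, hF]
      apply Dvd.dvd.mul_left
      have h3 : 1 ≤ (p ^ n) ^ 2 := Nat.one_le_pow _ _ (pow_pos hp.pos _)
      rw [← ZMod.natCast_eq_zero_iff, Nat.cast_sub h3]
      push_cast
      rw [← pow_mul, mul_comm n 2, hprim.pow_eq_one, sub_self]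
    obtain ⟨d, hd⟩ := exists_prime_orderOf_dvd_card' r hdvd
    refine ⟨r, 0, hr, hrp, hr2, ⟨d, by simpa using hd⟩, ?_, fun _ => rfl⟩
    intro m hm
    apply hprim.dvd_of_pow_eq_one
    have h3 : 1 ≤ p ^ m := Nat.one_le_pow _ _ hp.pos
    have h4 := (ZMod.natCast_eq_zero_iff (p ^ m - 1) r).2 (by simpa using hm)
    rw [Nat.cast_sub h3] at h4
    push_cast at h4
    exact sub_eq_zero.1 h4

end Ex

section Main

variable {W : Type*} [AddCommGroup W] [DistribMulAction SL(2, F) W]

/-- The card of a subgroup of an elementary abelian group. -/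
lemma exists_card_eq_pow {V : Type*} [AddCommGroup V] [Finite V] {p : ℕ} (hp : p.Prime) (hV : ∀ v : V, p • v = 0) (Y : AddSubgroup V) :
    ∃ m, Nat.card Y = p ^ m := by
  have : Fact p.Prime := ⟨hp⟩
  have h1 : IsPGroup p (Multiplicative Y) := by
    intro g
    refine ⟨1, ?_⟩
    rw [pow_one]
    apply Multiplicative.toAdd.injective
    apply Subtype.ext
    show p • (Multiplicative.toAdd g : Y).1 = 0
    exact hV _
  obtain ⟨m, hm⟩ := IsPGroup.iff_card.1 h1
  exact ⟨m, by rw [← hm]; exact Nat.card_congr Multiplicative.toAdd.symm⟩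

lemma card_ge {V : Type*} [AddCommGroup V] [Finite V] {p n R : ℕ} (hp : p.Prime) (hV : ∀ v : V, p • v = 0) (Y : AddSubgroup V)
    (hY : Y ≠ ⊥) (hdvd : R ∣ Nat.card Y - 1) (hR : ∀ m : ℕ, R ∣ p ^ m - 1 → 2 * n ∣ m) (hn : 0 < n) :
    (p ^ n) ^ 2 ≤ Nat.card Y := by
  obtain ⟨m, hm⟩ := exists_card_eq_pow hp hV Y
  rw [hm] at hdvd ⊢
  have h1 := hR m hdvd
  have hm0 : m ≠ 0 := by
    rintro rfl
    rw [pow_zero] at hm
    exact hY (AddSubgroup.eq_bot_of_card_eq _ hm)
  have h2 := Nat.le_of_dvd (Nat.pos_of_ne_zero hm0) h1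
  rw [← pow_mul, mul_comm n 2]
  exact Nat.pow_le_pow_right hp.pos h2

/-- Conjugacy in a dihedral group of odd order. -/
lemma conj_of_dihedral {Γ : Type*} [Group Γ] {a b : Γ} (ha : a * a = 1) (hb : b * b = 1) {m : ℕ}
    (hg : (a * b) ^ (2 * m + 1) = 1) : b = (a * b) ^ m * a * ((a * b) ^ m)⁻¹ := by
  set g := a * b with hgdef
  have h1 : ∀ k : ℕ, a * g ^ k * a = (g ^ k)⁻¹ := by
    intro k
    induction k with
    | zero => simpa using ha
    | succ k ih =>
      have hinv : a * g * a = g⁻¹ := by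
        rw [hgdef, _root_.mul_inv_rev]
        have ha' : a⁻¹ = a := inv_eq_of_mul_eq_one_left ha
        have hb' : b⁻¹ = b := inv_eq_of_mul_eq_one_left hb
        rw [ha', hb']
        calc a * (a * b) * a = (a * a) * b * a := by group
          _ = b * a := by rw [ha, one_mul]
      have h2 : (a * g ^ k * a) * (a * g * a) = a * g ^ k * (a * a) * g * a := by group
      have h3 : a * g ^ (k + 1) * a = (a * g ^ k * a) * (a * g * a) := by
        rw [h2, ha, mul_one, pow_succ]
        group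
      rw [h3, ih, hinv, ← _root_.mul_inv_rev, ← pow_succ']
  have h4 : g ^ m * a * (g ^ m)⁻¹ = g ^ m * (a * a) * g ^ m * a := by
    rw [← h1 m]
    group
  rw [h4, ha, mul_one, ← pow_add]
  have h5 : g ^ (m + m) = g⁻¹ := by
    apply eq_inv_of_mul_eq_one_left
    rw [← pow_succ, ← hg]
    congr 1
    omega
  rw [h5, hgdef, _root_.mul_inv_rev]
  have ha' : a⁻¹ = a := inv_eq_of_mul_eq_one_left ha
  have hb' : b⁻¹ = b := inv_eq_of_mul_eq_one_left hb
  rw [ha', hb', mul_assoc, ha, mul_one]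

/-- **The bound for `n ≥ 2`.** -/
theorem bound_of_two_le [Fintype F] [Finite W] {p n : ℕ} (hp : p.Prime) (hn : 2 ≤ n) [CharP F p]
    (hF : Fintype.card F = p ^ n) (hW : ∀ v : W, p • v = 0)
    (hfaith : ∀ g : SL(2, F), (∀ v : W, g • v = v) → g = 1) {t : F} (ht : t ≠ 0) :
    p ^ n ≤ (fixS W (x t : SL(2, F))).index := by
  classical
  obtain ⟨r, e, hr, hrp, hr2, ⟨dd, hdd⟩, hR, he⟩ := exists_elt hp hn hF
  have hRodd : Odd (r ^ (e + 1)) := (hr.odd_of_ne_two hr2).pow
  have hR3 : 3 ≤ r ^ (e + 1) := by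
    have h1 : r ≤ r ^ (e + 1) := Nat.le_self_pow (by omega) r
    have h2 := hr.two_le
    omega
  obtain ⟨s, c, hcs, hord⟩ := exists_partner ht hdd hRodd hR3
  have hn0 : 0 < n := by omega
  set g : SL(2, F) := -(x t * y s) with hg
  have hgfin : IsOfFinOrder g := by
    rw [← orderOf_pos_iff, hord]
    positivity
  have hne : g ^ (r ^ e) ≠ 1 := by
    intro h
    have h1 := orderOf_dvd_of_pow_eq_one h
    rw [hord, pow_succ] at h1
    have h2 := Nat.le_of_dvd (pow_pos hr.pos e) h1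
    have h3 := hr.two_le
    nlinarith [pow_pos hr.pos e]
  rcases eq_or_ne p 2 with rfl | hp2
  · -- characteristic two
    have h2 : (2 : F) = 0 := by
      have := CharP.cast_eq_zero F 2
      simpa using this
    have hgeq : g = x t * y s := neg_eq_self_of_two_eq_zero h2 _
    have hxx : (x t : SL(2, F)) * x t = 1 := by
      rw [← x_add, show t + t = 2 * t by ring, h2, zero_mul, x_zero]
    have hyy : (y s : SL(2, F)) * y s = 1 := by
      rw [← y_add, show s + s = 2 * s by ring, h2, zero_mul, y_zero]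
    have hnt : ∃ v ∈ (⊤ : AddSubgroup W), g ^ (r ^ e) • v ≠ v := by
      by_contra hcon
      push Not at hcon
      exact hne (hfaith _ fun v => hcon v trivial)
    obtain ⟨Y, -, hY, hY0, hfree⟩ := exists_free_sub hp hW ⊤ g (fun _ _ => trivial) hr hrp hord hnt
    have hdvd := dvd_card_sub_one g Y hY hgfin hfree
    rw [hord] at hdvd
    have hq := card_ge hp hW Y hY0 hdvd hR hn0
    obtain ⟨m, hm⟩ := hRodd
    have hgm : (x t * y s) ^ (2 * m + 1) = 1 := by
      rw [← hm, ← hgeq, ← hord, pow_orderOf_eq_one]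
    have hconj := conj_of_dihedral hxx hyy hgm
    rw [← hgeq] at hconj
    refine index_bound _ (x t) (y s) (g ^ m) hconj Y (pow_mem_of_stable hY m) hq ?_
    intro v hv h1 h3
    refine hfree 1 ?_ v hv ?_
    · rw [pow_one]
      rintro hg1
      rw [hg1, orderOf_one] at hord
      omega
    · rw [pow_one, hgeq, mul_smul, h3, h1]
  · -- odd characteristic
    have he0 := he hp2
    subst he0
    have h2 : (2 : F) ≠ 0 := by
      intro h
      have h3 : ((2 : ℕ) : F) = 0 := by exact_mod_cast h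
      have h4 := (CharP.cast_eq_zero_iff F p 2).1 h3
      exact hp2 ((Nat.prime_dvd_prime_iff_eq hp Nat.prime_two).1 h4)
    have hel : ∀ v : W, v = -v → v = 0 := by
      intro v hv
      have h3 : 2 • v = 0 := by
        rw [two_nsmul]
        nth_rw 1 [hv]
        simp
      have h4 : addOrderOf v ∣ 2 := addOrderOf_dvd_of_nsmul_eq_zero h3
      have h5 : addOrderOf v ∣ p := addOrderOf_dvd_of_nsmul_eq_zero (hW v)
      have h6 : Nat.Coprime 2 p := (Nat.coprime_primes Nat.prime_two hp).2 (Ne.symm hp2)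
      have h7 := Nat.dvd_gcd h4 h5
      rw [h6] at h7
      exact AddMonoid.addOrderOf_eq_one_iff.1 (Nat.dvd_one.1 h7)
    let M : AddSubgroup W :=
      { carrier := {v | (-1 : SL(2, F)) • v = -v}
        zero_mem' := by simp
        add_mem' := fun {u v} hu hv => by
          simp only [Set.mem_ofPred_eq] at *
          rw [smul_add, hu, hv, neg_add]
        neg_mem' := fun {u} hu => by
          simp only [Set.mem_ofPred_eq] at *
          rw [smul_neg, hu] }
    have hmemM : ∀ v, v ∈ M ↔ (-1 : SL(2, F)) • v = -v := fun _ => Iff.rfl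
    have hzc : ∀ h : SL(2, F), (-1 : SL(2, F)) * h = h * (-1) := by
      intro h
      apply ext2 <;> simp
    have hMst : ∀ (h : SL(2, F)), ∀ v ∈ M, h • v ∈ M := by
      intro h v hv
      rw [hmemM] at hv ⊢
      rw [smul_smul, hzc, mul_smul, hv, smul_neg]
    have hzz : (-1 : SL(2, F)) * (-1) = 1 := by
      apply ext2 <;> simp
    have hMne : M ≠ ⊥ := by
      obtain ⟨v, hv⟩ : ∃ v : W, (-1 : SL(2, F)) • v ≠ v := by
        by_contra hcon
        push Not at hcon
        exact neg_one_ne_one_of_two_ne_zero h2 (hfaith _ hcon)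
      intro hbot
      have h3 : (-1 : SL(2, F)) • v - v ∈ M := by
        rw [hmemM, smul_sub, smul_smul, hzz, one_smul]
        abel
      rw [hbot, AddSubgroup.mem_bot, sub_eq_zero] at h3
      exact hv h3
    have hxp : (x t : SL(2, F)) ^ p = 1 := by
      rw [x_pow, CharP.cast_eq_zero F p, zero_mul, x_zero]
    have hyp : (y s : SL(2, F)) ^ p = 1 := by
      rw [y_pow, CharP.cast_eq_zero F p, zero_mul, y_zero]
    have hgsm : ∀ v ∈ M, g • v = -((x t : SL(2, F)) • (y s : SL(2, F)) • v) := by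
      intro v hv
      have h3 : g = (-1 : SL(2, F)) * (x t * y s) := by
        apply ext2 <;> simp [hg]
      rw [h3, mul_smul]
      have h4 : (x t * y s) • v ∈ M := hMst _ _ hv
      rw [(hmemM _).1 h4, mul_smul]
    have hnt : ∃ v ∈ M, g ^ (r ^ 0) • v ≠ v := by
      by_contra hcon
      push Not at hcon
      simp only [pow_zero, pow_one] at hcon
      obtain ⟨u, huM, hu0, hufix⟩ := exists_fixed_of_pow hp hW M (y s) hyp (hMst _) hMne
      have h3 : (x t : SL(2, F)) • u = -u := by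
        have h4 := hgsm u huM
        rw [hcon u huM, hufix] at h4
        exact neg_eq_iff_eq_neg.1 h4.symm
      have h4 : ∀ k : ℕ, (x t : SL(2, F)) ^ (2 * k) • u = u := by
        intro k
        induction k with
        | zero => simp
        | succ k ih =>
          rw [show 2 * (k + 1) = 2 * k + 1 + 1 by ring, pow_succ, pow_succ, mul_assoc, mul_smul, mul_smul, h3, smul_neg, h3, neg_neg, ih]
      obtain ⟨l, hl⟩ := hp.odd_of_ne_two hp2
      have h5 : u = -u := by
        calc u = (1 : SL(2, F)) • u := (one_smul _ _).symm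
          _ = (x t : SL(2, F)) ^ p • u := by rw [hxp]
          _ = (x t : SL(2, F)) ^ (2 * l) • ((x t : SL(2, F)) • u) := by rw [hl, pow_succ, mul_smul]
          _ = -u := by rw [h3, smul_neg, h4]
      exact hu0 (hel u h5)
    obtain ⟨Y, hYM, hY, hY0, hfree⟩ := exists_free_sub hp hW M g (hMst g) hr hrp hord hnt
    have hdvd := dvd_card_sub_one g Y hY hgfin hfree
    rw [hord] at hdvd
    have hq := card_ge hp hW Y hY0 hdvd hR hn0
    have hq' : (p ^ n) ^ 2 ≤ Nat.card M := hq.trans (AddSubgroup.card_le_of_le hYM)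
    refine index_bound _ (x t) (y s) c hcs M (hMst c) hq' ?_
    intro v hv h3 h4
    have h5 : g • v = -v := by rw [hgsm v hv, h4, h3]
    have h6 : (g * g) • v = v := by rw [mul_smul, h5, smul_neg, h5, neg_neg]
    obtain ⟨m, hm⟩ := hRodd
    have h7 : g ^ (2 * m + 1 + 1) = g := by
      rw [pow_succ, ← hm, ← hord, pow_orderOf_eq_one, one_mul]
    have h8 : ∀ k : ℕ, (g * g) ^ k • v = v := by
      intro k
      induction k with
      | zero => simp
      | succ k ih => rw [pow_succ, mul_smul, h6, ih]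
    have h9 : g • v = v := by
      have h10 : g = (g * g) ^ (m + 1) := by
        rw [← pow_two, ← pow_mul, show 2 * (m + 1) = 2 * m + 1 + 1 by ring, h7]
      rw [h10, h8]
    exact hel v (h9.symm.trans h5)

/-- **The bound.** -/
theorem bound [Fintype F] [Finite W] {p n : ℕ} (hp : p.Prime) [CharP F p]
    (hF : Fintype.card F = p ^ n) (hW : ∀ v : W, p • v = 0)
    (hfaith : ∀ g : SL(2, F), (∀ v : W, g • v = v) → g = 1) {t : F} (ht : t ≠ 0) :
    p ^ n ≤ (fixS W (x t : SL(2, F))).index := by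
  rcases Nat.lt_or_ge n 2 with hn | hn
  · have hn1 : n = 0 ∨ n = 1 := by omega
    rcases hn1 with rfl | rfl
    · rw [pow_zero]
      exact Nat.pos_of_ne_zero AddSubgroup.index_ne_zero_of_finite
    · rw [pow_one]
      -- `x t` acts nontrivially
      have hne : (fixS W (x t : SL(2, F))).index ≠ 1 := by
        intro h1
        rw [AddSubgroup.index_eq_one] at h1
        have h3 : (x t : SL(2, F)) = 1 := hfaith _ fun v => by
          have : v ∈ fixS W (x t : SL(2, F)) := by rw [h1]; trivial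
          exact this
        have h4 : x t = x (0 : F) := by rw [h3, x_zero]
        exact ht (x_injective h4)
      obtain ⟨m, hm⟩ := exists_card_eq_pow hp hW (⊤ : AddSubgroup W)
      have h5 : (fixS W (x t : SL(2, F))).index ∣ p ^ m := by
        rw [← hm, Nat.card_congr AddSubgroup.topEquiv.toEquiv]
        exact AddSubgroup.index_dvd_card _
      obtain ⟨j, -, hj⟩ := (Nat.dvd_prime_pow hp).1 h5
      rw [hj] at hne ⊢
      have hj0 : j ≠ 0 := by
        rintro rfl
        exact hne (pow_zero p)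
      exact Nat.le_self_pow hj0 p
  · exact bound_of_two_le hp hn hF hW hfaith ht

end Main

end SL2

end Cfsg.Agent.Lib.PGroup.NatBound
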