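import Mathlib
import Cfsg.Agent.Lib.PGroup.RankThree

/-!
# Normal four-subgroups of `2`-groups of rank at least three
-/

set_option autoImplicit false

namespace Cfsg.Agent.Lib.PGroup.NormalFour

open Subgroup
open scoped commutatorElement
open Cfsg.Agent.Lib.PGroup.Critical Cfsg.Agent.Lib.PGroup.NormalRank Cfsg.Agent.Lib.PGroup.RankThree

variable {P : Type*} [Group P] [Finite P]

theorem conj_zpow_eq {x a : P} {u : ℤ} (h : x * a * x⁻¹ = a ^ u) (i : ℤ) :
    x * a ^ i * x⁻¹ = a ^ (u * i) := by
  rw [← conj_zpow, h, zpow_mul]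

theorem exists_normal_four (hP : IsPGroup 2 P) (F : Subgroup P)
    (hF : Cfsg.IsElementaryAbelian 2 F) (hFc : 2 ^ 3 ≤ Nat.card F) :
    ∃ U : Subgroup P, U.Normal ∧ Cfsg.IsElementaryAbelian 2 U ∧ Nat.card U = 2 ^ 2 := by
  classical
  let S : Set (Subgroup P) := {A | A.Normal ∧ IsCyclic A}
  obtain ⟨A, ⟨hAn, hAc⟩, hmax⟩ := S.toFinite.exists_maximal
    ⟨⊥, (inferInstance : (⊥ : Subgroup P).Normal), (inferInstance : IsCyclic (⊥ : Subgroup P))⟩
  haveI := hAn
  obtain ⟨a, rfl⟩ := (Subgroup.isCyclic_iff_exists_zpowers_eq_top A).mp hAc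
  have hM : ∀ x : P, x ∉ zpowers a → (∀ g : P, ⁅x, g⁆ ∈ zpowers a) → a ∉ zpowers x := by
    intro x hxA hxc hax
    have hsup : zpowers a ⊔ zpowers x = zpowers x :=
      sup_eq_right.mpr (zpowers_le.mpr hax)
    have hmem : zpowers x ∈ S := by
      refine ⟨?_, inferInstance⟩
      rw [← hsup]
      exact normal_sup_zpowers _ hxc
    have := hmax hmem (zpowers_le.mpr hax)
    exact hxA (this (mem_zpowers x))
  obtain ⟨k, hk⟩ := (IsPGroup.iff_orderOf.mp hP) a
  -- elementary remark on odd exponents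
  have hodd : ∀ (x : P) (j : ℤ), x ^ 2 = a ^ j → Odd j → a ∈ zpowers x := by
    intro x j hj hjodd
    have hco : IsCoprime ((2 : ℤ) ^ k) j := by
      apply IsCoprime.pow_left
      obtain ⟨t, rfl⟩ := hjodd
      exact ⟨-t, 1, by ring⟩
    obtain ⟨c, d, hcd⟩ := hco
    have h1 : a = (x ^ 2) ^ d := by
      rw [hj, ← zpow_mul]
      have h2 : a ^ ((2 : ℤ) ^ k) = 1 := by
        have := pow_orderOf_eq_one a
        rw [hk] at this
        exact_mod_cast this
      have h3 : a ^ (c * (2 : ℤ) ^ k + d * j) = a := by rw [hcd, zpow_one]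
      rw [zpow_add, mul_comm c, zpow_mul, h2, one_zpow, one_mul] at h3
      rw [mul_comm j d]
      exact h3.symm
    rw [h1]
    exact Subgroup.zpow_mem _ (Subgroup.pow_mem _ (mem_zpowers x) 2) d
  have hpow : a ^ ((2 : ℤ) ^ k) = 1 := by
    have := pow_orderOf_eq_one a
    rw [hk] at this
    exact_mod_cast this
  by_cases hk2 : k ≤ 1
  · -- small case
    have ha2 : a ^ 2 = 1 := by
      have h1 : orderOf a ∣ 2 := by
        rw [hk]
        exact pow_dvd_pow 2 hk2 |>.trans (by norm_num)
      exact orderOf_dvd_iff_pow_eq_one.mp h1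
    have hmem2 : ∀ s ∈ zpowers a, s = 1 ∨ s = a := by
      intro s hs
      obtain ⟨i, rfl⟩ := mem_zpowers_iff.mp hs
      rcases Int.even_or_odd' i with ⟨t, rfl | rfl⟩
      · left
        rw [zpow_mul, zpow_two, ← pow_two, ha2, one_zpow]
      · right
        rw [zpow_add, zpow_mul, zpow_two, ← pow_two, ha2, one_zpow, one_mul, zpow_one]
    have hcardA : Nat.card (zpowers a) ≤ 2 := by
      rw [Nat.card_zpowers]
      exact Nat.le_of_dvd (by norm_num) (orderOf_dvd_of_pow_eq_one ha2)
    have hnotle : ¬ (⊤ : Subgroup P) ≤ zpowers a := by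
      intro h
      have h1 : Nat.card F ≤ Nat.card (zpowers a) :=
        Subgroup.card_le_of_le (le_trans le_top h)
      omega
    obtain ⟨x, -, hxA, hxp, hxc⟩ := exists_mem_central_mod hP (zpowers a) ⊤ hnotle
    have hac : ∀ g : P, g * a * g⁻¹ = a := by
      intro g
      rcases hmem2 _ (hAn.conj_mem a (mem_zpowers a) g) with h | h
      · have : a = 1 := by
          have h1 : g⁻¹ * (g * a * g⁻¹) * g = a := by group
          rw [h] at h1
          simpa using h1.symm
        rw [h, this]
      · exact h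
    rcases hmem2 _ hxp with h | h
    · by_cases ha1 : a = 1
      · exfalso
        apply hM x hxA hxc
        rw [ha1]
        exact one_mem _
      · refine ⟨zpowers a ⊔ zpowers x, normal_sup_zpowers _ hxc, ?_, ?_⟩
        · apply Basic.IsElementaryAbelian.sup_zpowers _ h
          · intro s hs
            obtain ⟨i, rfl⟩ := mem_zpowers_iff.mp hs
            have h1 := hac x
            have hcomm : Commute x a := by
              change x * a = a * x
              calc x * a = x * a * x⁻¹ * x := by group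
                _ = a * x := by rw [h1]
            exact (hcomm.zpow_right i).eq
          · rw [Basic.isElementaryAbelian_iff]
            refine ⟨fun s hs t ht => ?_, fun s hs => ?_⟩
            · obtain ⟨i, rfl⟩ := mem_zpowers_iff.mp hs
              obtain ⟨j, rfl⟩ := mem_zpowers_iff.mp ht
              exact (Commute.refl a).zpow_zpow i j |>.eq
            · rcases hmem2 s hs with rfl | rfl
              · simp
              · exact ha2
        · rw [card_sup_zpowers (p := 2) (zpowers a) hxA (by rw [h]; exact one_mem _),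
            Nat.card_zpowers]
          have : orderOf a = 2 := orderOf_eq_prime ha2 ha1
          rw [this]
          norm_num
    · exfalso
      apply hM x hxA hxc
      rw [← h]
      exact Subgroup.pow_mem _ (mem_zpowers x) 2
  · -- main case
    obtain ⟨K, rfl⟩ : ∃ K, k = K + 2 := ⟨k - 2, by omega⟩
    obtain ⟨m, hm⟩ : ∃ m : ℕ, m = 2 ^ K := ⟨_, rfl⟩
    have hord : orderOf a = 4 * m := by rw [hk, pow_add, hm]; ring
    have hmpos : 0 < m := by rw [hm]; positivity
    have hmz : (0 : ℤ) < (m : ℤ) := by exact_mod_cast hmpos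
    have hone : ∀ i : ℤ, a ^ i = 1 ↔ (4 * (m : ℤ)) ∣ i := fun i => by
      rw [← orderOf_dvd_iff_zpow_eq_one, hord]
      push_cast
      rfl
    obtain ⟨z, hz⟩ : ∃ z, z = a ^ (2 * (m : ℤ)) := ⟨_, rfl⟩
    obtain ⟨b, hb⟩ : ∃ b, b = a ^ (m : ℤ) := ⟨_, rfl⟩
    have hb2 : b ^ 2 = z := by
      rw [hb, hz, ← zpow_natCast, ← zpow_mul]
      congr 1
      push_cast
      ring
    have hz2 : z ^ 2 = 1 := by
      rw [hz, ← zpow_natCast, ← zpow_mul, hone]
      exact ⟨1, by push_cast; ring⟩
    have hz1 : z ≠ 1 := by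
      rw [hz, Ne, hone]
      rintro ⟨c, hc⟩
      have : (1 : ℤ) = 2 * c := by
        have h2 : (m : ℤ) * 2 * 1 = (m : ℤ) * 2 * (2 * c) := by linarith
        exact mul_left_cancel₀ (by positivity) h2
      omega
    have hsq : ∀ s ∈ zpowers a, s ^ 2 = 1 → s = 1 ∨ s = z := by
      intro s hs hs2
      obtain ⟨i, rfl⟩ := mem_zpowers_iff.mp hs
      rw [← zpow_natCast, ← zpow_mul, hone] at hs2
      obtain ⟨c, hc⟩ := hs2
      have hi : i = 2 * (m : ℤ) * c := by
        push_cast at hc
        have h2 : (2 : ℤ) * i = 2 * (2 * (m : ℤ) * c) := by linarith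
        exact mul_left_cancel₀ (by norm_num) h2
      rw [hi, zpow_mul, ← hz]
      rcases Int.even_or_odd' c with ⟨t, rfl | rfl⟩
      · left
        rw [zpow_mul, zpow_two, ← pow_two, hz2, one_zpow]
      · right
        rw [zpow_add, zpow_mul, zpow_two, ← pow_two, hz2, one_zpow, one_mul, zpow_one]
    have hzA : z ∈ zpowers a := hz ▸ Subgroup.zpow_mem _ (mem_zpowers a) _
    have hzc : ∀ g : P, g * z * g⁻¹ = z := by
      intro g
      have h1 : g * z * g⁻¹ ∈ zpowers a := hAn.conj_mem z hzA g
      have h2 : (g * z * g⁻¹) ^ 2 = 1 := by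
        rw [conj_pow, hz2]; group
      rcases hsq _ h1 h2 with h | h
      · exfalso
        apply hz1
        have h3 : g⁻¹ * (g * z * g⁻¹) * g = z := by group
        rw [h] at h3
        simpa using h3.symm
      · exact h
    have hconjA : ∀ g : P, ∃ u : ℤ, g * a * g⁻¹ = a ^ u := fun g =>
      mem_zpowers_iff.mp (hAn.conj_mem a (mem_zpowers a) g) |>.imp fun _ h => h.symm
    haveI hbn : (zpowers b).Normal := by
      constructor
      intro s hs g
      obtain ⟨i, rfl⟩ := mem_zpowers_iff.mp hs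
      obtain ⟨u, hu⟩ := hconjA g
      rw [← conj_zpow, hb, ← conj_zpow, hu, ← zpow_mul, ← zpow_mul, mem_zpowers_iff]
      refine ⟨u * i, ?_⟩
      rw [← zpow_mul]
      congr 1
      ring
    have hbord : orderOf b = 4 := by
      apply orderOf_eq_of_pow_and_pow_div_prime (by norm_num)
      · have : b ^ 4 = (b ^ 2) ^ 2 := by rw [← pow_mul]
        rw [this, hb2, hz2]
      · intro q hq hqd
        have hq2 : q = 2 := by
          have : q ∣ 2 ^ 2 := by simpa using hqd
          exact (Nat.prime_dvd_prime_iff_eq hq Nat.prime_two).mp (hq.dvd_of_dvd_pow this)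
        subst hq2
        simpa [hb2] using hz1
    have hbcard : Nat.card (zpowers b) = 2 ^ 2 := by
      rw [Nat.card_zpowers, hbord]; norm_num
    have hidx := index_centralizer_le_of_card_sq hP (zpowers b) hbcard
    have hbz : ∀ v ∈ F ⊓ centralizer (zpowers b : Set P), v ∈ zpowers a → v ∈ zpowers z := by
      intro v hv hva
      rcases hsq v hva (hF.2 v hv.1) with rfl | rfl
      · exact one_mem _
      · exact mem_zpowers _
    have hnotle : ¬ centralizer (zpowers b : Set P) ≤ zpowers a := by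
      intro hle
      have hV : F ⊓ centralizer (zpowers b : Set P) ≤ zpowers z :=
        fun v hv => hbz v hv (hle hv.2)
      have hVc : Nat.card (F ⊓ centralizer (zpowers b : Set P) : Subgroup P) ≤ 2 := by
        have h1 := Subgroup.card_le_of_le hV
        rwa [Nat.card_zpowers, orderOf_eq_prime hz2 hz1] at h1
      have hrel : (centralizer (zpowers b : Set P)).relIndex F ≤ 2 := by
        refine le_trans (Nat.le_of_dvd ?_ (relIndex_dvd_index_of_normal _ _)) hidx
        exact Nat.pos_of_ne_zero index_ne_zero_of_finite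
      have hcard : Nat.card F = Nat.card (F ⊓ centralizer (zpowers b : Set P) : Subgroup P) *
          (centralizer (zpowers b : Set P)).relIndex F := by
        rw [← inf_relIndex_left]
        exact card_eq_mul_relIndex inf_le_left
      have : Nat.card F ≤ 2 * 2 := by
        rw [hcard]
        exact Nat.mul_le_mul hVc hrel
      omega
    obtain ⟨x, hxC, hxA, hxp, hxc⟩ := exists_mem_central_mod hP (zpowers a) _ hnotle
    obtain ⟨u, hu⟩ := hconjA x
    have hcx := conj_zpow_eq hu
    -- `x` commutes with `b`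
    have hxb : x * b * x⁻¹ = b := by
      have := mem_centralizer_iff.mp hxC b (mem_zpowers b)
      rw [← this]; group
    have hub : a ^ (u * (m : ℤ)) = a ^ (m : ℤ) := by
      rw [← hcx, ← hb, hxb]
    have h4 : (4 : ℤ) ∣ u - 1 := by
      have h1 : a ^ ((u - 1) * (m : ℤ)) = 1 := by
        rw [sub_mul, zpow_sub, hub, one_mul, mul_inv_cancel]
      rw [hone] at h1
      obtain ⟨c, hc⟩ := h1
      refine ⟨c, ?_⟩
      have h2 : (m : ℤ) * (u - 1) = (m : ℤ) * (4 * c) := by linarith
      exact mul_left_cancel₀ hmz.ne' h2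
    obtain ⟨t, ht⟩ := h4
    have hu' : u = 1 + 4 * t := by linarith
    -- coprimality
    have hco : ∀ r : ℤ, (4 * (m : ℤ)) ∣ r * (1 + 2 * t) → (4 * (m : ℤ)) ∣ r := by
      intro r hr
      have hc : IsCoprime (4 * (m : ℤ)) (1 + 2 * t) := by
        have : 4 * (m : ℤ) = (2 : ℤ) ^ (K + 2) := by
          rw [hm]; push_cast; ring
        rw [this]
        apply IsCoprime.pow_left
        exact ⟨-t, 1, by ring⟩
      exact hc.dvd_of_dvd_mul_right hr
    obtain ⟨j, hj⟩ := mem_zpowers_iff.mp hxp
    have hjodd : ¬ Odd j := fun h => hM x hxA hxc (hodd x j hj.symm h)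
    obtain ⟨i, rfl⟩ : ∃ i, j = 2 * i := by
      rw [Int.not_odd_iff_even] at hjodd
      obtain ⟨i, hi⟩ := hjodd
      exact ⟨i, by linarith⟩
    -- `x ^ 2` centralizes `a`
    have huu : a ^ (2 * (u - 1)) = 1 := by
      have hxxa : (x ^ 2) * a * (x ^ 2)⁻¹ = a := by
        rw [← hj]
        have : Commute (a ^ (2 * i)) a := (Commute.refl a).zpow_left _
        rw [this.eq]; group
      have h1 : x ^ 2 * a * (x ^ 2)⁻¹ = a ^ (u * u) := by
        have : x ^ 2 * a * (x ^ 2)⁻¹ = x * (x * a * x⁻¹) * x⁻¹ := by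
          simp only [pow_two]; group
        rw [this, hu, hcx]
      rw [h1] at hxxa
      have h2 : a ^ (u * u - 1) = 1 := by
        rw [zpow_sub, hxxa, zpow_one, mul_inv_cancel]
      rw [hone] at h2 ⊢
      have h3 : u * u - 1 = (2 * (u - 1)) * (1 + 2 * t) := by
        rw [hu']; ring
      rw [h3] at h2
      exact hco _ h2
    -- the involution
    have hw : ∀ e : ℤ, (a ^ ((u - 1) * e)) ^ 2 = 1 := by
      intro e
      rw [← zpow_natCast, ← zpow_mul]
      have : (u - 1) * e * ((2 : ℕ) : ℤ) = (2 * (u - 1)) * e := by push_cast; ring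
      rw [this, zpow_mul, huu, one_zpow]
    have hx' : (x * a ^ (-i)) ^ 2 = a ^ ((u - 1) * (-i)) := by
      have : (x * a ^ (-i)) ^ 2 = (x * a ^ (-i) * x⁻¹) * x ^ 2 * a ^ (-i) := by
        simp only [pow_two]; group
      rw [this, hcx, ← hj, ← zpow_add, ← zpow_add]
      congr 1
      ring
    have hxcom : ∀ e : ℤ, (x * a ^ e) * b = b * (x * a ^ e) := by
      intro e
      have h1 : x * b = b * x := (mem_centralizer_iff.mp hxC b (mem_zpowers b)).symm
      have h2 : a ^ e * b = b * a ^ e := by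
        rw [hb]
        exact ((Commute.refl a).zpow_zpow e _).eq
      calc (x * a ^ e) * b = x * (a ^ e * b) := by group
        _ = x * (b * a ^ e) := by rw [h2]
        _ = (x * b) * a ^ e := by group
        _ = (b * x) * a ^ e := by rw [h1]
        _ = b * (x * a ^ e) := by group
    obtain ⟨e, hye⟩ : ∃ e : ℤ, (x * a ^ e) ^ 2 = 1 := by
      rcases hsq _ (Subgroup.zpow_mem _ (mem_zpowers a) _) (hw (-i)) with h | h
      · exact ⟨-i, by rw [hx', h]⟩
      · refine ⟨-i + m, ?_⟩
        have hab : a ^ (-i + (m : ℤ)) = a ^ (-i) * b := by rw [zpow_add, hb]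
        have hcomm : Commute (x * a ^ (-i)) b := hxcom (-i)
        rw [hab, ← mul_assoc, hcomm.mul_pow, hx', h, hb2, ← pow_two, hz2]
    obtain ⟨y, hy⟩ : ∃ y, y = x * a ^ e := ⟨_, rfl⟩
    have hy2 : y ^ 2 = 1 := by rw [hy, hye]
    have hyA : y ∉ zpowers a := by
      intro h
      apply hxA
      have : x = y * (a ^ e)⁻¹ := by rw [hy]; group
      rw [this]
      exact mul_mem h (inv_mem (Subgroup.zpow_mem _ (mem_zpowers a) _))
    have hya : ∀ i : ℤ, y * a ^ i * y⁻¹ = a ^ (u * i) := by
      intro i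
      have h2 : a ^ e * a ^ i = a ^ i * a ^ e := ((Commute.refl a).zpow_zpow e i).eq
      rw [hy, ← hcx]
      calc x * a ^ e * a ^ i * (x * a ^ e)⁻¹ = x * (a ^ e * a ^ i) * (a ^ e)⁻¹ * x⁻¹ := by group
        _ = x * (a ^ i * a ^ e) * (a ^ e)⁻¹ * x⁻¹ := by rw [h2]
        _ = x * a ^ i * x⁻¹ := by group
    have hyc : ∀ g : P, ⁅y, g⁆ ∈ zpowers a := by
      intro g
      have e1 : ⁅y, g⁆ = x * ⁅a ^ e, g⁆ * x⁻¹ * ⁅x, g⁆ := by
        rw [hy]
        simp only [commutatorElement_def]
        group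
      rw [e1]
      refine mul_mem (hAn.conj_mem _ ?_ x) (hxc g)
      have e2 : ⁅a ^ e, g⁆ = a ^ e * (g * (a ^ e)⁻¹ * g⁻¹) := by
        rw [commutatorElement_def]; group
      rw [e2]
      have hae : a ^ e ∈ zpowers a := Subgroup.zpow_mem _ (mem_zpowers a) _
      exact mul_mem hae (hAn.conj_mem _ (inv_mem hae) g)
    have hyz : ∀ g : P, ⁅y, g⁆ ∈ zpowers z := by
      intro g
      have hs : ⁅g, y⁆ ∈ zpowers a := by
        rw [← commutatorElement_inv]
        exact inv_mem (hyc g)
      obtain ⟨l, hl⟩ := mem_zpowers_iff.mp hs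
      have hd : (⁅g, y⁆ * y) ^ 2 = 1 := by
        have : ⁅g, y⁆ * y = g * y * g⁻¹ := by
          rw [commutatorElement_def]; group
        rw [this, conj_pow, hy2]; group
      have h1 : (⁅g, y⁆ * y) ^ 2 = a ^ (l * (1 + u)) := by
        have e1 : (⁅g, y⁆ * y) ^ 2 = ⁅g, y⁆ * (y * ⁅g, y⁆ * y⁻¹) * y ^ 2 := by
          simp only [pow_two]; group
        rw [e1, hy2, ← hl, hya, ← zpow_add, mul_one]
        congr 1
        ring
      rw [h1, hone] at hd
      have h2 : (2 * l) * (1 + 2 * t) = l * (1 + u) := by rw [hu']; ring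
      rw [← h2] at hd
      have h3 := hco _ hd
      rw [← hone] at h3
      have h4 : (⁅g, y⁆) ^ 2 = 1 := by
        rw [← hl, ← zpow_natCast, ← zpow_mul, ← h3]
        congr 1
        push_cast
        ring
      rw [← commutatorElement_inv]
      apply inv_mem
      rcases hsq _ hs h4 with h | h
      · rw [h]; exact one_mem _
      · rw [h]; exact mem_zpowers z
    haveI hzn : (zpowers z).Normal := by
      constructor
      intro s hs g
      obtain ⟨l, rfl⟩ := mem_zpowers_iff.mp hs
      rw [← conj_zpow, hzc]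
      exact Subgroup.zpow_mem _ (mem_zpowers z) _
    have hzmem : ∀ s ∈ zpowers z, s ^ 2 = 1 := by
      intro s hs
      obtain ⟨l, rfl⟩ := mem_zpowers_iff.mp hs
      rw [← zpow_natCast, ← zpow_mul, mul_comm, zpow_mul]
      simp [hz2]
    have hyzp : y ∉ zpowers z := fun h => hyA ((zpowers_le.mpr hzA) h)
    refine ⟨zpowers z ⊔ zpowers y, normal_sup_zpowers _ hyz, ?_, ?_⟩
    · apply Basic.IsElementaryAbelian.sup_zpowers _ hy2
      · intro s hs
        obtain ⟨l, rfl⟩ := mem_zpowers_iff.mp hs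
        have hcomm : Commute y z := by
          change y * z = z * y
          calc y * z = y * z * y⁻¹ * y := by group
            _ = z * y := by rw [hzc]
        exact (hcomm.zpow_right l).eq
      · rw [Basic.isElementaryAbelian_iff]
        refine ⟨fun s hs t ht => ?_, hzmem⟩
        obtain ⟨i, rfl⟩ := mem_zpowers_iff.mp hs
        obtain ⟨j, rfl⟩ := mem_zpowers_iff.mp ht
        exact (Commute.refl z).zpow_zpow i j |>.eq
    · rw [card_sup_zpowers (p := 2) (zpowers z) hyzp (by rw [hy2]; exact one_mem _),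
        Nat.card_zpowers, orderOf_eq_prime hz2 hz1]
      norm_num

end Cfsg.Agent.Lib.PGroup.NormalFour
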