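import Mathlib
import Cfsg.Prelude.Def_PLocal
import Cfsg.Agent.Lib.PGroup.QdExt
import Cfsg.Agent.Lib.PGroup.QdKInf
import Cfsg.Agent.Lib.Fusion.QdStruct
import Cfsg.Agent.Lib.Fusion.GenExtra
import Cfsg.Agent.Lib.PGroup.SL2Gen

/-!
# The Sylow `p`-subgroups of `Qd(p)`: Heisenberg model
-/

set_option autoImplicit false

namespace Cfsg.Agent.Lib.PGroup.QdHeis

open Subgroup Matrix Cfsg.Agent.Lib.PGroup.QdExt
open scoped MatrixGroups commutatorElement

variable {p : ℕ}

/-- Heisenberg elements of `qd p` -/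
def mk [Fact p.Prime] (a b c : ZMod p) : heis p := ⟨⟨hmat a b c, hmat_mem_qd a b c⟩, a, b, c, rfl⟩

variable [hp : Fact p.Prime]

theorem mk_mul (a b c a' b' c' : ZMod p) :
    mk a b c * mk a' b' c' = mk (a + a') (b + b') (c + c' + a * b') :=
  Subtype.ext (Subtype.ext (hmat_mul _ _ _ _ _ _))

theorem mk_one : mk (0 : ZMod p) 0 0 = 1 := Subtype.ext (Subtype.ext hmat_zero)

theorem mk_inv (a b c : ZMod p) : (mk a b c)⁻¹ = mk (-a) (-b) (-c + a * b) :=
  Subtype.ext (Subtype.ext (hmat_inv _ _ _))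

theorem mk_surj (g : heis p) : ∃ a b c : ZMod p, g = mk a b c := by
  obtain ⟨g, a, b, c, h⟩ := g
  exact ⟨a, b, c, Subtype.ext (Subtype.ext h)⟩

theorem mk_inj {a b c a' b' c' : ZMod p} (h : mk a b c = mk a' b' c') : a = a' ∧ b = b' ∧ c = c' := by
  have h1 : hmat a b c = hmat a' b' c' := congrArg (fun z : heis p => ((z : qd p) : SL(3, ZMod p))) h
  exact hmat_inj h1

theorem card_heis : Nat.card (heis p) = p ^ 3 := by
  classical
  let f : ZMod p × ZMod p × ZMod p → heis p := fun q => mk q.1 q.2.1 q.2.2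
  have hf : Function.Bijective f := by
    constructor
    · rintro ⟨a, b, c⟩ ⟨a', b', c'⟩ h
      obtain ⟨h1, h2, h3⟩ := mk_inj h
      exact Prod.ext h1 (Prod.ext h2 h3)
    · intro g
      obtain ⟨a, b, c, rfl⟩ := mk_surj g
      exact ⟨(a, b, c), rfl⟩
  rw [← Nat.card_congr (Equiv.ofBijective f hf)]
  simp [Nat.card_prod]
  ring

theorem isPGroup_heis : IsPGroup p (heis p) := IsPGroup.of_card card_heis

theorem mem_center_mk {a b c : ZMod p} : mk a b c ∈ Subgroup.center (heis p) ↔ a = 0 ∧ b = 0 := by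
  rw [Subgroup.mem_center_iff]
  constructor
  · intro h
    have h1 := h (mk 1 0 0)
    have h2 := h (mk 0 1 0)
    rw [mk_mul, mk_mul] at h1 h2
    obtain ⟨-, -, h3⟩ := mk_inj h1
    obtain ⟨-, -, h4⟩ := mk_inj h2
    constructor
    · have : a = 0 := by linear_combination -h4
      exact this
    · have : b = 0 := by linear_combination h3
      exact this
  · rintro ⟨rfl, rfl⟩ g
    obtain ⟨a', b', c', rfl⟩ := mk_surj g
    rw [mk_mul, mk_mul]
    congr 1 <;> ring

theorem card_center : Nat.card (Subgroup.center (heis p)) = p := by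
  classical
  let f : ZMod p → Subgroup.center (heis p) := fun c => ⟨mk 0 0 c, mem_center_mk.2 ⟨rfl, rfl⟩⟩
  have hf : Function.Bijective f := by
    constructor
    · intro c c' h
      have h1 : mk (0 : ZMod p) 0 c = mk 0 0 c' := congrArg Subtype.val h
      exact (mk_inj h1).2.2
    · rintro ⟨g, hg⟩
      obtain ⟨a, b, c, rfl⟩ := mk_surj g
      obtain ⟨rfl, rfl⟩ := mem_center_mk.1 hg
      exact ⟨c, rfl⟩
  rw [← Nat.card_congr (Equiv.ofBijective f hf)]
  simp

theorem comm_mk (a b c a' b' c' : ZMod p) :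
    ⁅mk a b c, mk a' b' c'⁆ = mk 0 0 (a * b' - a' * b) := by
  rw [commutatorElement_def, mk_mul, mk_inv, mk_inv, mk_mul, mk_mul]
  congr 1 <;> ring

theorem mk_pow (a b c : ZMod p) (n : ℕ) :
    mk a b c ^ n = mk ((n : ZMod p) * a) ((n : ZMod p) * b)
      ((n : ZMod p) * c + ((n.choose 2 : ℕ) : ZMod p) * (a * b)) := by
  apply Subtype.ext
  apply Subtype.ext
  have := hmat_pow a b c n
  simpa [mk] using this

theorem isExtraspecial_heis : Cfsg.IsExtraspecial p (heis p) := by
  apply Cfsg.Agent.Lib.Fusion.GenExtra.isExtraspecial_of isPGroup_heis card_center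
  · intro x y
    obtain ⟨a, b, c, rfl⟩ := mk_surj x
    obtain ⟨a', b', c', rfl⟩ := mk_surj y
    rw [comm_mk]
    exact mem_center_mk.2 ⟨rfl, rfl⟩
  · intro x
    obtain ⟨a, b, c, rfl⟩ := mk_surj x
    rw [mk_pow]
    exact mem_center_mk.2 ⟨by simp, by simp⟩
  · refine ⟨mk 1 0 0, mk 0 1 0, ?_⟩
    rw [comm_mk, ← mk_one]
    intro h
    have := (mk_inj h).2.2
    simp at this

theorem exponent_heis (hp2 : p ≠ 2) : Monoid.exponent (heis p) = p := by
  haveI : Nontrivial (heis p) := by
    refine ⟨⟨mk 1 0 0, mk 0 0 0, fun h => ?_⟩⟩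
    have := (mk_inj h).1
    simp at this
  rw [Monoid.exponent_eq_prime_iff hp.out]
  intro g hg
  apply orderOf_eq_prime _ hg
  obtain ⟨a, b, c, rfl⟩ := mk_surj g
  apply Subtype.ext
  apply Subtype.ext
  exact hmat_pow_prime hp2 a b c

theorem factorization_card_qd : (Nat.card (Cfsg.qd p)).factorization p = 3 := by
  have hp' := hp.out
  rw [Cfsg.Agent.Lib.PGroup.QdKInf.card_qd]
  have hdvd := Cfsg.Agent.Lib.PGroup.QdKInf.not_dvd_sq_sub_one (p := p)
  have hne : p ^ 2 - 1 ≠ 0 := fun h => hdvd (h ▸ dvd_zero p)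
  rw [Nat.factorization_mul (pow_ne_zero _ hp'.ne_zero) hne]
  simp [Nat.factorization_eq_zero_of_not_dvd hdvd, hp'.factorization_self]

/-- `heis p` as a Sylow subgroup. -/
noncomputable def sylowH : Sylow p (Cfsg.qd p) :=
  Sylow.ofCard (heis p) (by rw [card_heis, factorization_card_qd])

@[simp] theorem coe_sylowH : ((sylowH : Sylow p (Cfsg.qd p)) : Subgroup (Cfsg.qd p)) = heis p := rfl

/-- Structure of all Sylow subgroups. -/
theorem sylow_struct (hp2 : p ≠ 2) (P : Sylow p (Cfsg.qd p)) :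
    Cfsg.IsExtraspecial p ↥P ∧ Nat.card P = p ^ 3 ∧ Monoid.exponent ↥P = p := by
  let e : (sylowH : Sylow p (Cfsg.qd p)) ≃* P := Sylow.equiv sylowH P
  have e' : heis p ≃* P := e
  refine ⟨Cfsg.Agent.Lib.Fusion.GenExtra.isExtraspecial_congr e' isExtraspecial_heis, ?_, ?_⟩
  · rw [← Nat.card_congr e'.toEquiv, card_heis]
  · exact (Monoid.exponent_eq_of_mulEquiv e').symm.trans (exponent_heis hp2)


section Char

open Cfsg.Agent.Lib.Fusion.QdStruct Cfsg.Agent.Lib.PGroup.QdSplit Cfsg.Agent.Lib.PSL2.Basic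
  Cfsg.Agent.Lib.PSL2.SylowU Cfsg.Agent.Lib.PGroup.SL2Gen

omit hp in
/-- coordinates -/
def ca (x : heis p) : ZMod p := ((x : Cfsg.qd p) : SL(3, ZMod p)).1 0 1
omit hp in
def cb (x : heis p) : ZMod p := ((x : Cfsg.qd p) : SL(3, ZMod p)).1 1 2
omit hp in
def cc (x : heis p) : ZMod p := ((x : Cfsg.qd p) : SL(3, ZMod p)).1 0 2

@[simp] theorem ca_mk (a b c : ZMod p) : ca (mk a b c) = a := by
  simp [ca, mk, hmat_coe]
@[simp] theorem cb_mk (a b c : ZMod p) : cb (mk a b c) = b := by
  simp [cb, mk, hmat_coe]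
@[simp] theorem cc_mk (a b c : ZMod p) : cc (mk a b c) = c := by
  simp [cc, mk, hmat_coe]

/-- The swap automorphism of the Heisenberg group. -/
noncomputable def swap : heis p ≃* heis p where
  toFun x := mk (cb x) (ca x) (ca x * cb x - cc x)
  invFun x := mk (cb x) (ca x) (ca x * cb x - cc x)
  left_inv x := by
    obtain ⟨a, b, c, rfl⟩ := mk_surj x
    simp only [ca_mk, cb_mk, cc_mk]
    congr 1
    ring
  right_inv x := by
    obtain ⟨a, b, c, rfl⟩ := mk_surj x
    simp only [ca_mk, cb_mk, cc_mk]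
    congr 1
    ring
  map_mul' x y := by
    obtain ⟨a, b, c, rfl⟩ := mk_surj x
    obtain ⟨a', b', c', rfl⟩ := mk_surj y
    simp only [mk_mul, ca_mk, cb_mk, cc_mk]
    congr 1
    ring

theorem swap_mk (a b c : ZMod p) : swap (mk a b c) = mk b a (a * b - c) := by
  show mk (cb (mk a b c)) (ca (mk a b c)) (ca (mk a b c) * cb (mk a b c) - cc (mk a b c)) = _
  simp only [ca_mk, cb_mk, cc_mk]

/-- `τ` on Heisenberg elements. -/
theorem τ_mk (a b c : ZMod p) : τ ((mk a b c : heis p) : Cfsg.qd p) = x a := by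
  apply τ_of_eq
  show hmat a b c = aff (x a) ![c, b]
  apply Matrix.SpecialLinearGroup.ext
  intro i j
  rw [hmat_coe, aff_coe]
  fin_cases i <;> fin_cases j <;> simp [x]

theorem ker_le_heis : (τ : Cfsg.qd p →* SL(2, ZMod p)).ker ≤ heis p := by
  intro m hm
  have hm' : τ m = 1 := hm
  obtain ⟨c, rfl⟩ := mem_range_T_iff.1 hm'
  refine ⟨0, Multiplicative.toAdd c 1, Multiplicative.toAdd c 0, ?_⟩
  show aff 1 (Multiplicative.toAdd c) = _
  apply Matrix.SpecialLinearGroup.ext
  intro i j
  rw [hmat_coe, aff_coe]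
  fin_cases i <;> fin_cases j <;> simp

theorem ker_le_sylow (S : Sylow p (Cfsg.qd p)) : (τ : Cfsg.qd p →* SL(2, ZMod p)).ker ≤ S := by
  obtain ⟨g, hg⟩ := MulAction.exists_smul_eq (Cfsg.qd p) (sylowH : Sylow p (Cfsg.qd p)) S
  intro m hm
  rw [← hg, Sylow.coe_subgroup_smul]
  have h1 : g⁻¹ * m * g ∈ heis p := by
    apply ker_le_heis
    rw [MonoidHom.mem_ker] at hm ⊢
    simp [hm]
  refine ⟨g⁻¹ * m * g, h1, ?_⟩
  simp [MulAut.smul_def, MulAut.conj_apply]
  group

/-- The translation subgroup is not characteristic in a Sylow `p`-subgroup. -/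
theorem not_char_ker (S : Sylow p (Cfsg.qd p)) :
    ¬ (((τ : Cfsg.qd p →* SL(2, ZMod p)).ker).subgroupOf (S : Subgroup (Cfsg.qd p))).Characteristic := by
  intro hc
  obtain ⟨g, hg⟩ := MulAction.exists_smul_eq (Cfsg.qd p) (sylowH : Sylow p (Cfsg.qd p)) S
  subst hg
  set S' : Subgroup (Cfsg.qd p) := ((g • (sylowH : Sylow p (Cfsg.qd p)) : Sylow p (Cfsg.qd p)) : Subgroup (Cfsg.qd p)) with hS'
  let e : heis p ≃* S' := Sylow.equivSMul sylowH g
  have he : ∀ z : heis p, ((e z : S') : Cfsg.qd p) = g * z * g⁻¹ := fun z => rfl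
  let ψ : S' ≃* S' := e.symm.trans (swap.trans e)
  have h1 := hc.fixed ψ
  have h2 : e (mk 0 1 0) ∈ ((τ : Cfsg.qd p →* SL(2, ZMod p)).ker).subgroupOf S' := by
    rw [Subgroup.mem_subgroupOf, MonoidHom.mem_ker, he]
    have this' : τ ((mk (0 : ZMod p) 1 0 : heis p) : Cfsg.qd p) = 1 := by rw [τ_mk, x_zero]
    rw [map_mul, map_mul, map_inv, this']
    simp
  rw [← h1, Subgroup.mem_comap] at h2
  have h3 : ψ (e (mk 0 1 0)) = e (swap (mk 0 1 0)) := by
    show e (swap (e.symm (e (mk 0 1 0)))) = _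
    rw [MulEquiv.symm_apply_apply]
  change ψ (e (mk 0 1 0)) ∈ _ at h2
  rw [h3, swap_mk, Subgroup.mem_subgroupOf, MonoidHom.mem_ker, he] at h2
  rw [map_mul, map_mul, map_inv, τ_mk] at h2
  have h4 : (x (1 : ZMod p) : SL(2, ZMod p)) = 1 := by
    have h6 : (x (1 : ZMod p) : SL(2, ZMod p)) = (τ g)⁻¹ * (τ g * x 1 * (τ g)⁻¹) * τ g := by group
    rw [h6, h2]
    simp
  have h5 := congrArg (fun A : SL(2, ZMod p) => A.1 0 1) h4
  simp at h5

/-- Conjugation by an element normalizing `S`, as automorphism of `S`. -/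
def conjOn {G : Type*} [Group G] (S : Subgroup G) (g : G) (hg : g ∈ Subgroup.normalizer (S : Set G)) : S ≃* S where
  toFun x := ⟨g * x * g⁻¹, (Subgroup.mem_normalizer_iff.1 hg x).1 x.2⟩
  invFun x := ⟨g⁻¹ * x * g, by
    have := (Subgroup.mem_normalizer_iff.1 hg (g⁻¹ * x * g)).2
    apply this
    have h : g * (g⁻¹ * x * g) * g⁻¹ = x := by group
    rw [h]
    exact x.2⟩
  left_inv x := by
    apply Subtype.ext
    show g⁻¹ * (g * x * g⁻¹) * g = x
    group
  right_inv x := by
    apply Subtype.ext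
    show g * (g⁻¹ * x * g) * g⁻¹ = x
    group
  map_mul' x y := by
    apply Subtype.ext
    show g * (x * y) * g⁻¹ = (g * x * g⁻¹) * (g * y * g⁻¹)
    group

theorem normalizer_le_char {G : Type*} [Group G] (S : Subgroup G) (T : Subgroup S) (hT : T.Characteristic) :
    Subgroup.normalizer (S : Set G) ≤ Subgroup.normalizer ((T.map S.subtype : Subgroup G) : Set G) := by
  intro g hg
  rw [Subgroup.mem_normalizer_iff]
  intro h
  have key : ∀ (x : S), (x ∈ T ↔ conjOn S g hg x ∈ T) := by
    intro x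
    have := hT.fixed (conjOn S g hg)
    conv_lhs => rw [← this]
    rfl
  constructor
  · rintro ⟨x, hx, rfl⟩
    exact ⟨conjOn S g hg x, (key x).1 hx, rfl⟩
  · rintro ⟨x, hx, hxe⟩
    have hh : h = g⁻¹ * x * g := by
      have : (x : G) = g * h * g⁻¹ := hxe
      rw [this]; group
    have hhS : h ∈ S := by rw [hh]; exact ((conjOn S g hg).symm x).2
    refine ⟨⟨h, hhS⟩, (key _).2 ?_, rfl⟩
    have : conjOn S g hg ⟨h, hhS⟩ = x := Subtype.ext hxe.symm
    rwa [this]

theorem normal_of_char {G : Type*} [Group G] (S : Subgroup G) (T : Subgroup S) (hT : T.Characteristic) :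
    S ≤ Subgroup.normalizer ((T.map S.subtype : Subgroup G) : Set G) := by
  intro s hs
  exact normalizer_le_char S T hT ((Subgroup.le_normalizer : S ≤ _) hs)

/-- Sylow subgroups of `SL₂(p)` are not normal. -/
theorem not_normal_sylow (Q : Sylow p SL(2, ZMod p)) : ¬ (Q : Subgroup SL(2, ZMod p)).Normal := by
  intro hN
  have h1 : Q = sylowU (ZMod p) p := by
    haveI : Unique (Sylow p SL(2, ZMod p)) := Sylow.unique_of_normal Q hN
    exact Subsingleton.elim _ _
  have h2 : (Q : Subgroup SL(2, ZMod p)) = U (ZMod p) := by rw [h1]; rfl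
  have h3 : (U (ZMod p)).Normal := h2 ▸ hN
  have h4 := h3.conj_mem (x 1) ⟨1, rfl⟩ w
  rw [w_x_w_inv, mem_U_iff_entries] at h4
  simpa using h4.2.2

theorem τ_surj : Function.Surjective (τ : Cfsg.qd p →* SL(2, ZMod p)) := τ_surjective

/-- The Theorem: normalizers of characteristic subgroups of Sylow subgroups in `Qd(p)`. -/
theorem normalizer_char (S : Sylow p (Cfsg.qd p)) (T : Subgroup ↥(S : Subgroup (Cfsg.qd p))) (hT : T ≠ ⊥)
    (hTc : T.Characteristic) :
    Subgroup.normalizer ((T.map (S : Subgroup (Cfsg.qd p)).subtype : Subgroup (Cfsg.qd p)) : Set (Cfsg.qd p)) =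
      Subgroup.normalizer ((S : Subgroup (Cfsg.qd p)) : Set (Cfsg.qd p)) ∧
    Subgroup.normalizer ((S : Subgroup (Cfsg.qd p)) : Set (Cfsg.qd p)) ≠ ⊤ := by
  classical
  set T' : Subgroup (Cfsg.qd p) := T.map (S : Subgroup (Cfsg.qd p)).subtype with hT'
  have hT'ne : T' ≠ ⊥ := by
    intro h
    apply hT
    rw [hT', Subgroup.map_eq_bot_iff_of_injective _ (Subgroup.subtype_injective _)] at h
    exact h
  let τ' : Cfsg.qd p →* SL(2, ZMod p) := τ
  have hτ' : Function.Surjective τ' := τ_surj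
  let Q₁ : Sylow p SL(2, ZMod p) := S.mapSurjective hτ'
  have hQ₁ : (Q₁ : Subgroup SL(2, ZMod p)) = (S : Subgroup (Cfsg.qd p)).map τ' := rfl
  have hnotnormal : ¬ (S : Subgroup (Cfsg.qd p)).Normal := by
    intro hN
    apply not_normal_sylow Q₁
    rw [hQ₁]
    exact hN.map τ' hτ'
  constructor
  · apply le_antisymm
    · intro g hg
      by_contra hgS
      -- `T'` is normal
      have hX : ∀ y, y ∈ Subgroup.normalizer ((T' : Subgroup (Cfsg.qd p)) : Set (Cfsg.qd p)) := by
        set X := Subgroup.normalizer ((T' : Subgroup (Cfsg.qd p)) : Set (Cfsg.qd p)) with hXdef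
        have hSX : (S : Subgroup (Cfsg.qd p)) ≤ X := normal_of_char _ T hTc
        let S₂ : Sylow p (Cfsg.qd p) := g • S
        have hS₂X : (S₂ : Subgroup (Cfsg.qd p)) ≤ X := by
          show ((g • S : Sylow p (Cfsg.qd p)) : Subgroup (Cfsg.qd p)) ≤ X
          rw [Sylow.coe_subgroup_smul]
          rintro _ ⟨s, hs, rfl⟩
          exact X.mul_mem (X.mul_mem hg (hSX hs)) (X.inv_mem hg)
        have hker := ker_le_sylow S
        have hker₂ := ker_le_sylow S₂
        let Q₂ : Sylow p SL(2, ZMod p) := S₂.mapSurjective hτ'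
        have hne : Q₁ ≠ Q₂ := by
          intro he
          have h1 : (S : Subgroup (Cfsg.qd p)) = S₂ := by
            have h2 : (S : Subgroup (Cfsg.qd p)).map τ' = (S₂ : Subgroup (Cfsg.qd p)).map τ' :=
              congrArg (fun Q : Sylow p SL(2, ZMod p) => (Q : Subgroup SL(2, ZMod p))) he
            have h3 := congrArg (Subgroup.comap τ') h2
            rw [Subgroup.comap_map_eq, Subgroup.comap_map_eq, sup_of_le_left hker, sup_of_le_left hker₂] at h3
            exact h3
          apply hgS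
          rw [Subgroup.mem_normalizer_iff]
          intro h
          have h4 : (S₂ : Subgroup (Cfsg.qd p)) = (S : Subgroup (Cfsg.qd p)).map (MulAut.conj g).toMonoidHom := by
            show ((g • S : Sylow p (Cfsg.qd p)) : Subgroup (Cfsg.qd p)) = _
            rw [Sylow.coe_subgroup_smul]
            rfl
          rw [← h1] at h4
          constructor
          · intro hh
            have : g * h * g⁻¹ ∈ (S : Subgroup (Cfsg.qd p)).map (MulAut.conj g).toMonoidHom := ⟨h, hh, rfl⟩
            rw [← h4] at this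
            exact this
          · intro hh
            rw [h4] at hh
            obtain ⟨z, hz, hze⟩ := hh
            have : z = h := by
              have h5 : g * z * g⁻¹ = g * h * g⁻¹ := hze
              exact mul_left_cancel (mul_right_cancel h5)
            exact this ▸ hz
        have htop := sup_sylow_eq_top p hne
        intro y
        have hy : τ' y ∈ (Q₁ : Subgroup SL(2, ZMod p)) ⊔ Q₂ := by rw [htop]; trivial
        have hle : (Q₁ : Subgroup SL(2, ZMod p)) ⊔ Q₂ ≤ X.map τ' := by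
          apply sup_le
          · exact Subgroup.map_mono hSX
          · exact Subgroup.map_mono hS₂X
        obtain ⟨z, hz, hze⟩ := hle hy
        have h6 : y * z⁻¹ ∈ τ'.ker := by
          rw [MonoidHom.mem_ker, map_mul, map_inv, ← hze]
          simp
        have h7 := hSX (hker h6)
        have h8 := X.mul_mem h7 hz
        simpa using h8
      have hnorm : T'.Normal := by
        have : Subgroup.normalizer ((T' : Subgroup (Cfsg.qd p)) : Set (Cfsg.qd p)) = ⊤ := by
          rw [eq_top_iff]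
          intro y _
          exact hX y
        exact Subgroup.normalizer_eq_top_iff.1 this
      -- translations lie in `T'`
      have hVT : τ'.ker ≤ T' := by
        intro m hm
        have hm' : τ m = 1 := hm
        obtain ⟨c, rfl⟩ := mem_range_T_iff.1 hm'
        exact T_mem_of_normal hT'ne c
      -- `τ(T')` is trivial
      have hcardQ : Nat.card (Q₁ : Subgroup SL(2, ZMod p)) = p := by
        have h1 := Nat.card_congr (Q₁.equiv (sylowU (ZMod p) p)).toEquiv
        rw [h1]
        show Nat.card (U (ZMod p)) = p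
        rw [card_U, ZMod.card]
      have hT'S : T' ≤ (S : Subgroup (Cfsg.qd p)) := by
        rintro _ ⟨t, _, rfl⟩
        exact t.2
      have hle : T'.map τ' ≤ (Q₁ : Subgroup SL(2, ZMod p)) := Subgroup.map_mono hT'S
      have hT'bot : T'.map τ' = ⊥ := by
        by_contra hne
        have h1 : T'.map τ' = (Q₁ : Subgroup SL(2, ZMod p)) := by
          apply Subgroup.eq_of_le_of_card_ge hle
          rw [hcardQ]
          have h2 : Nat.card (T'.map τ') ∣ Nat.card (Q₁ : Subgroup SL(2, ZMod p)) := Subgroup.card_dvd_of_le hle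
          rw [hcardQ] at h2
          rcases (Nat.dvd_prime hp.out).1 h2 with h3 | h3
          · exact absurd (Subgroup.eq_bot_of_card_eq _ h3) hne
          · exact h3.ge
        apply not_normal_sylow Q₁
        rw [← h1]
        exact hnorm.map τ' hτ'
      have hT'V : T' = τ'.ker := by
        apply le_antisymm _ hVT
        intro t ht
        have : τ' t ∈ T'.map τ' := ⟨t, ht, rfl⟩
        rw [hT'bot] at this
        exact this
      apply not_char_ker S
      have h9 : (τ : Cfsg.qd p →* SL(2, ZMod p)).ker.subgroupOf (S : Subgroup (Cfsg.qd p)) = T := by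
        have : (τ : Cfsg.qd p →* SL(2, ZMod p)).ker = T' := hT'V.symm
        rw [this, hT']
        exact Subgroup.comap_map_eq_self_of_injective (Subgroup.subtype_injective _) T
      rw [h9]
      exact hTc
    · exact normalizer_le_char _ T hTc
  · intro htop
    exact hnotnormal (Subgroup.normalizer_eq_top_iff.1 htop)

end Char

end Cfsg.Agent.Lib.PGroup.QdHeis
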