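import Mathlib
import Cfsg.Prelude.Def_LocalEven
import Cfsg.Agent.Lib.Basic.PCore
import Cfsg.Agent.Lib.PSL2.SylowU

/-!
# The affine group `Qd(F) = F² ⋊ SL₂(F)` over a finite field
-/

set_option autoImplicit false

namespace Cfsg.Agent.Lib.PGroup.QdOver

open Matrix Cfsg
open scoped MatrixGroups
open Cfsg.Agent.Lib.PSL2.Basic Cfsg.Agent.Lib.PSL2.SylowU

variable {F : Type*} [Field F]

/-- The affine matrix with linear part `A` and translation part `v`. -/
def aff (A : SL(2, F)) (v : Fin 2 → F) : SL(3, F) :=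
  ⟨!![A.1 0 0, A.1 0 1, v 0; A.1 1 0, A.1 1 1, v 1; 0, 0, 1], by
    have h := A.2
    rw [det_fin_two] at h
    rw [det_fin_three]
    simp only [cons_val', cons_val_zero, cons_val_one, cons_val, empty_val', cons_val_fin_one,
      head_cons, head_fin_const, of_apply]
    linear_combination h⟩

@[simp] lemma aff_coe (A : SL(2, F)) (v : Fin 2 → F) :
    (aff A v).1 = !![A.1 0 0, A.1 0 1, v 0; A.1 1 0, A.1 1 1, v 1; 0, 0, 1] := rfl

lemma aff_mul (A B : SL(2, F)) (v w : Fin 2 → F) :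
    aff A v * aff B w = aff (A * B) (v + A.1 *ᵥ w) := by
  apply Subtype.ext
  show (aff A v).1 * (aff B w).1 = _
  ext i j
  fin_cases i <;> fin_cases j <;>
    simp [Matrix.mul_apply, Fin.sum_univ_three, Fin.sum_univ_two, Matrix.mulVec, dotProduct,
      Matrix.SpecialLinearGroup.coe_mul, Matrix.vecHead, Matrix.vecTail] <;> ring

lemma aff_mem (A : SL(2, F)) (v : Fin 2 → F) : aff A v ∈ qdOver F :=
  Subgroup.subset_closure ⟨rfl, rfl, rfl⟩

lemma aff_one : aff (1 : SL(2, F)) 0 = 1 := by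
  apply Subtype.ext
  ext i j
  fin_cases i <;> fin_cases j <;> simp

theorem exists_aff {m : SL(3, F)} (hm : m ∈ qdOver F) : ∃ A v, m = aff A v := by
  have hlast : m.1 2 0 = 0 ∧ m.1 2 1 = 0 ∧ m.1 2 2 = 1 := by
    let Q : Subgroup SL(3, F) :=
      { carrier := {M | M.1 2 0 = 0 ∧ M.1 2 1 = 0 ∧ M.1 2 2 = 1}
        one_mem' := by simp
        mul_mem' := by
          rintro a b ⟨h1, h2, h3⟩ ⟨h4, h5, h6⟩
          simp [Matrix.SpecialLinearGroup.coe_mul, Matrix.mul_apply, Fin.sum_univ_three, h1, h2,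
            h3, h4, h5, h6]
        inv_mem' := by
          rintro a ⟨h1, h2, h3⟩
          have hv : Matrix.vecMul ![0, 0, 1] a.1 = ![0, 0, 1] := by
            ext j
            fin_cases j <;> simp [Matrix.vecMul, dotProduct, Fin.sum_univ_three, h1, h2, h3]
          have h4 : Matrix.vecMul ![0, 0, 1] (a⁻¹).1 = ![0, 0, 1] := by
            conv_lhs => rw [← hv]
            rw [Matrix.vecMul_vecMul, ← Matrix.SpecialLinearGroup.coe_mul]
            simp
          have h5 := congrFun h4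
          refine ⟨?_, ?_, ?_⟩
          · simpa [Matrix.vecMul, dotProduct, Fin.sum_univ_three] using h5 0
          · simpa [Matrix.vecMul, dotProduct, Fin.sum_univ_three] using h5 1
          · simpa [Matrix.vecMul, dotProduct, Fin.sum_univ_three] using h5 2 }
    have hle : qdOver F ≤ Q := by
      unfold qdOver
      rw [Subgroup.closure_le]
      intro M hM
      exact hM
    exact hle hm
  obtain ⟨h1, h2, h3⟩ := hlast
  have hdet : m.1 0 0 * m.1 1 1 - m.1 0 1 * m.1 1 0 = 1 := by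
    have h := m.2
    rw [det_fin_three, h1, h2, h3] at h
    linear_combination h
  refine ⟨⟨!![m.1 0 0, m.1 0 1; m.1 1 0, m.1 1 1], by rw [det_fin_two_of]; exact hdet⟩,
    ![m.1 0 2, m.1 1 2], ?_⟩
  apply Subtype.ext
  ext i j
  fin_cases i <;> fin_cases j <;> simp [aff, h1, h2, h3]

theorem aff_inj {A B : SL(2, F)} {v w : Fin 2 → F} (h : aff A v = aff B w) : A = B ∧ v = w := by
  have h1 := congrArg Subtype.val h
  rw [aff_coe, aff_coe] at h1
  have e : ∀ i j, (!![A.1 0 0, A.1 0 1, v 0; A.1 1 0, A.1 1 1, v 1; 0, 0, 1] : Matrix (Fin 3) (Fin 3) F) i j =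
      (!![B.1 0 0, B.1 0 1, w 0; B.1 1 0, B.1 1 1, w 1; 0, 0, 1] : Matrix (Fin 3) (Fin 3) F) i j :=
    fun i j => congrFun (congrFun h1 i) j
  constructor
  · apply Subtype.ext
    ext i j
    fin_cases i <;> fin_cases j
    · simpa using e 0 0
    · simpa using e 0 1
    · simpa using e 1 0
    · simpa using e 1 1
  · ext i
    fin_cases i
    · simpa using e 0 2
    · simpa using e 1 2

noncomputable def lin (m : qdOver F) : SL(2, F) := Classical.choose (exists_aff m.2)
noncomputable def tr (m : qdOver F) : Fin 2 → F := Classical.choose (Classical.choose_spec (exists_aff m.2))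

theorem coe_eq (m : qdOver F) : (m : SL(3, F)) = aff (lin m) (tr m) :=
  Classical.choose_spec (Classical.choose_spec (exists_aff m.2))

theorem lin_of_eq {m : qdOver F} {A : SL(2, F)} {v : Fin 2 → F} (h : (m : SL(3, F)) = aff A v) : lin m = A :=
  (aff_inj ((coe_eq m).symm.trans h)).1

theorem tr_of_eq {m : qdOver F} {A : SL(2, F)} {v : Fin 2 → F} (h : (m : SL(3, F)) = aff A v) : tr m = v :=
  (aff_inj ((coe_eq m).symm.trans h)).2

/-- The projection `Qd(F) → SL₂(F)`. -/
noncomputable def τ : qdOver F →* SL(2, F) :=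
  MonoidHom.mk' lin (fun a b => by
    apply lin_of_eq
    show (a : SL(3, F)) * b = _
    rw [coe_eq a, coe_eq b, aff_mul])

theorem τ_of_eq {m : qdOver F} {A : SL(2, F)} {v : Fin 2 → F} (h : (m : SL(3, F)) = aff A v) : τ m = A :=
  lin_of_eq h

theorem τ_surjective : Function.Surjective (τ : qdOver F →* SL(2, F)) := fun A =>
  ⟨⟨aff A 0, aff_mem _ _⟩, τ_of_eq rfl⟩

/-- entries of a matrix `m` in terms of its parts -/
lemma entries (m : qdOver F) :
    m.1.1 0 0 = (τ m).1 0 0 ∧ m.1.1 0 1 = (τ m).1 0 1 ∧ m.1.1 1 0 = (τ m).1 1 0 ∧ m.1.1 1 1 = (τ m).1 1 1 ∧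
      m.1.1 0 2 = tr m 0 ∧ m.1.1 1 2 = tr m 1 := by
  have h := congrArg Subtype.val (coe_eq m)
  have h2 : τ m = lin m := rfl
  rw [h2, h, aff_coe]
  simp

lemma mem_ker_iff (m : qdOver F) : m ∈ (τ : qdOver F →* SL(2, F)).ker ↔
    m.1.1 0 0 = 1 ∧ m.1.1 0 1 = 0 ∧ m.1.1 1 0 = 0 ∧ m.1.1 1 1 = 1 := by
  obtain ⟨h1, h2, h3, h4, -, -⟩ := entries m
  rw [MonoidHom.mem_ker, h1, h2, h3, h4]
  constructor
  · intro h
    rw [h]
    simp
  · rintro ⟨a, b, c, d⟩
    apply ext2 <;> simp [a, b, c, d]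

/-- Translation element. -/
def trans (v : Fin 2 → F) : qdOver F := ⟨aff 1 v, aff_mem _ _⟩

lemma trans_add (v w : Fin 2 → F) : trans (v + w) = trans v * trans w := by
  apply Subtype.ext
  show aff 1 (v + w) = aff 1 v * aff 1 w
  rw [aff_mul, mul_one]
  simp

lemma τ_trans (v : Fin 2 → F) : τ (trans v) = 1 := τ_of_eq rfl

lemma eq_trans_of_ker {m : qdOver F} (h : τ m = 1) : m = trans (tr m) := by
  apply Subtype.ext
  have h1 := coe_eq m
  have h2 : lin m = 1 := h
  rw [h2] at h1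
  exact h1

lemma trans_inj {v w : Fin 2 → F} (h : trans v = trans w) : v = w :=
  (aff_inj (congrArg Subtype.val h)).2

lemma tr_trans (v : Fin 2 → F) : tr (trans v) = v := tr_of_eq rfl

variable (p : ℕ) [hp : Fact p.Prime] [hc : CharP F p]

lemma trans_pow (v : Fin 2 → F) : trans v ^ p = 1 := by
  have h : ∀ n : ℕ, trans v ^ n = trans (n • v) := by
    intro n
    induction n with
    | zero =>
      apply Subtype.ext
      show (1 : SL(3, F)) = aff 1 (0 • v)
      rw [zero_smul, aff_one]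
    | succ k ih => rw [pow_succ, ih, succ_nsmul, trans_add]
  rw [h]
  have h0 : p • v = 0 := by
    funext i
    simp [CharP.cast_eq_zero]
  rw [h0]
  apply Subtype.ext
  show aff 1 0 = 1
  exact aff_one

lemma isPGroup_ker : IsPGroup p (τ : qdOver F →* SL(2, F)).ker := by
  intro m
  refine ⟨1, ?_⟩
  apply Subtype.ext
  have hm : τ (m : qdOver F) = 1 := m.2
  have h1 := eq_trans_of_ker hm
  show ((m : qdOver F)) ^ (p ^ 1) = 1
  rw [h1, pow_one]
  exact trans_pow p _

variable {p}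

/-- A normal `p`-subgroup of `SL₂(F)` is trivial. -/
theorem eq_bot_of_normal_pgroup [Fintype F] {N : Subgroup SL(2, F)} (hN : N.Normal) (hp' : IsPGroup p N) : N = ⊥ := by
  obtain ⟨g, hg⟩ := exists_conj_mem_U_of_isPGroup p hp'
  have hNU : ∀ a ∈ N, a ∈ U F := by
    intro a ha
    have h1 := hg (g⁻¹ * a * g) (by simpa using hN.conj_mem a ha g⁻¹)
    have h2 : g * (g⁻¹ * a * g) * g⁻¹ = a := by group
    rwa [h2] at h1
  rw [eq_bot_iff]
  intro a ha
  obtain ⟨t, rfl⟩ := hNU a ha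
  have h1 := hNU _ (hN.conj_mem _ ha w)
  rw [w_x_w_inv, mem_U_iff_entries] at h1
  have ht : t = 0 := by
    have := h1.2.2
    simpa using this
  rw [ht, x_zero]
  exact Subgroup.one_mem _

/-- `O_p(Qd(F))` is the translation subgroup. -/
theorem pCore_eq [Fintype F] : pCore p (qdOver F) = (τ : qdOver F →* SL(2, F)).ker := by
  haveI : Finite (qdOver F) := inferInstance
  apply le_antisymm
  · have h1 : (pCore p (qdOver F)).map τ = ⊥ := by
      apply eq_bot_of_normal_pgroup (p := p)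
      · haveI := Cfsg.Agent.Lib.Basic.PCore.pCore_normal p (qdOver F)
        exact Subgroup.Normal.map inferInstance _ τ_surjective
      · exact (Cfsg.Agent.Lib.Basic.PCore.pCore_isPGroup p : IsPGroup p (pCore p (qdOver F))).map _
    intro m hm
    have : τ m ∈ (pCore p (qdOver F)).map τ := ⟨m, hm, rfl⟩
    rw [h1] at this
    exact this
  · exact Cfsg.Agent.Lib.Basic.PCore.le_pCore (MonoidHom.normal_ker _) (isPGroup_ker p)

/-- The complement. -/
noncomputable def comp : SL(2, F) →* qdOver F :=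
  MonoidHom.mk' (fun A => ⟨aff A 0, aff_mem _ _⟩) (fun A B => by
    apply Subtype.ext
    show aff (A * B) 0 = aff A 0 * aff B 0
    rw [aff_mul]
    simp)

omit hp hc in
lemma τ_comp (A : SL(2, F)) : τ (comp A) = A := τ_of_eq rfl

omit hp hc in
lemma comp_injective : Function.Injective (comp : SL(2, F) →* qdOver F) := fun A B h => by
  have := congrArg τ h
  rwa [τ_comp, τ_comp] at this

omit hp hc in
lemma conj_trans (A : SL(2, F)) (v : Fin 2 → F) : comp A * trans v * (comp A)⁻¹ = trans (A.1 *ᵥ v) := by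
  rw [mul_inv_eq_iff_eq_mul]
  apply Subtype.ext
  show aff A 0 * aff 1 v = aff 1 (A.1 *ᵥ v) * aff A 0
  rw [aff_mul, aff_mul]
  simp

omit hp hc in
lemma mem_range_comp (m : qdOver F) : m ∈ (comp : SL(2, F) →* qdOver F).range ↔ m.1.1 0 2 = 0 ∧ m.1.1 1 2 = 0 := by
  obtain ⟨-, -, -, -, h5, h6⟩ := entries m
  rw [h5, h6]
  constructor
  · rintro ⟨A, rfl⟩
    have h : tr (comp A) = 0 := tr_of_eq rfl
    rw [h]
    simp
  · rintro ⟨h1, h2⟩
    refine ⟨lin m, ?_⟩
    apply Subtype.ext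
    show aff (lin m) 0 = m.1
    have hq : tr m = 0 := by
      funext i
      fin_cases i
      · exact h1
      · exact h2
    rw [coe_eq m, hq]

theorem main [Fintype F] :
    (∀ M : ↥(Cfsg.qdOver F), M ∈ Cfsg.pCore p ↥(Cfsg.qdOver F) ↔ ((M : Matrix.SpecialLinearGroup (Fin 3) F) : Matrix (Fin 3) (Fin 3) F) 0 0 = 1 ∧ ((M : Matrix.SpecialLinearGroup (Fin 3) F) : Matrix (Fin 3) (Fin 3) F) 0 1 = 0 ∧ ((M : Matrix.SpecialLinearGroup (Fin 3) F) : Matrix (Fin 3) (Fin 3) F) 1 0 = 0 ∧ ((M : Matrix.SpecialLinearGroup (Fin 3) F) : Matrix (Fin 3) (Fin 3) F) 1 1 = 1) ∧ ∃ K : Subgroup ↥(Cfsg.qdOver F), (∀ M : ↥(Cfsg.qdOver F), M ∈ K ↔ ((M : Matrix.SpecialLinearGroup (Fin 3) F) : Matrix (Fin 3) (Fin 3) F) 0 2 = 0 ∧ ((M : Matrix.SpecialLinearGroup (Fin 3) F) : Matrix (Fin 3) (Fin 3) F) 1 2 = 0) ∧ K ⊓ Cfsg.pCore p ↥(Cfsg.qdOver F) = ⊥ ∧ K ⊔ Cfsg.pCore p ↥(Cfsg.qdOver F) = ⊤ ∧ Nonempty (↥K ≃* Matrix.SpecialLinearGroup (Fin 2) F) ∧ Cfsg.IsNaturalSL2Module F (Cfsg.pCore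 p ↥(Cfsg.qdOver F)) K := by
  rw [pCore_eq]
  refine ⟨mem_ker_iff, (comp : SL(2, F) →* qdOver F).range, mem_range_comp, ?_, ?_, ?_, ?_⟩
  · rw [eq_bot_iff]
    rintro m ⟨⟨A, rfl⟩, h2⟩
    have : A = 1 := by
      have h3 : τ (comp A) = 1 := h2
      rwa [τ_comp] at h3
    rw [this, map_one]
    exact Subgroup.one_mem _
  · rw [eq_top_iff]
    intro m _
    have h1 : m = comp (τ m) * trans ((τ m)⁻¹.1 *ᵥ tr m) := by
      apply Subtype.ext
      show m.1 = aff (τ m) 0 * aff 1 _
      rw [aff_mul, zero_add, mul_one, coe_eq m]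
      have h : τ m = lin m := rfl
      rw [h, Matrix.mulVec_mulVec, ← Matrix.SpecialLinearGroup.coe_mul, mul_inv_cancel,
        Matrix.SpecialLinearGroup.coe_one, Matrix.one_mulVec]
    rw [h1]
    exact Subgroup.mul_mem_sup ⟨_, rfl⟩ (τ_trans _)
  · exact ⟨(MonoidHom.ofInjective comp_injective).symm⟩
  · let ψ : Additive ((τ : qdOver F →* SL(2, F)).ker) ≃+ (Fin 2 → F) :=
      { toFun := fun v => tr (Additive.toMul v).1
        invFun := fun u => Additive.ofMul ⟨trans u, τ_trans u⟩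
        left_inv := fun v => by
          apply Additive.toMul.injective
          apply Subtype.ext
          exact (eq_trans_of_ker (Additive.toMul v).2).symm
        right_inv := fun u => tr_trans u
        map_add' := fun a b => by
          show tr ((Additive.toMul a).1 * (Additive.toMul b).1) = _ + _
          have ha := eq_trans_of_ker (Additive.toMul a).2
          have hb := eq_trans_of_ker (Additive.toMul b).2
          conv_lhs => rw [ha, hb, ← trans_add, tr_trans] }
    refine ⟨?_, (τ : qdOver F →* SL(2, F)).comp (Subgroup.subtype _), ψ, ?_, ?_, ?_⟩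
    · rintro _ ⟨A, rfl⟩
      rw [Subgroup.normalizer_eq_top_iff.2 (MonoidHom.normal_ker _)]
      trivial
    · intro A
      exact ⟨⟨comp A, ⟨A, rfl⟩⟩, τ_comp A⟩
    · ext ⟨_, ⟨A, rfl⟩⟩
      rw [MonoidHom.mem_ker, Subgroup.mem_subgroupOf]
      show τ (comp A) = 1 ↔ _
      rw [τ_comp]
      constructor
      · intro h
        show comp A ∈ _
        rw [h, map_one]
        exact Subgroup.one_mem _
      · intro h
        have hA : ∀ u : Fin 2 → F, A.1 *ᵥ u = u := by
          intro u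
          have h1 := Subgroup.mem_centralizer_iff.1 h (trans u) (τ_trans u)
          have h2 : comp A * trans u * (comp A)⁻¹ = trans u := by
            rw [← h1]; group
          rw [conj_trans] at h2
          exact trans_inj h2
        have h00 := congrFun (hA ![1, 0]) 0
        have h10 := congrFun (hA ![1, 0]) 1
        have h01 := congrFun (hA ![0, 1]) 0
        have h11 := congrFun (hA ![0, 1]) 1
        simp [Matrix.mulVec, dotProduct, Fin.sum_univ_two] at h00 h10 h01 h11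
        apply ext2 <;> simp [h00, h10, h01, h11]
    · rintro ⟨_, ⟨A, rfl⟩⟩ ⟨v, hv⟩
      have hv' := eq_trans_of_ker hv
      refine ⟨⟨trans (A.1 *ᵥ tr v), τ_trans _⟩, ?_, ?_⟩
      · show trans (A.1 *ᵥ tr v) = comp A * v * (comp A)⁻¹
        rw [← conj_trans, ← hv']
      · show tr (trans (A.1 *ᵥ tr v)) = (τ (comp A)).1 *ᵥ tr v
        rw [tr_trans, τ_comp]

end Cfsg.Agent.Lib.PGroup.QdOver
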