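import Mathlib
import Cfsg.Agent.Lib.PGroup.QdControl
import Cfsg.Agent.Lib.PGroup.QdKInf

/-!
# `Z(J)` does not control strong fusion in `Qd(p)`
-/

namespace Cfsg.Agent.Lib.PGroup.QdZJ

open Subgroup Cfsg Matrix Cfsg.Agent.Lib.PGroup.QdSplit Cfsg.Agent.Lib.PGroup.ZJ
open Cfsg.Agent.Lib.PGroup.QdKInf
open scoped MatrixGroups

universe u

variable {p : ℕ} [hp : Fact p.Prime] {X : Type u} [Group X]

/-- The abstract contradiction. -/
theorem not_control_ZZ [Finite X] (τ : ZMod p → ZMod p → ZMod p → X)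
    (hmul : ∀ a b c a' b' c', τ a b c * τ a' b' c' = τ (a + a') (b + b' + a * c') (c + c'))
    (hinj : ∀ a b c a' b' c', τ a b c = τ a' b' c' → a = a' ∧ b = b' ∧ c = c')
    (T : Sylow p X) (hT : ∀ x : X, x ∈ (T : Subgroup X) ↔ ∃ a b c, x = τ a b c)
    (hV : ∀ (x : X) (b c : ZMod p), ∃ b' c', x * τ 0 b c * x⁻¹ = τ 0 b' c')
    (g : X) (hg : g * τ 0 1 0 * g⁻¹ = τ 0 0 (-1)) :
    ¬ ControlsStrongFusion p (ZZ 0 (T : Subgroup X)) := by
  classical
  rintro ⟨T', hUT', hctl⟩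
  set U : Subgroup X := ZZ 0 (T : Subgroup X) with hU
  have h1ne : (1 : ZMod p) ≠ 0 := one_ne_zero
  have hτ0 : τ 0 0 0 = 1 := by
    have := hmul 0 0 0 0 0 0
    simp only [add_zero, mul_zero] at this
    exact mul_left_cancel (a := τ 0 0 0) (by rw [this, mul_one])
  have hτinv : ∀ a b c, (τ a b c)⁻¹ = τ (-a) (a * c - b) (-c) := by
    intro a b c
    apply inv_eq_of_mul_eq_one_right
    rw [hmul, ← hτ0]
    congr 1 <;> ring
  have hmemT : ∀ a b c, τ a b c ∈ (T : Subgroup X) := fun a b c => (hT _).2 ⟨a, b, c, rfl⟩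
  -- the abelian subgroups
  let A₂ : Subgroup X :=
    { carrier := {x | ∃ a b, x = τ a b 0}
      mul_mem' := by
        rintro _ _ ⟨a, b, rfl⟩ ⟨a', b', rfl⟩
        refine ⟨a + a', b + b', ?_⟩
        rw [hmul]
        congr 1 <;> ring
      one_mem' := ⟨0, 0, hτ0.symm⟩
      inv_mem' := by
        rintro _ ⟨a, b, rfl⟩
        refine ⟨-a, a * 0 - b, ?_⟩
        rw [hτinv]
        congr 1
        ring }
  let V : Subgroup X :=
    { carrier := {x | ∃ b c, x = τ 0 b c}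
      mul_mem' := by
        rintro _ _ ⟨b, c, rfl⟩ ⟨b', c', rfl⟩
        refine ⟨b + b', c + c', ?_⟩
        rw [hmul]
        congr 1 <;> ring
      one_mem' := ⟨0, 0, hτ0.symm⟩
      inv_mem' := by
        rintro _ ⟨b, c, rfl⟩
        refine ⟨0 * c - b, -c, ?_⟩
        rw [hτinv]
        congr 1
        ring }
  have hVn : V.Normal := by
    constructor
    rintro _ ⟨b, c, rfl⟩ x
    exact hV x b c
  have hVT : V ≤ (T : Subgroup X) := by
    rintro _ ⟨b, c, rfl⟩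
    exact hmemT _ _ _
  have hVT' : V ≤ (T' : Subgroup X) :=
    (Cfsg.Agent.Lib.Basic.PCore.le_pCore hVn ((T.isPGroup').to_le hVT)).trans
      (Cfsg.Agent.Lib.Basic.PCore.pCore_le_sylow T')
  have hA₂T : A₂ ≤ (T : Subgroup X) := by
    rintro _ ⟨a, b, rfl⟩
    exact hmemT _ _ _
  have hA₂comm : ∀ x ∈ A₂, ∀ y ∈ A₂, x * y = y * x := by
    rintro _ ⟨a, b, rfl⟩ _ ⟨a', b', rfl⟩
    rw [hmul, hmul]
    congr 1 <;> ring
  -- cardinalities
  have hcT : Nat.card (T : Subgroup X) = p ^ 3 := by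
    let f : ZMod p × ZMod p × ZMod p → (T : Subgroup X) := fun q => ⟨τ q.1 q.2.1 q.2.2, hmemT _ _ _⟩
    have hf : Function.Bijective f := by
      constructor
      · rintro ⟨a, b, c⟩ ⟨a', b', c'⟩ h
        obtain ⟨h1, h2, h3⟩ := hinj _ _ _ _ _ _ (congrArg Subtype.val h)
        simp only at h1 h2 h3
        rw [h1, h2, h3]
      · rintro ⟨x, hx⟩
        obtain ⟨a, b, c, rfl⟩ := (hT x).1 hx
        exact ⟨(a, b, c), rfl⟩
    rw [← Nat.card_congr (Equiv.ofBijective f hf)]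
    simp only [Nat.card_prod, Nat.card_zmod]
    ring
  have hcA₂ : Nat.card A₂ = p ^ 2 := by
    let f : ZMod p × ZMod p → A₂ := fun q => ⟨τ q.1 q.2 0, q.1, q.2, rfl⟩
    have hf : Function.Bijective f := by
      constructor
      · rintro ⟨a, b⟩ ⟨a', b'⟩ h
        obtain ⟨h1, h2, h3⟩ := hinj _ _ _ _ _ _ (congrArg Subtype.val h)
        simp only at h1 h2
        rw [h1, h2]
      · rintro ⟨_, a, b, rfl⟩
        exact ⟨(a, b), rfl⟩
    rw [← Nat.card_congr (Equiv.ofBijective f hf)]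
    simp only [Nat.card_prod, Nat.card_zmod]
    ring
  have hA₂AA : A₂ ∈ AA 0 (T : Subgroup X) := by
    refine ⟨hA₂T, ⟨hA₂comm, fun x _ => pow_zero x⟩, ?_⟩
    intro W hW hWP
    rw [hcA₂]
    by_contra hlt
    push Not at hlt
    -- `W = T`
    have hdvd : Nat.card W ∣ p ^ 3 := hcT ▸ Subgroup.card_dvd_of_le hW
    obtain ⟨k, hk, hke⟩ := (Nat.dvd_prime_pow hp.out).mp hdvd
    have hk3 : k = 3 := by
      have hk2 : ¬ k ≤ 2 := by
        intro h
        have := Nat.pow_le_pow_right hp.out.pos h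
        omega
      omega
    have hWT : W = (T : Subgroup X) := Subgroup.eq_of_le_of_card_ge hW (by rw [hcT, hke, hk3])
    have h1 : τ 1 0 0 * τ 0 0 1 = τ 0 0 1 * τ 1 0 0 :=
      hWP.1 _ (hWT ▸ hmemT _ _ _) _ (hWT ▸ hmemT _ _ _)
    rw [hmul, hmul] at h1
    obtain ⟨-, h2, -⟩ := hinj _ _ _ _ _ _ h1
    apply h1ne
    simpa using h2
  -- `τ 0 1 0` is in `U`
  have hz : τ 0 1 0 ∈ U := by
    refine mem_ZZ_of_forall fun W hW => mem_of_comm hW (hmemT _ _ _) ?_ (pow_zero _)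
    intro w hw
    obtain ⟨a, b, c, rfl⟩ := (hT _).1 (hW.1 hw)
    rw [hmul, hmul]
    congr 1 <;> ring
  have hUA : U ≤ A₂ := ZZ_le hA₂AA
  obtain ⟨-, h⟩ := hctl {τ 0 1 0} (by
    rintro _ rfl
    exact hUT' hz)
  obtain ⟨x, hx, e⟩ := h g (by
    rintro _ ⟨_, rfl, rfl⟩
    simp only
    rw [hg]
    exact hVT' ⟨0, -1, rfl⟩)
  have h1 := e (τ 0 1 0) rfl
  rw [hg] at h1
  have h2 : τ 0 0 (-1) ∈ U := by
    rw [h1]
    exact (mem_normalizer_iff.mp hx _).mp hz
  obtain ⟨a, b, hab⟩ := hUA h2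
  obtain ⟨-, -, h3⟩ := hinj _ _ _ _ _ _ hab
  apply h1ne
  simpa using h3

/-- The abstract contradiction in `Qd(p)`. -/
theorem exists_not_control {X : Type u} [Group X] [Finite X] (e : X ≃* qd p) :
    ∃ T : Sylow p X, ¬ ControlsStrongFusion p (centerThompsonAOf (T : Subgroup X)) := by
  classical
  let τ : ZMod p → ZMod p → ZMod p → X := fun a b c => e.symm ⟨tt a b c, aff_mem_qd _ _⟩
  have hmul : ∀ a b c a' b' c', τ a b c * τ a' b' c' = τ (a + a') (b + b' + a * c') (c + c') := by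
    intro a b c a' b' c'
    show e.symm _ * e.symm _ = e.symm _
    rw [← map_mul]
    congr 1
    exact Subtype.ext (tt_mul _ _ _ _ _ _)
  have hinj : ∀ a b c a' b' c', τ a b c = τ a' b' c' → a = a' ∧ b = b' ∧ c = c' := by
    intro a b c a' b' c' h
    have h1 := e.symm.injective h
    exact tt_inj _ _ _ _ _ _ (congrArg Subtype.val h1)
  have hcard : Nat.card X = p ^ 3 * (p ^ 2 - 1) := by
    rw [Nat.card_congr e.toEquiv, card_qd]
  obtain ⟨T, hT⟩ := exists_sylow_of_param τ hmul hinj hcard not_dvd_sq_sub_one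
  refine ⟨T, ?_⟩
  rw [centerThompsonAOf_eq]
  refine not_control_ZZ τ hmul hinj T hT ?_ (e.symm ⟨aff ww 0, aff_mem_qd _ _⟩) ?_
  · intro x b c
    obtain ⟨m, hm⟩ : ∃ m : qd p, e x = m := ⟨_, rfl⟩
    obtain ⟨A, v, hmA⟩ := exists_aff_of_mem_qd m.2
    have hc := aff_conj A v ![b, c]
    refine ⟨(A.1 *ᵥ ![b, c]) 0, (A.1 *ᵥ ![b, c]) 1, ?_⟩
    apply e.injective
    rw [map_mul, map_mul, map_inv, hm]
    simp only [τ, MulEquiv.apply_symm_apply]
    apply Subtype.ext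
    show (m : SL(3, ZMod p)) * tt 0 b c * (m : SL(3, ZMod p))⁻¹ = tt 0 _ _
    rw [hmA, tt_zero_eq, tt_zero_eq, hc]
    congr 1
    ext i
    fin_cases i <;> rfl
  · apply e.injective
    rw [map_mul, map_mul, map_inv]
    simp only [τ, MulEquiv.apply_symm_apply]
    apply Subtype.ext
    show aff ww 0 * tt 0 1 0 * (aff ww 0)⁻¹ = tt 0 0 (-1)
    rw [tt_zero_eq, tt_zero_eq, aff_conj]
    congr 1
    ext i
    fin_cases i <;> simp [ww, Matrix.mulVec, dotProduct, Fin.sum_univ_two]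

end Cfsg.Agent.Lib.PGroup.QdZJ
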