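import Mathlib
import Cfsg.Agent.Lib.PGroup.QuadLocal
import Cfsg.Agent.Lib.PSL2.DicksonSL2
import Cfsg.Agent.Lib.Solvable.PSeries

/-!
# Quadratic pairs and normal `p'`-subgroups: `p = 3`
-/

namespace Cfsg.Agent.Lib.PGroup.QuadThree

open Cfsg Matrix Cfsg.Agent.Lib.PSL2.Basic Cfsg.Agent.Lib.PGroup.QuadSections
open Cfsg.Agent.Lib.PGroup.QdSplit Cfsg.Agent.Lib.Basic.PCore
open Cfsg.Agent.Lib.PGroup.QuadG
open Cfsg.Agent.Lib.PSL2.DicksonSL Cfsg.Agent.Lib.PSL2.DicksonSL2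
open Cfsg.Agent.Lib.PSL2.DPart Cfsg.Agent.Lib.PSL2.DCount Cfsg.Agent.Lib.PSL2.Members
open scoped MatrixGroups commutatorElement

universe u

variable {p : ℕ} [hp : Fact p.Prime] {E : Type*} [Field E] [Fintype E] [CharP E p]

/-- `N̄` normal `p'` in `R ≤ SL₂(E)`, non-central, more than one Sylow: `p = 3`. -/
theorem p_eq_three_of_sl2 (hp2 : p ≠ 2) (R : Subgroup SL(2, E)) (hn : 1 < Nat.card (Sylow p R))
    (N : Subgroup SL(2, E)) (hNR : N ≤ R) (hNn : R ≤ Subgroup.normalizer (N : Set SL(2, E)))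
    (hNp : (Nat.card N).Coprime p) (hNc : ∃ z ∈ N, z ≠ 1 ∧ z ≠ -1) : p = 3 := by
  classical
  have hn' := card_sylow_map_ne_one hp2 R hn
  let Rb : Subgroup PSL(2, E) := R.map mkP
  let Nb : Subgroup Rb := (N.map mkP).subgroupOf Rb
  have hmemN : ∀ u : Rb, u ∈ Nb ↔ u.1 ∈ N.map mkP := fun u => Iff.rfl
  haveI hNbn : Nb.Normal := by
    refine ⟨fun n hn g => ?_⟩
    obtain ⟨u, hu, hun⟩ := (hmemN n).1 hn
    obtain ⟨r, hr, hrg⟩ := g.2
    refine (hmemN _).2 ⟨r * u * r⁻¹, (Subgroup.mem_normalizer_iff.1 (hNn hr) u).1 hu, ?_⟩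
    show mkP (r * u * r⁻¹) = g.1 * n.1 * g.1⁻¹
    rw [map_mul, map_mul, map_inv, hrg, hun]
  have hNb1 : Nb ≠ ⊥ := by
    obtain ⟨z, hz, hz1, hz2⟩ := hNc
    intro hb
    have h1 : (⟨mkP z, z, hNR hz, rfl⟩ : Rb) ∈ Nb := (hmemN _).2 ⟨z, hz, rfl⟩
    rw [hb, Subgroup.mem_bot] at h1
    have h2 : mkP z = 1 := congrArg Subtype.val h1
    exact mkP_ne_one ⟨hz1, hz2⟩ h2
  have hNbp : ¬ p ∣ Nat.card Nb := by
    intro hd
    let r : N →* Nb :=
      { toFun := fun u => ⟨⟨mkP u.1, u.1, hNR u.2, rfl⟩, u.1, u.2, rfl⟩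
        map_one' := by
          apply Subtype.ext
          apply Subtype.ext
          show mkP (1 : SL(2, E)) = 1
          rw [map_one]
        map_mul' := fun u v => by
          apply Subtype.ext
          apply Subtype.ext
          show mkP (u.1 * v.1) = mkP u.1 * mkP v.1
          rw [map_mul] }
    have hr : Function.Surjective r := by
      rintro ⟨⟨w, hw⟩, hw'⟩
      obtain ⟨u, hu, rfl⟩ := (hmemN _).1 hw'
      exact ⟨⟨u, hu⟩, rfl⟩
    have h1 : Nat.card Nb ∣ Nat.card N := Subgroup.card_dvd_of_surjective r hr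
    have h2 : p ∣ Nat.card N := hd.trans h1
    have h3 := Nat.Coprime.eq_one_of_dvd hNp.symm h2
    exact hp.out.ne_one h3
  exact p_eq_three_of_normal hp2 Rb hn' Nb hNb1 hNbp

/-- The form for a homomorphism onto a subgroup containing two root elements. -/
theorem p_eq_three_of_hom (hp2 : p ≠ 2) {Y : Type*} [Group Y] [Finite Y] (ψ : Y →* SL(2, E)) {s : E}
    (hs : s ≠ 0) (hy : y 1 ∈ ψ.range) (hx : x s ∈ ψ.range) (Q : Subgroup Y) [hQn : Q.Normal]
    (hQ : (Nat.card Q).Coprime p) (hQc : ∃ z ∈ Q, ψ z ≠ 1 ∧ ψ z ≠ -1) : p = 3 := by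
  classical
  refine p_eq_three_of_sl2 hp2 ψ.range (one_lt_card_sylow _ hs hy hx) (Q.map ψ) ?_ ?_ ?_ ?_
  · rintro _ ⟨u, -, rfl⟩
    exact ⟨u, rfl⟩
  · rintro _ ⟨r, rfl⟩
    refine Subgroup.mem_normalizer_iff.2 fun z => ?_
    constructor
    · rintro ⟨u, hu, rfl⟩
      exact ⟨r * u * r⁻¹, hQn.conj_mem u hu r, by simp [map_mul, map_inv]⟩
    · rintro ⟨u, hu, he⟩
      refine ⟨r⁻¹ * u * r, ?_, ?_⟩
      · have := hQn.conj_mem u hu r⁻¹
        simpa using this
      · simp only [map_mul, map_inv]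
        rw [he]
        group
  · have hd : Nat.card (Q.map ψ) ∣ Nat.card Q := Subgroup.card_map_dvd Q ψ
    exact Nat.Coprime.coprime_dvd_left hd hQ
  · obtain ⟨z, hz, h1, h2⟩ := hQc
    exact ⟨ψ z, ⟨z, hz, rfl⟩, h1, h2⟩

omit hp in
/-- A nontrivial `p`-solvable group with trivial `O_p` has a nontrivial normal `p'`-subgroup. -/
theorem pPrimeCore_ne_bot_of_pSolvable {X : Type*} [Group X] [Finite X] [Nontrivial X]
    (hsep : IsPSolvable p X) (hO : pCore p X = ⊥) : pPrimeCore p X ≠ ⊥ := by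
  classical
  intro hO'
  obtain ⟨n, H, h0, hl, hm, hn, hi⟩ := hsep
  have key : ∀ i : Fin (n + 1), H i = ⊥ := by
    intro i
    induction i using Fin.induction with
    | zero => exact h0
    | succ i ih =>
      have hnorm : (H i.succ).Normal := hn _
      rcases hi i with ⟨m, hm'⟩ | hc
      · rw [ih, Subgroup.relIndex_bot_left] at hm'
        have h1 : IsPGroup p (H i.succ) := IsPGroup.of_card hm'
        have h2 := le_pCore hnorm h1
        rw [hO] at h2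
        exact le_bot_iff.1 h2
      · rw [ih, Subgroup.relIndex_bot_left] at hc
        have h2 := le_pPrimeCore hnorm hc
        rw [hO'] at h2
        exact le_bot_iff.1 h2
  have h1 := key (Fin.last n)
  rw [hl] at h1
  exact top_ne_bot h1

/-- More than one Sylow in `PSL₂`: `O_p` is trivial. -/
theorem pCore_eq_bot_of_card_sylow (H₁ : Subgroup PSL(2, E)) (hn : Nat.card (Sylow p H₁) ≠ 1) :
    pCore p H₁ = ⊥ := by
  classical
  have hnt : Nontrivial (Sylow p H₁) := by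
    apply Finite.one_lt_card_iff_nontrivial.1
    have h0 : 0 < Nat.card (Sylow p H₁) := Nat.card_pos
    omega
  obtain ⟨Q₁, Q₂, hne⟩ := exists_pair_ne (Sylow p H₁)
  have hdvd : p ∣ Nat.card H₁ := by
    by_contra hcon
    apply hne
    have h1 : ∀ Q : Sylow p H₁, (Q : Subgroup H₁) = ⊥ := by
      intro Q
      apply Subgroup.eq_bot_of_card_eq
      obtain ⟨k, hk⟩ := IsPGroup.iff_card.1 Q.isPGroup'
      have h2 : Nat.card (Q : Subgroup H₁) ∣ Nat.card H₁ := Subgroup.card_subgroup_dvd_card _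
      rcases Nat.eq_zero_or_pos k with rfl | h0
      · simpa using hk
      · exfalso
        apply hcon
        rw [hk] at h2
        exact (dvd_pow_self p h0.ne').trans h2
    exact Sylow.ext ((h1 Q₁).trans (h1 Q₂).symm)
  obtain ⟨M, hM, hP⟩ := exists_isP_member H₁ hdvd
  let D : Dp H₁ p := dp H₁ p
  rw [eq_bot_iff]
  intro z hz
  rw [Subgroup.mem_bot]
  by_contra hz1
  apply hne
  apply Sylow.ext
  exact D.disj _ (sylow_mem_of_isP D hM hP Q₁) _ (sylow_mem_of_isP D hM hP Q₂) z hz1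
    (pCore_le_sylow Q₁ hz) (pCore_le_sylow Q₂ hz)

/-- `p`-solvable form. -/
theorem p_eq_three_of_pSolvable (hp2 : p ≠ 2) {Y : Type*} [Group Y] [Finite Y] (ψ : Y →* SL(2, E))
    {s : E} (hs : s ≠ 0) (hy : y 1 ∈ ψ.range) (hx : x s ∈ ψ.range) (hsep : IsPSolvable p Y) :
    p = 3 := by
  classical
  have hn := card_sylow_map_ne_one hp2 ψ.range (one_lt_card_sylow _ hs hy hx)
  let Rb : Subgroup PSL(2, E) := ψ.range.map mkP
  let f : Y →* Rb := (mkP.comp ψ).codRestrict Rb (fun z => ⟨ψ z, ⟨z, rfl⟩, rfl⟩)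
  have hf : Function.Surjective f := by
    rintro ⟨_, _, ⟨z, rfl⟩, rfl⟩
    exact ⟨z, rfl⟩
  have hsep' : IsPSolvable p Rb := by
    obtain ⟨k, hk⟩ := Cfsg.Agent.Lib.Solvable.PSeries.isPSolvable_iff.1 hsep
    exact Cfsg.Agent.Lib.Solvable.PSeries.isPSolvable_iff.2
      ⟨k, Cfsg.Agent.Lib.Solvable.PSeries.pLengthLE_map hf hk⟩
  have hO := pCore_eq_bot_of_card_sylow Rb hn
  haveI hnt : Nontrivial Rb := by
    refine ⟨⟨⟨mkP (x s), x s, hx, rfl⟩, 1, fun h => ?_⟩⟩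
    have h1 : mkP (x s) = 1 := congrArg Subtype.val h
    have hnc : NC (x s) := by
      constructor
      · intro h2
        have := congrArg (fun M : SL(2, E) => M.1 0 1) h2
        simp at this
        exact hs this
      · intro h2
        have := congrArg (fun M : SL(2, E) => M.1 0 1) h2
        simp at this
        exact hs this
    exact mkP_ne_one hnc h1
  have hN1 := pPrimeCore_ne_bot_of_pSolvable hsep' hO
  haveI : (pPrimeCore p Rb).Normal := Cfsg.Agent.Lib.Basic.PCore.pPrimeCore_normal p _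
  refine p_eq_three_of_normal hp2 Rb hn (pPrimeCore p Rb) hN1 ?_
  intro hd
  have h3 := Nat.Coprime.eq_one_of_dvd (Cfsg.Agent.Lib.Solvable.PSeries.pPrimeCore_coprime p).symm hd
  exact hp.out.ne_one h3

variable {G : Type u} [Group G] [Finite G]

/-- **The form of S0594.** -/
theorem two_quadratic_normal (hD : HasDickson.{u} p) (hp2 : p ≠ 2) (V H : Subgroup G)
    (hV : IsElementaryAbelian p V) (hHV : H ≤ Subgroup.normalizer (V : Set G))
    (hf : H ⊓ Subgroup.centralizer (V : Set G) = ⊥) (a b : G) (hab : H = Subgroup.closure {a, b})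
    (ha : ⁅⁅V, Subgroup.zpowers a⁆, Subgroup.zpowers a⁆ = ⊥)
    (hb : ⁅⁅V, Subgroup.zpowers b⁆, Subgroup.zpowers b⁆ = ⊥)
    (Q : Subgroup G) (hQH : Q ≤ H) (hQn : H ≤ Subgroup.normalizer (Q : Set G))
    (hQ : (Nat.card Q).Coprime p) (hQa : ⁅Q, Subgroup.zpowers a⁆ ≠ ⊥) :
    p = 3 ∧ Sec SL(2, ZMod p) H := by
  classical
  subst hab
  have hVp : IsPGroup p V := by
    intro v
    refine ⟨1, Subtype.ext ?_⟩
    simpa using hV.2 v.1 v.2
  have haY : a ∈ Subgroup.closure {a, b} := Subgroup.subset_closure (Or.inl rfl)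
  have hbY : b ∈ Subgroup.closure {a, b} := Subgroup.subset_closure (Or.inr rfl)
  -- the element of the commutator
  obtain ⟨h, hh, hh1⟩ := (Subgroup.bot_or_exists_ne_one _).resolve_left hQa
  have hcomm_le : ⁅Q, Subgroup.zpowers a⁆ ≤ Q := by
    rw [Subgroup.commutator_le]
    intro z hz g hg
    have hgN : g ∈ Subgroup.normalizer (Q : Set G) := by
      apply hQn
      exact (Subgroup.zpowers_le.2 haY) hg
    have h1 : g * z⁻¹ * g⁻¹ ∈ Q := (Subgroup.mem_normalizer_iff.1 hgN z⁻¹).1 (inv_mem hz)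
    have h2 : ⁅z, g⁆ = z * (g * z⁻¹ * g⁻¹) := by
      rw [commutatorElement_def]
      group
    rw [h2]
    exact mul_mem hz h1
  have hhQ : h ∈ Q := hcomm_le hh
  have hhY : h ∈ Subgroup.closure {a, b} := hQH hhQ
  have hcop : Nat.Coprime (orderOf h) p := by
    have h1 : orderOf (⟨h, hhQ⟩ : Q) ∣ Nat.card Q := orderOf_dvd_natCard _
    rw [Subgroup.orderOf_mk] at h1
    exact Nat.Coprime.coprime_dvd_left h1 hQ
  have hhC : h ∉ Subgroup.centralizer (V : Set G) := by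
    intro hc
    have : h ∈ Subgroup.closure {a, b} ⊓ Subgroup.centralizer (V : Set G) := ⟨hhY, hc⟩
    rw [hf, Subgroup.mem_bot] at this
    exact hh1 this
  have haD : a ∈ Subgroup.closure {a, b} ⊔ V := Subgroup.mem_sup_left haY
  have hbD : b ∈ Subgroup.closure {a, b} ⊔ V := Subgroup.mem_sup_left hbY
  obtain ⟨Γ, _, _, q, E, _, _, _, s, π, θ, hq, hs, hπa, hπb, -, -, -, -, -, hπh⟩ :=
    ambient_data_full V hVp a b h (hHV haY) (hHV hbY) (quad_elem ha) (quad_elem hb) hhY hcop hhC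
      haD hbD
  have hYD : Subgroup.closure {a, b} ≤ Subgroup.closure {a, b} ⊔ V := le_sup_left
  let ψ : ↥(Subgroup.closure {a, b}) →* SL(2, E) :=
    π.comp (q.comp (Subgroup.inclusion hYD))
  have hy : y 1 ∈ ψ.range := ⟨⟨a, haY⟩, hπa⟩
  have hx : x s ∈ ψ.range := ⟨⟨b, hbY⟩, hπb⟩
  have hψh : ψ ⟨h, hhY⟩ ≠ 1 := hπh
  refine ⟨?_, sec_sl2_of_hom hD ψ hs hy hx⟩
  -- the normal subgroup
  let Q' : Subgroup ↥(Subgroup.closure {a, b}) := Q.subgroupOf _
  haveI hQ'n : Q'.Normal := by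
    refine ⟨fun n hn g => ?_⟩
    exact (Subgroup.mem_normalizer_iff.1 (hQn g.2) n.1).1 hn
  have hQ'c : (Nat.card Q').Coprime p := by
    have e : Nat.card Q' = Nat.card Q :=
      Nat.card_congr (Subgroup.subgroupOfEquivOfLe hQH).toEquiv
    rwa [e]
  refine p_eq_three_of_hom hp2 ψ hs hy hx Q' hQ'c ?_
  by_contra hcon
  push Not at hcon
  apply hψh
  -- all of `Q` is central under `ψ`
  have hcen : ∀ z (hz : z ∈ Q), ψ ⟨z, hQH hz⟩ ∈ Subgroup.center SL(2, E) := by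
    intro z hz
    by_cases h1 : ψ ⟨z, hQH hz⟩ = 1
    · rw [h1]
      exact Subgroup.one_mem _
    · exact mem_center_iff₂.2 (Or.inr (hcon ⟨z, hQH hz⟩ hz h1))
  have hker : ⁅Q, Subgroup.zpowers a⁆ ≤ ψ.ker.map (Subgroup.closure {a, b}).subtype := by
    rw [Subgroup.commutator_le]
    intro z hz g hg
    have hgY : g ∈ Subgroup.closure {a, b} := (Subgroup.zpowers_le.2 haY) hg
    have hmem : ⁅(⟨z, hQH hz⟩ : ↥(Subgroup.closure {a, b})), ⟨g, hgY⟩⁆ ∈ ψ.ker := by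
      rw [MonoidHom.mem_ker, map_commutatorElement, commutatorElement_eq_one_iff_mul_comm]
      exact (Subgroup.mem_center_iff.1 (hcen z hz) _).symm
    exact ⟨_, hmem, rfl⟩
  obtain ⟨u, hu, hue⟩ := hker hh
  have hu' : u = ⟨h, hhY⟩ := Subtype.ext hue
  rw [← hu']
  exact hu

/-- **The form of S0596.** -/
theorem pSolvable_quadratic (hD : HasDickson.{u} p) (hp2 : p ≠ 2) (V H : Subgroup G)
    (hV : IsElementaryAbelian p V) (hHV : H ≤ Subgroup.normalizer (V : Set G))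
    (hf : H ⊓ Subgroup.centralizer (V : Set G) = ⊥) (hsep : IsPSolvable p H) (a : G) (haH : a ∈ H)
    (hq : ⁅⁅V, Subgroup.zpowers a⁆, Subgroup.zpowers a⁆ = ⊥)
    (hna : a ∉ (pCore p H).map H.subtype) :
    p = 3 ∧ Sec SL(2, ZMod p) H := by
  classical
  have hVp : IsPGroup p V := by
    intro v
    refine ⟨1, Subtype.ext ?_⟩
    simpa using hV.2 v.1 v.2
  let a₀ : H := ⟨a, haH⟩
  have hqa := quad_elem hq
  obtain ⟨n, hn⟩ := pow_mem_centralizer_of_quad hVp (hHV haH) hqa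
  have hx₀ : ∃ n : ℕ, a₀ ^ p ^ n = 1 := by
    refine ⟨n, Subtype.ext ?_⟩
    have h1 : a ^ p ^ n ∈ H ⊓ Subgroup.centralizer (V : Set G) := ⟨pow_mem haH _, hn⟩
    rw [hf, Subgroup.mem_bot] at h1
    exact h1
  have hcore : a₀ ∉ pCore p H := fun h => hna ⟨a₀, h, rfl⟩
  obtain ⟨g₀, y₀, hy₀, hk⟩ := exists_conj_not_pgroup hx₀ hcore
  obtain ⟨h₀, hh₀, hcop, hne⟩ := exists_coprime_lift (MonoidHom.id H) (a := a₀)
    (b := g₀ * a₀ * g₀⁻¹) (y := y₀) hy₀ hk
  let g : G := g₀.1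
  let b : G := g * a * g⁻¹
  have hmap : (Subgroup.closure {a₀, g₀ * a₀ * g₀⁻¹}).map H.subtype = Subgroup.closure {a, b} := by
    rw [MonoidHom.map_closure, Set.image_pair]
    rfl
  have hh : (h₀ : G) ∈ Subgroup.closure {a, b} := by
    rw [← hmap]
    exact Subgroup.mem_map_of_mem _ hh₀
  have hcop' : Nat.Coprime (orderOf (h₀ : G)) p := by
    rwa [Subgroup.orderOf_coe]
  have hhC : (h₀ : G) ∉ Subgroup.centralizer (V : Set G) := by
    intro hc
    have : (h₀ : G) ∈ H ⊓ Subgroup.centralizer (V : Set G) := ⟨h₀.2, hc⟩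
    rw [hf, Subgroup.mem_bot] at this
    exact hne (Subtype.ext this)
  have hbH : b ∈ H := mul_mem (mul_mem g₀.2 haH) (inv_mem g₀.2)
  have hYH : Subgroup.closure {a, b} ≤ H := by
    rw [Subgroup.closure_le]
    rintro z (rfl | rfl)
    · exact haH
    · exact hbH
  have haY : a ∈ Subgroup.closure {a, b} := Subgroup.subset_closure (Or.inl rfl)
  have hbY : b ∈ Subgroup.closure {a, b} := Subgroup.subset_closure (Or.inr rfl)
  have haD : a ∈ Subgroup.closure {a, b} ⊔ V := Subgroup.mem_sup_left haY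
  have hbD : b ∈ Subgroup.closure {a, b} ⊔ V := Subgroup.mem_sup_left hbY
  obtain ⟨Γ, _, _, q, E, _, _, _, s, π, θ, hq', hs, hπa, hπb, -⟩ :=
    ambient_data V hVp a b _ (hHV haH) (hHV hbH) hqa (quad_elem_conj (hHV g₀.2) hqa) hh hcop' hhC
      haD hbD
  have hYD : Subgroup.closure {a, b} ≤ Subgroup.closure {a, b} ⊔ V := le_sup_left
  let ψ : ↥(Subgroup.closure {a, b}) →* SL(2, E) :=
    π.comp (q.comp (Subgroup.inclusion hYD))
  have hy : y 1 ∈ ψ.range := ⟨⟨a, haY⟩, hπa⟩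
  have hx : x s ∈ ψ.range := ⟨⟨b, hbY⟩, hπb⟩
  have hsepY : IsPSolvable p ↥(Subgroup.closure {a, b}) := by
    obtain ⟨k, hk⟩ := Cfsg.Agent.Lib.Solvable.PSeries.isPSolvable_iff.1 hsep
    exact Cfsg.Agent.Lib.Solvable.PSeries.isPSolvable_iff.2
      ⟨k, Cfsg.Agent.Lib.Solvable.PSeries.pLengthLE_of_injective
        (Subgroup.inclusion hYH) (Subgroup.inclusion_injective hYH) hk⟩
  refine ⟨p_eq_three_of_pSolvable hp2 ψ hs hy hx hsepY, ?_⟩
  have h1 := sec_sl2_of_hom hD ψ hs hy hx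
  exact Cfsg.Agent.Lib.PGroup.QuadLocal.sec_of_injective (Subgroup.inclusion hYH)
    (Subgroup.inclusion_injective hYH) h1

end Cfsg.Agent.Lib.PGroup.QuadThree
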